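import Cfsg.Statements.S0668
import Mathlib

set_option autoImplicit false
open Cfsg

namespace Cfsg.Agent.S0668

open Classical in
/-- The linear map with a matrix that is constant on the orbits of `G` on the product. -/
noncomputable def ofOrbitFun (G : Type*) [Group G] (K : Type*) [Field K] (Ω₁ Ω₂ : Type*)
    [Fintype Ω₁] [Fintype Ω₂] [MulAction G Ω₁] [MulAction G Ω₂] :
    (MulAction.orbitRel.Quotient G (Ω₁ × Ω₂) → K) →ₗ[K]
      ((Cfsg.permRep K G Ω₁).linHom (Cfsg.permRep K G Ω₂)).invariants where
  toFun c := ⟨Matrix.toLin' (Matrix.of fun y x => c (Quotient.mk'' (x, y))), by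
    rw [Representation.mem_invariants]
    intro g
    ext1 
    rw [Representation.linHom_apply]
    apply LinearMap.ext
    intro r
    funext y
    rename_i x
    simp only [LinearMap.comp_apply, permRep, MonoidHom.coe_mk, OneHom.coe_mk, LinearMap.coe_mk,
      AddHom.coe_mk, Matrix.toLin'_apply, Matrix.mulVec, dotProduct, Matrix.of_apply, inv_inv,
      LinearMap.coe_single]
    refine Fintype.sum_equiv (MulAction.toPerm g) _ _ (fun z => ?_)
    simp only [MulAction.toPerm_apply]
    congr 2
    refine Quotient.sound' ⟨g⁻¹, ?_⟩
    simp⟩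
  map_add' c d := by
    ext x y
    simp
  map_smul' r c := by
    ext x y
    simp

/-- The equivariant linear maps between the permutation modules of two finite `G`-sets form a space whose dimension is the number of `G`-orbits on the product of the two sets. -/
theorem result {G : Type*} [Group G] {K : Type*} [Field K] {Ω₁ Ω₂ : Type*} [Fintype Ω₁] [Fintype Ω₂] [MulAction G Ω₁] [MulAction G Ω₂] : Module.finrank K ((Cfsg.permRep K G Ω₁).linHom (Cfsg.permRep K G Ω₂)).invariants = Nat.card (MulAction.orbitRel.Quotient G (Ω₁ × Ω₂)) := by
  classical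
  have hbij : Function.Bijective (ofOrbitFun G K Ω₁ Ω₂) := by
    constructor
    · rw [injective_iff_map_eq_zero]
      intro c hc
      funext q
      induction q using Quotient.inductionOn' with
      | h q =>
      have h1 : Matrix.toLin' (Matrix.of fun y x => c (Quotient.mk'' (x, y))) = 0 :=
        congrArg Subtype.val hc
      have h2 := (LinearEquiv.map_eq_zero_iff _).1 h1
      exact congrFun (congrFun h2 q.2) q.1
    · rintro ⟨T, hT⟩
      rw [Representation.mem_invariants] at hT
      have key : ∀ (g : G) (x : Ω₁) (y : Ω₂),
          T (Pi.single (g • x) 1) (g • y) = T (Pi.single x 1) y := by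
        intro g x y
        have h1 := congrFun (LinearMap.congr_fun (hT g) (Pi.single (g • x) 1)) (g • y)
        rw [← h1, Representation.linHom_apply]
        simp only [LinearMap.comp_apply, permRep, MonoidHom.coe_mk, OneHom.coe_mk, LinearMap.coe_mk,
          AddHom.coe_mk, inv_inv, inv_smul_smul]
        have : (fun z : Ω₁ => (Pi.single (g • x) (1 : K) : Ω₁ → K) (g • z)) = Pi.single x 1 := by
          funext z
          simp [Pi.single_apply]
        rw [this]
      refine ⟨fun q => Quotient.liftOn' q (fun z => T (Pi.single z.1 1) z.2) ?_, ?_⟩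
      · rintro z w ⟨g, rfl⟩
        exact key g w.1 w.2
      · apply Subtype.ext
        change Matrix.toLin' _ = T
        rw [← LinearEquiv.eq_symm_apply]
        ext y x
        simp
  rw [← (LinearEquiv.ofBijective _ hbij).finrank_eq]
  have : Fintype (MulAction.orbitRel.Quotient G (Ω₁ × Ω₂)) := Fintype.ofFinite _
  simp

end Cfsg.Agent.S0668
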