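import Cfsg.Statements.S0677
import Cfsg.Agent.H1.Heart

set_option autoImplicit false
open Cfsg

namespace Cfsg.Agent.S0677

open MulAction H1.Coord H1.Heart

theorem two_ne_zero_zmod {p : ℕ} [hp : Fact p.Prime] (h2 : p ≠ 2) : (2 : ZMod p) ≠ 0 := by
  intro h
  have : ((2 : ℕ) : ZMod p) = 0 := by exact_mod_cast h
  rw [ZMod.natCast_eq_zero_iff] at this
  exact h2 ((Nat.prime_dvd_prime_iff_eq hp.out Nat.prime_two).1 this)

theorem sum_reflection {p : ℕ} [Fact p.Prime] (h2 : p ≠ 2) (a : ZMod p) (F : ZMod p → ZMod 2)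
    (hF : ∀ i, F (2 * a - i) = F i) : ∑ i, F i = F a := by
  classical
  rw [← Finset.add_sum_erase _ _ (Finset.mem_univ a), add_eq_left]
  refine Finset.sum_involution (fun i _ => 2 * a - i) (fun i _ => ?_) (fun i hi _ => ?_)
    (fun i hi => ?_) (fun i _ => by ring)
  · rw [hF, ← two_mul]
    exact mul_eq_zero_of_left rfl _
  · intro h
    apply (Finset.mem_erase.1 hi).1
    apply mul_left_cancel₀ (two_ne_zero_zmod h2)
    linear_combination -h
  · refine Finset.mem_erase.2 ⟨fun h => (Finset.mem_erase.1 hi).1 ?_, Finset.mem_univ _⟩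
    linear_combination -h

variable {G : Type*} [Group G] [Finite G] {p : ℕ} [hp : Fact p.Prime] {α : Type*} [MulAction G α]
  [FaithfulSMul G α]

omit [Finite G] in
theorem fixed_of_affine {e : ZMod p ≃ α} (haff : ∀ g : G, IsAffine e g) (H : Subgroup G)
    (hH : ¬ p ∣ Nat.card H) : ∃ a : α, H ≤ stabilizer G a := by
  have key : ∀ g ∈ H, slope e g = 1 → g = 1 := by
    intro g hg h1
    have h2 := orderOf_dvd_of_pow_eq_one (pow_eq_one_of_slope_eq_one (haff g) h1)
    rcases (Nat.dvd_prime hp.out).1 h2 with h | h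
    · exact orderOf_eq_one_iff.1 h
    · exact absurd (h ▸ H.orderOf_dvd_natCard hg) hH
  by_cases hbot : ∀ g ∈ H, g = 1
  · refine ⟨e 0, fun g hg => ?_⟩
    rw [hbot g hg]
    exact one_mem _
  push Not at hbot
  obtain ⟨h, hh, hne⟩ := hbot
  have hs : slope e h ≠ 1 := fun h1 => hne (key h hh h1)
  obtain ⟨b, hb⟩ := (haff h).spec
  have hs' : 1 - slope e h ≠ 0 := sub_ne_zero.2 hs.symm
  refine ⟨e (b / (1 - slope e h)), fun g hg => ?_⟩
  have hcomm : h * g = g * h := by
    let f : G →* (ZMod p)ˣ := (slopeHom e haff).toHomUnits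
    have h1 : f (h * g * (g * h)⁻¹) = 1 := by
      rw [map_mul, map_inv, map_mul, map_mul, mul_comm (f h), mul_inv_cancel]
    have h2 := key _ (H.mul_mem (H.mul_mem hh hg) (H.inv_mem (H.mul_mem hg hh)))
      (congrArg Units.val h1)
    exact mul_inv_eq_one.1 h2
  have hfix : h • e (b / (1 - slope e h)) = e (b / (1 - slope e h)) := by
    rw [hb]
    congr 1
    field_simp
    ring
  obtain ⟨j, hj⟩ := e.surjective (g • e (b / (1 - slope e h)))
  rw [mem_stabilizer_iff, ← hj]
  have h3 : h • e j = e j := by rw [hj, ← mul_smul, hcomm, mul_smul, hfix]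
  rw [hb] at h3
  have h4 := e.injective h3
  congr 1
  field_simp
  linear_combination -h4

omit [FaithfulSMul G α] in
theorem fixed_of_two_transitive {e : ZMod p ≃ α} {σ : G} (hσ : ∀ j, σ • e j = e (j + 1))
    (hσp : σ ^ p = 1) (h2 : p ≠ 2) (htwo : IsMultiplyPretransitive G α 2) {t : G} {c : ZMod p}
    (ht : ∀ j, t • e j = e (c - j)) (H : Subgroup G) (hind : H.index = p)
    (hH : ¬ p ∣ Nat.card H) : ∃ a : α, H ≤ stabilizer G a := by
  classical
  have : Fintype (G ⧸ H) := Fintype.ofFinite _
  let o : G ⧸ H := ((1 : G) : G ⧸ H)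
  have ho : ∀ g : G, g • o = o ↔ g ∈ H := by
    intro g
    rw [← mem_stabilizer_iff, stabilizer_quotient]
  have hzp : ∀ i j : ZMod p, zp σ i • e j = e (j + i) := by
    intro i j
    simp [zp, pow_smul_coord hσ]
  have hσo : σ • o ≠ o := by
    rw [Ne, ho]
    intro h
    have h1 := H.orderOf_dvd_natCard h
    have h3 : orderOf σ = p := orderOf_eq_prime hσp (by
      intro h4
      have := hσ 0
      rw [h4, one_smul] at this
      simpa using e.injective this)
    exact hH (h3 ▸ h1)
  have hbij : Function.Bijective fun i : ZMod p => zp σ i • o :=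
    (zp_smul_injective hσp hσo).bijective_of_nat_card_le
      (by rw [Nat.card_zmod, ← hind]; rfl)
  let I : α → G ⧸ H → Prop := fun x q => ∃ g : G, g • e 0 = x ∧ g • o = q
  have hI : ∀ (g : G) x y, I (g • x) (g • y) ↔ I x y := by
    intro g x y
    constructor
    · rintro ⟨k, h1, h2⟩
      exact ⟨g⁻¹ * k, by rw [mul_smul, h1, inv_smul_smul], by rw [mul_smul, h2, inv_smul_smul]⟩
    · rintro ⟨k, h1, h2⟩
      exact ⟨g * k, by rw [mul_smul, h1], by rw [mul_smul, h2]⟩
  let B : ZMod p → Prop := fun j => I (e j) o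
  have hB : ∀ i j, I (e j) (zp σ i • o) ↔ B (j - i) := by
    intro i j
    change _ ↔ I (e (j - i)) o
    rw [← hI (zp σ i) (e (j - i)) o, hzp, sub_add_cancel]
  obtain ⟨i₀, hi₀⟩ := hbij.2 (t • o)
  have hi₀' : zp σ i₀ • o = t • o := hi₀
  let a : ZMod p := (c - i₀) / 2
  have ha : 2 * a = c - i₀ := by
    simp only [a]
    field_simp [two_ne_zero_zmod h2]
  have hsym : ∀ j, B j ↔ B (2 * a - j) := by
    intro j
    change I (e j) o ↔ _
    rw [← hI t, ht, ← hi₀', hB, ha]
    congr! 1
    ring
  let N : α → α → ZMod 2 := fun x y => ∑ q : G ⧸ H, if I x q ∧ I y q then 1 else 0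
  have hN : ∀ (g : G) x y, N (g • x) (g • y) = N x y := by
    intro g x y
    refine (Fintype.sum_equiv (MulAction.toPerm g) _ _ fun q => ?_).symm
    simp only [MulAction.toPerm_apply, hI]
  have hNu : ∀ u : ZMod p, N (e u) (e (-u)) = if B (a + u) then 1 else 0 := by
    intro u
    have h1 : N (e u) (e (-u)) = ∑ i : ZMod p, if B (u - i) ∧ B (-u - i) then 1 else 0 := by
      refine (Fintype.sum_bijective _ hbij _ _ fun i => ?_).symm
      simp only [hB]
    rw [h1, sum_reflection h2 (-a)]
    · have h3 : B (-u - -a) ↔ B (a + u) := by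
        rw [hsym]
        congr! 1
        ring
      have h4 : u - -a = a + u := by ring
      simp only [h3, h4, and_self]
    · intro i
      have h3 : B (u - (2 * -a - i)) ↔ B (-u - i) := by
        rw [hsym]
        congr! 1
        ring
      have h4 : B (-u - (2 * -a - i)) ↔ B (u - i) := by
        rw [hsym]
        congr! 1
        ring
      simp only [h3, h4, and_comm]
  have hne : ∀ u : ZMod p, u ≠ 0 → e u ≠ e (-u) := by
    intro u hu h
    have h1 := e.injective h
    apply hu
    apply mul_left_cancel₀ (two_ne_zero_zmod h2)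
    linear_combination h1
  have hconst : ∀ j k : ZMod p, j ≠ a → k ≠ a → B j → B k := by
    intro j k hj hk hBj
    obtain ⟨g, hg1, hg2⟩ := is_two_pretransitive_iff.1 htwo (hne _ (sub_ne_zero.2 hj))
      (hne _ (sub_ne_zero.2 hk))
    have h1 := hN g (e (j - a)) (e (-(j - a)))
    rw [hg1, hg2, hNu, hNu, add_sub_cancel, add_sub_cancel, if_pos hBj] at h1
    by_contra hcon
    rw [if_neg hcon] at h1
    exact zero_ne_one h1
  refine ⟨e a, fun h hh => ?_⟩
  by_contra hcon
  obtain ⟨j, hj⟩ := e.surjective (h • e a)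
  have hja : j ≠ a := fun h1 => hcon (by rw [mem_stabilizer_iff, ← hj, h1])
  have hBj : B j ↔ B a := by
    change I (e j) o ↔ I (e a) o
    rw [← hI h (e a), (ho h).2 hh, hj]
  have hB0 : B 0 := ⟨1, one_smul _ _, one_smul _ _⟩
  have hBj' : B j := by
    by_cases h0 : 0 = a
    · exact hBj.2 (h0 ▸ hB0)
    · exact hconst 0 j h0 hja hB0
  have hall : ∀ k, B k := by
    intro k
    by_cases hk : k = a
    · exact hk ▸ hBj.1 hBj'
    · exact hconst j k hja hk hBj'
  have htr : IsPretransitive H α := by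
    have key : ∀ x : α, ∃ g : H, g • e 0 = x := by
      intro x
      obtain ⟨k, rfl⟩ := e.surjective x
      obtain ⟨g, hg1, hg2⟩ := hall k
      exact ⟨⟨g, (ho g).1 hg2⟩, hg1⟩
    constructor
    intro x y
    obtain ⟨g, rfl⟩ := key x
    obtain ⟨k, rfl⟩ := key y
    exact ⟨k * g⁻¹, by rw [mul_smul, inv_smul_smul]⟩
  have : Nonempty α := ⟨e 0⟩
  apply hH
  have h1 := H1.Basic.card_dvd_card_group (G := H) (Ω := α)
  rwa [← Nat.card_congr e, Nat.card_zmod] at h1

/-- In a transitive permutation group of prime degree `p` whose Sylow `p`-normaliser has even order, the point stabilisers are the only subgroups of index `p`. -/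
theorem result {α : Type*} [Fintype α] [DecidableEq α] {p : ℕ} [Fact p.Prime] (hα : Fintype.card α = p) (G : Subgroup (Equiv.Perm α)) [MulAction.IsPretransitive G α] (P : Sylow p G) (heven : Even (Nat.card (Subgroup.normalizer ((P : Subgroup G) : Set G)))) (H : Subgroup G) (hH : H.index = p) : ∃ a : α, H = MulAction.stabilizer G a := by
  have hα' : Nat.card α = p := by rw [Nat.card_eq_fintype_card, hα]
  obtain ⟨σ, e, hP, hσ⟩ := exists_coord_of_transitive hα' P
  have hH' : ¬ p ∣ Nat.card H := by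
    intro h
    apply not_sq_dvd_card (G := G) hα'
    rw [← H.card_mul_index, hH, sq]
    exact Nat.mul_dvd_mul_right h p
  have key : ∃ a : α, H ≤ stabilizer G a := by
    by_cases haff : ∀ g : G, IsAffine e g
    · exact fixed_of_affine haff H hH'
    · have h2 : p ≠ 2 := fun h => haff (isAffine_of_two h e)
      rw [hP] at heven
      obtain ⟨t, c, -, ht⟩ := exists_reflection hσ h2 heven
      exact fixed_of_two_transitive hσ
        (orderOf_dvd_iff_pow_eq_one.1 (orderOf_eq_of_coord hσ).dvd) h2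
        ((affine_or_two_transitive hσ).resolve_left haff) ht H hH hH'
  obtain ⟨a, ha⟩ := key
  refine ⟨a, Subgroup.eq_of_le_of_card_ge ha (le_of_eq ?_)⟩
  have h1 := H.card_mul_index
  have h2 := (stabilizer G a).card_mul_index
  rw [index_stabilizer_of_transitive, hα'] at h2
  rw [hH, ← h2] at h1
  exact (Nat.eq_of_mul_eq_mul_right (Fact.out : p.Prime).pos h1).symm

end Cfsg.Agent.S0677
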