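import Cfsg.Statements.S0679
import Cfsg.Agent.H4.Deg11B
import Cfsg.Agent.H4.PrimePlusOne

set_option autoImplicit false
open Cfsg

namespace Cfsg.Agent.S0679

open MulAction H1.Coord H1.Heart H1.EvenPrime H4.Deg11

/-- A non-solvable transitive permutation group on 11 points that does not contain the alternating group is either sharply 4-transitive (of order 7920) or isomorphic to the projective special linear group of degree 2 over the field with 11 elements. -/
theorem result {α : Type*} [Fintype α] [DecidableEq α] (hα : Fintype.card α = 11) (G : Subgroup (Equiv.Perm α)) [MulAction.IsPretransitive G α] (hG : ¬ Group.IsSolvable G) (hA : ¬ alternatingGroup α ≤ G) : (MulAction.IsMultiplyPretransitive G α 4 ∧ ∀ x : Fin 4 ↪ α, MulAction.stabilizer G x = ⊥) ∨ Nonempty (G ≃* Matrix.ProjectiveSpecialLinearGroup (Fin 2) (ZMod 11)) := by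
  have : Fact (Nat.Prime 11) := ⟨by norm_num⟩
  have hα' : Nat.card α = 11 := by rw [Nat.card_eq_fintype_card, hα]
  have : Nontrivial α := Fintype.one_lt_card_iff_nontrivial.1 (by omega)
  have h2 := (solvable_or_two_transitive (G := G) hα').resolve_left hG
  have hprim : IsPreprimitive G α := isPreprimitive_of_is_two_pretransitive h2
  have hemb : Nat.card (Fin 4 ↪ α) = 7920 := by
    rw [Nat.card_eq_fintype_card, Fintype.card_embedding_eq, hα, Fintype.card_fin]; rfl
  obtain ⟨x₀⟩ : Nonempty (Fin 4 ↪ α) := (Nat.card_pos_iff.1 (by omega)).1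
  have hinj : Function.Injective fun g : G => g • x₀ := by
    intro g h e
    have : h⁻¹ * g ∈ stabilizer G x₀ := by
      rw [mem_stabilizer_iff, mul_smul, inv_smul_eq_iff]; exact e
    rw [stab_eq_bot hα G hprim hA h2, Subgroup.mem_bot, inv_mul_eq_one] at this
    exact this.symm
  have hle : Nat.card G ≤ 7920 := hemb ▸ Nat.card_le_card_of_injective _ hinj
  have h7 : ¬ 7 ∣ Nat.card G := by
    intro h
    have : Fact (Nat.Prime 7) := ⟨by norm_num⟩
    obtain ⟨g, hg⟩ := exists_prime_orderOf_dvd_card' 7 h
    exact not_seven hα G hprim hA g.2 (by rw [Subgroup.orderOf_coe, hg])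
  have hfac := card_dvd_factorial (G := G) (α := α)
  rw [hα'] at hfac
  have hmul := (evenPart G α).card_mul_index
  have hK : Nat.card (evenPart G α) = 660 ∨ Nat.card (evenPart G α) = 7920 := by
    have htr : IsPretransitive (evenPart G α) α := isPretransitive_evenPart (by rw [hα']; decide)
    have hns := not_solvable_evenPart (α := α) hG
    have htwo := (solvable_or_two_transitive (G := evenPart G α) hα').resolve_left hns
    have h110 := descFactorial_dvd_card htwo (by omega)
    rw [hα'] at h110
    have hdvd := Subgroup.card_subgroup_dvd_card (evenPart G α)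
    obtain ⟨P⟩ : Nonempty (Sylow 11 (evenPart G α)) := inferInstance
    obtain ⟨m, n, hm, hn, hN, hc⟩ := card_eq_mul_mul hα' (Dvd.dvd.trans (by norm_num) h110) P
    have hodd := odd_card_normalizer hα' (by norm_num) (fun g => g.2) P
    have hm1 : m ≠ 1 := by
      rintro rfl
      have := card_eq_of_card_normalizer hα' P hN
      rw [this] at h110
      norm_num at h110
    rw [hN] at hodd
    have hm5 : m = 5 := by
      have hm' : m ≤ 10 := Nat.le_of_dvd (by norm_num) hm
      rw [Nat.odd_iff] at hodd
      interval_cases m <;> omega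
    subst hm5
    have h1 := (Nat.le_of_dvd Nat.card_pos hdvd).trans hle
    have h3 := hdvd.trans hfac
    have h4 : ¬ 7 ∣ Nat.card (evenPart G α) := fun h => h7 (h.trans hdvd)
    rw [hc] at h110 h1 h3 h4 ⊢
    have h5 : 2 ∣ n := Nat.dvd_of_mul_dvd_mul_left (k := 55) (by norm_num) h110
    unfold Nat.ModEq at hn
    have h6 : n = 12 ∨ n = 34 ∨ n = 56 ∨ n = 78 ∨ n = 100 ∨ n = 122 ∨ n = 144 := by omega
    rcases h6 with rfl | rfl | rfl | rfl | rfl | rfl | rfl
    all_goals first | omega | exact absurd h3 (by decide)
  obtain ⟨P⟩ : Nonempty (Sylow 11 G) := inferInstance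
  have h11 : 11 ∣ Nat.card G :=
    Dvd.dvd.trans (by rw [hα']; decide) (descFactorial_dvd_card h2 (by omega))
  obtain ⟨m, hm, hN⟩ := card_normalizer_sylow hα' h11 P
  have hm' : m ≤ 10 := Nat.le_of_dvd (by norm_num) hm
  have hc := card_eq_mul_card_sylow P
  have hn := card_sylow_modEq_one 11 G
  unfold Nat.ModEq at hn
  rw [hN] at hc
  have hcard : Nat.card G = 660 ∨ Nat.card G = 7920 := by
    rcases index_evenPart (G := G) (α := α) with h | h
    · rw [h] at hmul
      omega
    · exfalso
      rw [h] at hmul
      have h1 : Nat.card G = 1320 := by omega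
      have hm10 : m = 10 := by
        rw [h1] at hc
        interval_cases m <;> omega
      have h3 := H1.Three.three_transitive_of_even hα' hG P (by rw [hN, hm10]; decide)
      have h990 := descFactorial_dvd_card h3 (by omega)
      rw [hα', h1] at h990
      revert h990
      decide
  rcases hcard with hcard | hcard
  · right
    have hS : Nat.card (Sylow 11 G) = 12 := by
      rw [hcard] at hc
      interval_cases m <;> omega
    haveI : FaithfulSMul G (Sylow 11 G) := by
      have hker : (toPermHom G (Sylow 11 G)).ker = ⊥ := by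
        refine eq_bot_of_normal hα' _ fun h => ?_
        have h1 : ¬ 11 ∣ (toPermHom G (Sylow 11 G)).ker.index := by
          intro h'
          have := mul_dvd_mul h h'
          rw [Subgroup.card_mul_index, hcard] at this
          revert this
          decide
        have h3 : ∀ Q : Sylow 11 G, Q = P := by
          intro Q
          have h4 : (Q : Subgroup G) ≤ Subgroup.normalizer ((P : Subgroup G) : Set G) :=
            fun g hg => Sylow.smul_eq_iff_mem_normalizer.1
              (congrArg (· P) (MonoidHom.mem_ker.1 (sylow_le_normal _ h1 Q hg)))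
          have h5 : (Q : Subgroup G) ⊓ Subgroup.normalizer ((P : Subgroup G) : Set G) =
              (Q : Subgroup G) ⊓ (P : Subgroup G) :=
            Q.2.inf_normalizer_sylow P
          rw [inf_of_le_left h4, eq_comm, inf_eq_left] at h5
          exact Sylow.ext (Q.3 P.2 h5).symm
        haveI : Subsingleton (Sylow 11 G) := ⟨fun a b => (h3 a).trans (h3 b).symm⟩
        have := Finite.card_le_one_iff_subsingleton.2 this
        omega
      exact ⟨fun h => (MonoidHom.ker_eq_bot_iff _).1 hker (Equiv.ext h)⟩
    haveI := Fintype.ofFinite (Sylow 11 G)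
    rcases H4.PrimePlusOne.main (G := G) (Ω := Sylow 11 G) (p := 11) (d := 5) (by norm_num)
      (by rw [← Nat.card_eq_fintype_card, hS]) hcard (by norm_num) with h | h | ⟨q, -, h, -⟩
    · exact absurd h.1 (by decide)
    · exact h.2
    · exfalso
      have : 3 ∣ 2 ^ q := h ▸ by decide
      exact absurd (Nat.prime_three.dvd_of_dvd_pow this) (by decide)
  · left
    refine ⟨?_, stab_eq_bot hα G hprim hA h2⟩
    have hs := (Nat.bijective_iff_injective_and_card _).2 ⟨hinj, hcard.trans hemb.symm⟩
    refine ⟨fun x y => ?_⟩
    obtain ⟨g, rfl⟩ := hs.2 x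
    obtain ⟨h, rfl⟩ := hs.2 y
    refine ⟨h * g⁻¹, ?_⟩
    ext i
    simp [mul_smul]

end Cfsg.Agent.S0679
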