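import Cfsg.Statements.S0680
import Cfsg.Agent.H2.Sharp2

set_option autoImplicit false
open Cfsg

namespace Cfsg.Agent.S0680

/-- A finite sharply doubly transitive permutation group has degree a prime power `p ^ j`; a Sylow `p`-subgroup is normal, elementary abelian and regular, and consists of the identity together with the elements without fixed points. (Frobenius' Theorem is not needed.) -/
theorem result {α : Type*} [Fintype α] [DecidableEq α] (G : Subgroup (Equiv.Perm α)) [MulAction.IsMultiplyPretransitive G α 2] (hsharp : ∀ x : Fin 2 ↪ α, MulAction.stabilizer G x = ⊥) (h2 : 2 ≤ Fintype.card α) : ∃ p j : ℕ, p.Prime ∧ 1 ≤ j ∧ Fintype.card α = p ^ j ∧ ∀ (hp : Fact p.Prime) (P : Sylow p G), (P : Subgroup G).Normal ∧ IsMulCommutative (P : Subgroup G) ∧ (∀ x ∈ (P : Subgroup G), x ^ p = 1) ∧ MulAction.IsPretransitive (P : Subgroup G) α ∧ (∀ a : α, MulAction.stabilizer (P : Subgroup G) a = ⊥) ∧ ∀ g : G, g ∈ (P : Subgroup G) ↔ g = 1 ∨ ∀ a : α, g • a ≠ a := by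
  classical
  haveI : Nontrivial α := Fintype.one_lt_card_iff_nontrivial.mp h2
  have h2t : ∀ a b c d : α, a ≠ b → c ≠ d → ∃ g : G, g • a = c ∧ g • b = d := by
    intro a b c d hab hcd
    exact MulAction.is_two_pretransitive_iff.mp inferInstance hab hcd
  have hs := H2.Sharp2.sharp_of_stabilizer hsharp
  obtain ⟨N, hNn, hmem, hcomm, hcard, htr, p, hp, hpow⟩ := H2.Sharp2.exists_kernel h2t hs
  have hG := H2.Sharp2.card_eq h2t hs
  haveI : Fact p.Prime := ⟨hp⟩
  have hNp : IsPGroup p N := fun x => ⟨1, Subtype.ext (by simpa using hpow x.1 x.2)⟩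
  obtain ⟨j, hj⟩ := IsPGroup.iff_card.mp hNp
  rw [hcard, Nat.card_eq_fintype_card] at hj
  have hj1 : 1 ≤ j := by
    rcases j with _ | j
    · simp at hj; omega
    · omega
  refine ⟨p, j, hp, hj1, hj, fun _ P => ?_⟩
  have hidx : N.index = Fintype.card α - 1 := by
    have := N.index_mul_card
    rw [hG, hcard, Nat.card_eq_fintype_card, mul_comm (Fintype.card α)] at this
    exact Nat.eq_of_mul_eq_mul_right (by omega) this
  have hnd : ¬ p ∣ N.index := by
    rw [hidx]
    intro h
    have h1 : p ∣ Fintype.card α := by rw [hj]; exact dvd_pow_self p (by omega)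
    have : p ∣ Fintype.card α - (Fintype.card α - 1) := Nat.dvd_sub h1 h
    rw [show Fintype.card α - (Fintype.card α - 1) = 1 by omega] at this
    exact hp.one_lt.ne' (Nat.dvd_one.mp this)
  have hPN : (P : Subgroup G) = N := by
    haveI : ((hNp.toSylow hnd : Sylow p G) : Subgroup G).Normal := hNn
    haveI := Sylow.unique_of_normal (hNp.toSylow hnd) this
    have : P = hNp.toSylow hnd := Subsingleton.elim _ _
    rw [this]; rfl
  rw [hPN]
  refine ⟨hNn, ⟨⟨fun x y => Subtype.ext (hcomm _ x.2 _ y.2)⟩⟩, hpow, ⟨fun a b => ?_⟩, fun a => ?_,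
    hmem⟩
  · obtain ⟨g, hg, hab⟩ := htr a b
    exact ⟨⟨g, hg⟩, hab⟩
  · rw [Subgroup.eq_bot_iff_forall]
    intro g hg
    rcases (hmem g.1).mp g.2 with h | h
    · exact Subtype.ext h
    · exact absurd hg (h a)

end Cfsg.Agent.S0680
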