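import Cfsg.Statements.S0681
import Cfsg.Agent.H2.Sharp2

set_option autoImplicit false
open Cfsg

namespace Cfsg.Agent.S0681

theorem nf_zero_mul {F : Type*} [Cfsg.NearField F] (c : F) : (0 : F) * c = 0 := by
  have h := Cfsg.NearField.right_distrib (0 : F) 0 c
  rw [add_zero] at h
  exact left_eq_add.mp h

theorem nf_neg_mul {F : Type*} [Cfsg.NearField F] (a c : F) : (-a) * c = -(a * c) := by
  have h := Cfsg.NearField.right_distrib (-a) a c
  rw [neg_add_cancel, nf_zero_mul] at h
  exact eq_neg_of_add_eq_zero_left h.symm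

theorem nf_mul_ne_zero {F : Type*} [Cfsg.NearField F] {a c : F} (ha : a ≠ 0) (hc : c ≠ 0) :
    a * c ≠ 0 := by
  intro h
  obtain ⟨d, hd, -⟩ := Cfsg.NearField.exists_inv c hc
  apply ha
  calc a = a * c * d := by rw [mul_assoc, hd, mul_one]
    _ = 0 := by rw [h, nf_zero_mul]

/-- The affine permutation `x ↦ x * a + b`. -/
theorem exists_perm {F : Type*} [Cfsg.NearField F] {a : F} (ha : a ≠ 0) (b : F) :
    ∃ σ : Equiv.Perm F, ∀ x, σ x = x * a + b := by
  obtain ⟨d, hd, hd'⟩ := Cfsg.NearField.exists_inv a ha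
  refine ⟨⟨fun x => x * a + b, fun y => (y + -b) * d, fun x => ?_, fun y => ?_⟩, fun x => rfl⟩
  · simp only [add_neg_cancel_right, mul_assoc, hd, mul_one]
  · simp only [mul_assoc, hd', mul_one, neg_add_cancel_right]


/-- The affine maps `x ↦ x * a + b`, `a ≠ 0`, of a near-field form a sharply doubly transitive permutation group. -/
theorem result {F : Type*} [Cfsg.NearField F] : ∃ H : Subgroup (Equiv.Perm F), (∀ σ : Equiv.Perm F, σ ∈ H ↔ ∃ a b : F, a ≠ 0 ∧ ∀ x : F, σ x = x * a + b) ∧ MulAction.IsMultiplyPretransitive H F 2 ∧ ∀ x : Fin 2 ↪ F, MulAction.stabilizer H x = ⊥ := by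
  let H : Subgroup (Equiv.Perm F) :=
    { carrier := {σ | ∃ a b : F, a ≠ 0 ∧ ∀ x : F, σ x = x * a + b}
      one_mem' := ⟨1, 0, Cfsg.NearField.zero_ne_one.symm, fun x => by simp⟩
      mul_mem' := by
        rintro σ τ ⟨a, b, ha, hσ⟩ ⟨c, d, hc, hτ⟩
        refine ⟨c * a, d * a + b, nf_mul_ne_zero hc ha, fun x => ?_⟩
        rw [Equiv.Perm.mul_apply, hτ, hσ, Cfsg.NearField.right_distrib, mul_assoc, add_assoc]
      inv_mem' := by
        rintro σ ⟨a, b, ha, hσ⟩
        obtain ⟨d, hd, hd'⟩ := Cfsg.NearField.exists_inv a ha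
        have hd0 : d ≠ 0 := by
          rintro rfl
          rw [Cfsg.NearField.mul_zero] at hd
          exact Cfsg.NearField.zero_ne_one hd
        refine ⟨d, (-b) * d, hd0, fun x => ?_⟩
        apply σ.injective
        rw [Equiv.Perm.inv_def, Equiv.apply_symm_apply, hσ, ← Cfsg.NearField.right_distrib,
          mul_assoc, hd', mul_one, neg_add_cancel_right] }
  refine ⟨H, fun σ => Iff.rfl, ?_, ?_⟩
  · rw [MulAction.is_two_pretransitive_iff]
    intro a b c d hab hcd
    -- first send `(a, b)` to `(1, 0)`-like position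
    have hab' : a + -b ≠ 0 := fun h => hab (add_neg_eq_zero.mp h)
    have hcd' : c + -d ≠ 0 := fun h => hcd (add_neg_eq_zero.mp h)
    obtain ⟨e, he, he'⟩ := Cfsg.NearField.exists_inv _ hab'
    have he0 : e ≠ 0 := by
      rintro rfl
      rw [Cfsg.NearField.mul_zero] at he
      exact Cfsg.NearField.zero_ne_one he
    have hm : e * (c + -d) ≠ 0 := nf_mul_ne_zero he0 hcd'
    obtain ⟨σ, hσ⟩ := exists_perm hm ((-b) * (e * (c + -d)) + d)
    refine ⟨⟨σ, _, _, hm, hσ⟩, ?_, ?_⟩
    · change σ a = c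
      rw [hσ, ← add_assoc, ← Cfsg.NearField.right_distrib, ← mul_assoc, he, one_mul,
        neg_add_cancel_right]
    · change σ b = d
      rw [hσ, ← add_assoc, ← Cfsg.NearField.right_distrib, add_neg_cancel, nf_zero_mul, zero_add]
  · apply H2.Sharp2.stabilizer_of_sharp
    rintro ⟨σ, a, b, ha, hσ⟩ x y hxy hx hy
    change σ x = x at hx
    change σ y = y at hy
    rw [hσ] at hx hy
    have hxy' : x + -y ≠ 0 := fun h => hxy (add_neg_eq_zero.mp h)
    obtain ⟨e, he, he'⟩ := Cfsg.NearField.exists_inv _ hxy'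
    have h1 : (x + -y) * a = x + -y := by
      rw [Cfsg.NearField.right_distrib, nf_neg_mul]
      conv_rhs => rw [← hx, ← hy]
      rw [neg_add_rev, add_assoc, add_neg_cancel_left]
    have ha1 : a = 1 := by
      calc a = e * ((x + -y) * a) := by rw [← mul_assoc, he', one_mul]
        _ = 1 := by rw [h1, he']
    subst ha1
    rw [mul_one] at hx
    have hb : b = 0 := add_eq_left.mp hx
    subst hb
    apply Subtype.ext
    ext z
    simp [hσ]

end Cfsg.Agent.S0681
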