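import Cfsg.Statements.S0682
import Mathlib

set_option autoImplicit false
open Cfsg

namespace Cfsg.Agent.S0682

/-- A finite near-field has prime-power order; its additive group is commutative of prime exponent. -/
theorem result {F : Type*} [Cfsg.NearField F] [Finite F] : ∃ p j : ℕ, p.Prime ∧ 1 ≤ j ∧ Nat.card F = p ^ j ∧ (∀ x y : F, x + y = y + x) ∧ ∀ x : F, p • x = 0 := by
  classical
  haveI : Nontrivial F := ⟨⟨0, 1, Cfsg.NearField.zero_ne_one⟩⟩
  have hz : ∀ c : F, (0 : F) * c = 0 := fun c => by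
    have h := Cfsg.NearField.right_distrib (0 : F) 0 c
    rw [add_zero] at h
    exact left_eq_add.mp h
  -- right multiplications are additive maps
  let R : F → F →+ F := fun c =>
    { toFun := fun x => x * c
      map_zero' := hz c
      map_add' := fun a b => Cfsg.NearField.right_distrib a b c }
  have hR : ∀ c x, R c x = x * c := fun _ _ => rfl
  -- a prime dividing the order and an element of that order
  have hn : Nat.card F ≠ 1 := Finite.one_lt_card.ne'
  obtain ⟨p, hp, hpd⟩ := Nat.exists_prime_and_dvd hn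
  haveI : Fact p.Prime := ⟨hp⟩
  obtain ⟨u, hu⟩ := exists_prime_addOrderOf_dvd_card' p hpd
  have hu0 : u ≠ 0 := by
    rintro rfl
    rw [addOrderOf_zero] at hu
    exact hp.one_lt.ne hu
  obtain ⟨v, hv, -⟩ := Cfsg.NearField.exists_inv u hu0
  have hpu : p • u = 0 := by rw [← hu]; exact addOrderOf_nsmul_eq_zero u
  have hall : ∀ x : F, p • x = 0 := by
    intro x
    have : x = R (v * x) u := by rw [hR, ← mul_assoc, hv, one_mul]
    rw [this, ← map_nsmul, hpu, map_zero]
  have hP : IsPGroup p (Multiplicative F) := fun x => ⟨1, by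
    rw [pow_one]
    exact congrArg Multiplicative.ofAdd (hall x.toAdd)⟩
  obtain ⟨j, hj⟩ := IsPGroup.iff_card.mp hP
  have hj' : Nat.card F = p ^ j := hj
  have hj1 : 1 ≤ j := by
    rcases j with _ | j
    · simp at hj'; exact absurd hj' (by simpa using hn)
    · omega
  refine ⟨p, j, hp, hj1, hj', ?_, hall⟩
  haveI := hP.center_nontrivial
  obtain ⟨⟨z, hz1⟩, hzne⟩ := exists_ne (1 : Subgroup.center (Multiplicative F))
  have hz0 : z.toAdd ≠ 0 := fun h => hzne (Subtype.ext h)
  have hzc : ∀ y : F, y + z.toAdd = z.toAdd + y := fun y =>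
    congrArg Multiplicative.toAdd (Subgroup.mem_center_iff.mp hz1 (Multiplicative.ofAdd y))
  obtain ⟨w, hw, -⟩ := Cfsg.NearField.exists_inv _ hz0
  intro x y
  by_cases hx : x = 0
  · simp [hx]
  obtain ⟨x', -, hx'⟩ := Cfsg.NearField.exists_inv _ hx
  have e1 : x = R (w * x) z.toAdd := by rw [hR, ← mul_assoc, hw, one_mul]
  have e2 : y = R (w * x) (y * x' * z.toAdd) := by
    rw [hR, mul_assoc, ← mul_assoc z.toAdd, hw, one_mul, mul_assoc, hx', mul_one]
  calc x + y = R (w * x) z.toAdd + R (w * x) (y * x' * z.toAdd) := by rw [← e1, ← e2]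
    _ = R (w * x) (y * x' * z.toAdd) + R (w * x) z.toAdd := by
      rw [← map_add, ← map_add, hzc]
    _ = y + x := by rw [← e1, ← e2]

end Cfsg.Agent.S0682
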