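import Cfsg.Statements.S0683
import Cfsg.Agent.H2.Sharp2

set_option autoImplicit false
open Cfsg

namespace Cfsg.Agent.S0683

/-- A finite sharply doubly transitive permutation group is the affine group of a near-field: the permuted set carries a near-field structure for which the group consists exactly of the maps `x ↦ x * a + b` with `a ≠ 0`. -/
theorem result {α : Type*} [Fintype α] [DecidableEq α] (H : Subgroup (Equiv.Perm α)) [MulAction.IsMultiplyPretransitive H α 2] (hsharp : ∀ x : Fin 2 ↪ α, MulAction.stabilizer H x = ⊥) (h2 : 2 ≤ Fintype.card α) : ∃ _ : Cfsg.NearField α, ∀ σ : Equiv.Perm α, σ ∈ H ↔ ∃ a b : α, a ≠ 0 ∧ ∀ x : α, σ x = x * a + b := by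
  classical
  haveI : Nontrivial α := Fintype.one_lt_card_iff_nontrivial.mp h2
  have h2t : ∀ a b c d : α, a ≠ b → c ≠ d → ∃ g : H, g • a = c ∧ g • b = d := by
    intro a b c d hab hcd
    exact MulAction.is_two_pretransitive_iff.mp inferInstance hab hcd
  have hs := H2.Sharp2.sharp_of_stabilizer hsharp
  obtain ⟨N, hNn, hmem, hcomm, -, htr, -⟩ := H2.Sharp2.exists_kernel h2t hs
  obtain ⟨o, e, hoe⟩ := exists_pair_ne α
  -- translations
  choose t htN ht using fun b => htr o b
  have tuniq : ∀ g ∈ N, ∀ b, g • o = b → g = t b := by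
    intro g hg b hb
    have hm : (t b)⁻¹ * g ∈ N := N.mul_mem (N.inv_mem (htN b)) hg
    rcases (hmem _).mp hm with h | h
    · exact (inv_mul_eq_one.mp h).symm
    · exact absurd (by rw [mul_smul, hb, inv_smul_eq_iff, ht]) (h o)
  have t_o : t o = 1 := (tuniq 1 N.one_mem o (one_smul _ _)).symm
  have tadd : ∀ a b, t (t b • a) = t b * t a := fun a b =>
    (tuniq _ (N.mul_mem (htN b) (htN a)) _ (by rw [mul_smul, ht])).symm
  -- multiplications
  have hm : ∀ c : α, ∃ g : H, c ≠ o → g • o = o ∧ g • e = c := by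
    intro c
    by_cases hc : c = o
    · exact ⟨1, fun h => absurd hc h⟩
    · obtain ⟨g, hg⟩ := h2t o e o c hoe (Ne.symm hc)
      exact ⟨g, fun _ => hg⟩
  choose m hm using hm
  have muniq : ∀ (g : H) (c : α), g • o = o → g • e = c → c ≠ o ∧ g = m c := by
    intro g c h1 h2
    have hc : c ≠ o := by
      intro h
      rw [h, ← h1] at h2
      exact hoe (smul_left_cancel g h2).symm
    refine ⟨hc, ?_⟩
    have : (m c)⁻¹ * g = 1 := hs _ o e hoe
      (by rw [mul_smul, h1, inv_smul_eq_iff, (hm c hc).1])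
      (by rw [mul_smul, h2, inv_smul_eq_iff, (hm c hc).2])
    exact (inv_mul_eq_one.mp this).symm
  let mul : α → α → α := fun x c => if c = o then o else m c • x
  have mul_o : ∀ x, mul x o = o := fun x => if_pos rfl
  have mul_ne : ∀ x c, c ≠ o → mul x c = m c • x := fun x c hc => if_neg hc
  have o_mul : ∀ c, mul o c = o := by
    intro c
    by_cases hc : c = o
    · rw [hc, mul_o]
    · rw [mul_ne _ _ hc, (hm c hc).1]
  have mmul : ∀ a b, a ≠ o → b ≠ o → m b • a ≠ o ∧ m b * m a = m (m b • a) := fun a b ha hb =>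
    muniq _ _ (by rw [mul_smul, (hm a ha).1, (hm b hb).1]) (by rw [mul_smul, (hm a ha).2])
  have me : m e = 1 := (muniq 1 e (one_smul _ _) (one_smul _ _)).2.symm
  letI : Add α := ⟨fun a b => t b • a⟩
  letI : Zero α := ⟨o⟩
  letI : Neg α := ⟨fun a => (t a)⁻¹ • o⟩
  letI : Mul α := ⟨mul⟩
  letI : One α := ⟨e⟩
  letI instA : AddGroup α := AddGroup.ofLeftAxioms
    (fun a b c => by
      change t c • t b • a = t (t c • b) • a
      rw [tadd, mul_smul])
    (fun a => ht a)
    (fun a => by
      change t a • (t a)⁻¹ • o = o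
      rw [smul_inv_smul])
  letI instM : Monoid α :=
    { mul_assoc := fun a b c => by
        change mul (mul a b) c = mul a (mul b c)
        by_cases hc : c = o
        · rw [hc, mul_o, mul_o, mul_o]
        by_cases hb : b = o
        · rw [hb, mul_o, o_mul, mul_o]
        rw [mul_ne b c hc, mul_ne _ c hc, mul_ne a b hb, mul_ne _ _ (mmul b c hb hc).1,
          ← (mmul b c hb hc).2, mul_smul]
      one_mul := fun a => by
        change mul e a = a
        by_cases ha : a = o
        · rw [ha, mul_o]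
        · rw [mul_ne _ _ ha, (hm a ha).2]
      mul_one := fun a => by
        change mul a e = a
        rw [mul_ne _ _ hoe.symm, me, one_smul] }
  have hdist : ∀ a b c : α, mul (t b • a) c = t (mul b c) • mul a c := by
    intro a b c
    by_cases hc : c = o
    · rw [hc, mul_o, mul_o, mul_o, t_o, one_smul]
    rw [mul_ne _ _ hc, mul_ne _ _ hc, mul_ne _ _ hc]
    have : m c * t b * (m c)⁻¹ = t (m c • b) := by
      apply tuniq _ (hNn.conj_mem _ (htN b) _)
      rw [mul_smul, mul_smul, inv_smul_eq_iff.mpr (hm c hc).1.symm, ht]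
    rw [← this, mul_smul, mul_smul, inv_smul_smul]
  refine ⟨{ toAddGroup := instA, toMonoid := instM, right_distrib := hdist, mul_zero := mul_o,
            zero_ne_one := hoe, exists_inv := ?_ }, ?_⟩
  · intro a ha
    have h := muniq (m a)⁻¹ ((m a)⁻¹ • e) (inv_smul_eq_iff.mpr (hm a ha).1.symm) rfl
    refine ⟨(m a)⁻¹ • e, ?_, ?_⟩
    · change mul a _ = e
      rw [mul_ne _ _ h.1, ← h.2, inv_smul_eq_iff, (hm a ha).2]
    · change mul _ a = e
      rw [mul_ne _ _ ha, smul_inv_smul]
  · intro σ
    constructor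
    · intro hσ
      let g : H := ⟨σ, hσ⟩
      have h := muniq ((t (g • o))⁻¹ * g) _ (by rw [mul_smul, inv_smul_eq_iff, ht]) rfl
      refine ⟨((t (g • o))⁻¹ * g) • e, g • o, h.1, fun x => ?_⟩
      change g • x = t (g • o) • mul x _
      rw [mul_ne _ _ h.1, ← h.2, mul_smul, smul_inv_smul]
    · rintro ⟨a, b, ha, hσ⟩
      have : σ = ((t b * m a : H) : Equiv.Perm α) := by
        ext x
        rw [hσ]
        change t b • mul x a = (t b * m a) • x
        rw [mul_ne _ _ ha, mul_smul]
      rw [this]
      exact (t b * m a).2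

end Cfsg.Agent.S0683
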