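import Cfsg.Statements.S0684
import Cfsg.Agent.H2.RegLin

set_option autoImplicit false
open Cfsg

namespace Cfsg.Agent.S0684

/-- Point stabiliser of a sharply doubly transitive group not of semilinear type: a maximal normal abelian subgroup `A` of a linear group `H` that is regular on non-zero vectors and has no irreducible cyclic normal subgroup is cyclic and reducible, and the order of `A` divides `p ^ k - 1` for `k` the dimension of a minimal `A`-invariant subspace. -/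
theorem result {p : ℕ} [Fact p.Prime] {V : Type*} [AddCommGroup V] [Module (ZMod p) V] [Finite V] (H : Subgroup (V ≃ₗ[ZMod p] V)) (hreg : ∀ v w : V, v ≠ 0 → w ≠ 0 → ∃! h : H, (h : V ≃ₗ[ZMod p] V) v = w) (hI : ∀ A : Subgroup H, A.Normal → IsCyclic A → ∃ W : Submodule (ZMod p) V, W ≠ ⊥ ∧ W ≠ ⊤ ∧ ∀ a ∈ A, ∀ v ∈ W, ((a : H) : V ≃ₗ[ZMod p] V) v ∈ W) (A : Subgroup H) (hAn : A.Normal) (hAc : IsMulCommutative A) (hAmax : ∀ B : Subgroup H, B.Normal → IsMulCommutative B → A ≤ B → B = A) : IsCyclic A ∧ ∃ W : Submodule (ZMod p) V, W ≠ ⊥ ∧ W ≠ ⊤ ∧ (∀ a ∈ A, ∀ v ∈ W, ((a : H) : V ≃ₗ[ZMod p] V) v ∈ W) ∧ (∀ W' : Submodule (ZMod p) V, W' ≤ W → (∀ a ∈ A, ∀ v ∈ W', ((a : H) : V ≃ₗ[ZMod p] V) v ∈ W') → W' = ⊥ ∨ W' = W) ∧ Nat.card A ∣ p ^ Module.finrank (ZMod p) W - 1 := by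
  obtain ⟨W₀, hW₀, -⟩ := hI ⊥ inferInstance inferInstance
  haveI := H2.RegLin.nontrivial_of_submodule hW₀
  have hcyc := H2.RegLin.isCyclic_of_comm hreg A hAc
  obtain ⟨W₁, hW0, hW1, hW⟩ := hI A hAn hcyc
  haveI : Finite (Submodule (ZMod p) V) :=
    Finite.of_injective (fun W : Submodule (ZMod p) V => (W : Set V)) SetLike.coe_injective
  obtain ⟨W, ⟨hWle, hWne, hWinv⟩, hmin⟩ := WellFounded.has_min (wellFounded_lt)
    {W : Submodule (ZMod p) V | W ≤ W₁ ∧ W ≠ ⊥ ∧ ∀ a ∈ A, ∀ v ∈ W, ((a : H) : V ≃ₗ[ZMod p] V) v ∈ W}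
    ⟨W₁, le_rfl, hW0, hW⟩
  refine ⟨hcyc, W, hWne, fun h => hW1 (top_le_iff.mp (h ▸ hWle)), hWinv, fun W' hle hinv => ?_, ?_⟩
  · by_cases h : W' = ⊥
    · exact Or.inl h
    · right
      by_contra hne
      exact hmin W' ⟨hle.trans hWle, h, hinv⟩ (lt_of_le_of_ne hle hne)
  · have := H2.RegLin.card_dvd_of_invariant hreg A W hWinv
    rwa [Module.natCard_eq_pow_finrank (K := ZMod p) (V := W), Nat.card_zmod] at this

end Cfsg.Agent.S0684
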