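import Cfsg.Statements.S0687
import Cfsg.Agent.H2.QuatNum

set_option autoImplicit false
open Cfsg

namespace Cfsg.Agent.S0687

/-- In a linear group over the prime field that is regular on non-zero vectors and has no irreducible cyclic normal subgroup, a normal subgroup `N` minimal among the non-abelian normal subgroups centralising a maximal normal abelian subgroup `A` is irreducible on `V`, and its centraliser is `A`. -/
theorem result {p : ℕ} [Fact p.Prime] {V : Type*} [AddCommGroup V] [Module (ZMod p) V] [Finite V] (H : Subgroup (V ≃ₗ[ZMod p] V)) (hreg : ∀ v w : V, v ≠ 0 → w ≠ 0 → ∃! h : H, (h : V ≃ₗ[ZMod p] V) v = w) (hI : ∀ A : Subgroup H, A.Normal → IsCyclic A → ∃ W : Submodule (ZMod p) V, W ≠ ⊥ ∧ W ≠ ⊤ ∧ ∀ a ∈ A, ∀ v ∈ W, ((a : H) : V ≃ₗ[ZMod p] V) v ∈ W) (A : Subgroup H) (hAn : A.Normal) (hAc : IsMulCommutative A) (hAmax : ∀ B : Subgroup H, B.Normal → IsMulCommutative B → A ≤ B → B = A) (N : Subgroup H) (hNn : N.Normal) (hNle : N ≤ Subgroup.centralizer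 (A : Set H)) (hNna : ¬ IsMulCommutative N) (hNmin : ∀ M : Subgroup H, M.Normal → M ≤ N → ¬ IsMulCommutative M → M = N) : (∀ W : Submodule (ZMod p) V, (∀ n ∈ N, ∀ v ∈ W, ((n : H) : V ≃ₗ[ZMod p] V) v ∈ W) → W = ⊥ ∨ W = ⊤) ∧ Subgroup.centralizer (N : Set H) = A := by
  haveI := H2.RegLin.finite_H (H := H)
  obtain ⟨W₀, hW₀, -⟩ := hI ⊥ inferInstance inferInstance
  haveI := H2.RegLin.nontrivial_of_submodule hW₀
  have hfree := H2.RegLin.free_of_reg hreg
  have hS := H2.FreeStruct.sylStr_of_free hfree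
  have key : ¬ Nat.card N ∣ p - 1 ∧ Nat.card V = p ^ 2 ∧
      IsMulCommutative (Subgroup.centralizer (N : Set H)) := by
    rcases H2.QuatDim.min_cases hS A hAn hAc hAmax N hNn hNle hNna hNmin with ⟨i, j, h⟩ | h
    · obtain ⟨h1, h2, h3⟩ := H2.QuatNum.q8_case hreg hI hNn h
      refine ⟨?_, h2, h3⟩
      obtain ⟨e⟩ := h.iso
      rw [Nat.card_congr e.toEquiv, Nat.card_eq_fintype_card, QuaternionGroup.card]
      rcases h1 with h1 | h1 | h1 | h1 <;> rw [h1] <;> norm_num
    · obtain ⟨ψ, hinj, hle, hL, h1, h2, h3, -⟩ := H2.QuatNum.sl_case hreg N (by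
        rintro rfl
        exact hNna inferInstance) h
      have e : ψ.range = N := hNmin _ hL hle (fun hc => by
        have h4 := hinj (by
          simpa using congrArg Subtype.val (hc.is_comm.comm ⟨_, H2.Ico.Mx, rfl⟩ ⟨_, H2.Ico.Mi, rfl⟩) :
            ψ (H2.Ico.Mx * H2.Ico.Mi) = ψ (H2.Ico.Mi * H2.Ico.Mx))
        exact absurd h4 (by decide))
      rw [← e]
      refine ⟨?_, h2, h3⟩
      rw [← Nat.card_congr (MonoidHom.ofInjective hinj).toEquiv, H2.Ico.card_SL25]
      rcases h1 with h1 | h1 | h1 <;> rw [h1] <;> norm_num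
  refine ⟨fun W hW => ?_, hAmax _ inferInstance key.2.2 (Subgroup.le_centralizer_iff.mp hNle)⟩
  by_contra hn
  push Not at hn
  have := H2.RegLin.card_dvd_of_invariant hreg N W hW
  rw [H2.QuatNum.card_eq_of_invariant key.2.1 hn.1 hn.2] at this
  exact key.1 this

end Cfsg.Agent.S0687
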