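import Cfsg.Statements.S0688
import Cfsg.Agent.H2.QuatNum

set_option autoImplicit false
open Cfsg

namespace Cfsg.Agent.S0688

/-- Degrees of the soluble exceptional sharply doubly transitive groups: if a solvable linear group over the prime field is regular on the non-zero vectors of `V` and has no irreducible cyclic normal subgroup, then `V` has 25, 49, 121 or 529 elements. -/
theorem result {p : ℕ} [Fact p.Prime] {V : Type*} [AddCommGroup V] [Module (ZMod p) V] [Finite V] (H : Subgroup (V ≃ₗ[ZMod p] V)) (hreg : ∀ v w : V, v ≠ 0 → w ≠ 0 → ∃! h : H, (h : V ≃ₗ[ZMod p] V) v = w) (hI : ∀ A : Subgroup H, A.Normal → IsCyclic A → ∃ W : Submodule (ZMod p) V, W ≠ ⊥ ∧ W ≠ ⊤ ∧ ∀ a ∈ A, ∀ v ∈ W, ((a : H) : V ≃ₗ[ZMod p] V) v ∈ W) (hsolv : Group.IsSolvable H) : Nat.card V = 25 ∨ Nat.card V = 49 ∨ Nat.card V = 121 ∨ Nat.card V = 529 := by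
  haveI := H2.RegLin.finite_H (H := H)
  obtain ⟨W₀, hW₀, -⟩ := hI ⊥ inferInstance inferInstance
  haveI := H2.RegLin.nontrivial_of_submodule hW₀
  have hfree := H2.RegLin.free_of_reg hreg
  have hS := H2.FreeStruct.sylStr_of_free hfree
  obtain ⟨A, ⟨hAn, hAc⟩, hA⟩ := (Set.toFinite {A : Subgroup H | A.Normal ∧ IsMulCommutative A}).exists_maximal
    ⟨⊥, inferInstance, inferInstance⟩
  have hAmax : ∀ B : Subgroup H, B.Normal → IsMulCommutative B → A ≤ B → B = A :=
    fun B h1 h2 h3 => le_antisymm (hA ⟨h1, h2⟩ h3) h3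
  have hlt := H2.RegLin.lt_centralizer hreg hI A hAn hAc
  obtain ⟨N, ⟨hNn, hNle, hNna⟩, hN⟩ := (Set.toFinite {N : Subgroup H | N.Normal ∧
      N ≤ Subgroup.centralizer (A : Set H) ∧ ¬ IsMulCommutative N}).exists_minimal
    ⟨Subgroup.centralizer (A : Set H), inferInstance, le_rfl,
      fun hc => hlt.ne' (hAmax _ inferInstance hc hlt.le)⟩
  have hNmin : ∀ M : Subgroup H, M.Normal → M ≤ N → ¬ IsMulCommutative M → M = N :=
    fun M h1 h2 h3 => le_antisymm h2 (hN ⟨h1, h2.trans hNle, h3⟩ h2)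
  rcases H2.QuatDim.min_cases hS A hAn hAc hAmax N hNn hNle hNna hNmin with ⟨i, j, h⟩ | h
  · obtain ⟨h1, h2, -⟩ := H2.QuatNum.q8_case hreg hI hNn h
    rw [h2]
    rcases h1 with h1 | h1 | h1 | h1 <;> rw [h1] <;> norm_num
  · haveI : Nontrivial N := (Subgroup.nontrivial_iff_ne_bot N).mpr (by
      rintro rfl
      exact hNna inferInstance)
    exact absurd h (Group.IsSolvable.commutator_lt_top_of_nontrivial (G := N)).ne

end Cfsg.Agent.S0688
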