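import Cfsg.Statements.S0689
import Cfsg.Agent.H2.QuatNum

set_option autoImplicit false
open Cfsg

namespace Cfsg.Agent.S0689

/-- The insoluble sharply doubly transitive groups: a non-solvable linear group over the prime field that is regular on the non-zero vectors of `V` occurs only for `|V| = 11², 29², 59²`, and is `SL(2,5) × C_m` with `m = 1, 7, 29` respectively. -/
theorem result {p : ℕ} [Fact p.Prime] {V : Type*} [AddCommGroup V] [Module (ZMod p) V] [Finite V] (H : Subgroup (V ≃ₗ[ZMod p] V)) (hreg : ∀ v w : V, v ≠ 0 → w ≠ 0 → ∃! h : H, (h : V ≃ₗ[ZMod p] V) v = w) (hsolv : ¬ Group.IsSolvable H) : (Nat.card V = 121 ∧ Nonempty (H ≃* Matrix.SpecialLinearGroup (Fin 2) (ZMod 5))) ∨ (Nat.card V = 841 ∧ Nonempty (H ≃* Matrix.SpecialLinearGroup (Fin 2) (ZMod 5) × Multiplicative (ZMod 7))) ∨ (Nat.card V = 3481 ∧ Nonempty (H ≃* Matrix.SpecialLinearGroup (Fin 2) (ZMod 5) × Multiplicative (ZMod 29))) := by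
  haveI := H2.RegLin.finite_H (H := H)
  haveI : Nontrivial V := by
    by_contra hV
    rw [not_nontrivial_iff_subsingleton] at hV
    haveI : Subsingleton H := ⟨fun a b => Subtype.ext (LinearEquiv.ext fun v => Subsingleton.elim _ _)⟩
    exact hsolv inferInstance
  rw [Group.isSolvable_iff_commutator_lt] at hsolv
  push Not at hsolv
  obtain ⟨N, hN, hN'⟩ := hsolv
  have hperf : commutator N = ⊤ := by
    have : ⁅N, N⁆ = N := eq_of_le_of_not_lt (N.commutator_le_self) hN'
    apply Subgroup.map_injective N.subtype_injective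
    rw [Subgroup.map_subtype_commutator, this, ← MonoidHom.range_eq_map, Subgroup.range_subtype]
  obtain ⟨ψ, hinj, -, -, h1, h2, -, h3⟩ := H2.QuatNum.sl_case hreg N hN hperf
  have hH := H2.RegLin.card_H hreg
  rw [h2] at hH ⊢
  rw [← H2.Ico.card_SL25] at h3
  rcases h1 with rfl | rfl | rfl
  · exact Or.inl ⟨rfl, ⟨(MulEquiv.ofBijective ψ ((Nat.bijective_iff_injective_and_card ψ).mpr
      ⟨hinj, by rw [hH, H2.Ico.card_SL25]; norm_num⟩)).symm⟩⟩
  · haveI : Fact (Nat.Prime 7) := ⟨by norm_num⟩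
    exact Or.inr (Or.inl ⟨rfl, H2.QuatNum.equiv_prod ψ hinj
      (by rw [H2.Ico.card_SL25]; norm_num) (by rw [hH, H2.Ico.card_SL25]; norm_num) h3⟩)
  · haveI : Fact (Nat.Prime 29) := ⟨by norm_num⟩
    exact Or.inr (Or.inr ⟨rfl, H2.QuatNum.equiv_prod ψ hinj
      (by rw [H2.Ico.card_SL25]; norm_num) (by rw [hH, H2.Ico.card_SL25]; norm_num) h3⟩)

end Cfsg.Agent.S0689
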