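import Cfsg.Statements.S0690
import Cfsg.Agent.H2.Zass

set_option autoImplicit false
open Cfsg

namespace Cfsg.Agent.S0690

/-- Zassenhaus: a perfect non-trivial group of fixed-point-free automorphisms of a finite group is isomorphic to `SL(2,5)`. -/
theorem result {K : Type*} [Group K] [Finite K] (G : Subgroup (MulAut K)) (hfpf : ∀ φ ∈ G, φ ≠ 1 → ∀ k : K, φ k = k → k = 1) (hperf : commutator G = ⊤) (hne : G ≠ ⊥) : Nonempty (G ≃* Matrix.SpecialLinearGroup (Fin 2) (ZMod 5)) := by
  haveI : Nontrivial G := (Subgroup.nontrivial_iff_ne_bot G).mpr hne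
  haveI : Finite (MulAut K) :=
    Finite.of_injective (fun e : MulAut K => (e : K → K)) DFunLike.coe_injective
  haveI : Nontrivial K := by
    by_contra hK
    rw [not_nontrivial_iff_subsingleton] at hK
    apply hne
    rw [Subgroup.eq_bot_iff_forall]
    intro φ _
    ext k
    exact Subsingleton.elim _ _
  have hfree : ∀ g : G, g ≠ 1 → ∀ k : K, g • k = k → k = 1 :=
    fun g hg k hk => hfpf g g.2 (fun e => hg (Subtype.ext e)) k hk
  have hns : ¬ Group.IsSolvable G := fun h =>
    (Group.IsSolvable.commutator_lt_top_of_nontrivial (G := G)).ne hperf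
  obtain ⟨V, _, _, _, _, hV⟩ := H2.FreeStruct.exists_module_of_not_solvable hfree hns
  obtain ⟨n, ρ, hρ⟩ := H2.Tetra.exists_fc hV
  exact H2.Zass.perfect_iso hρ (H2.FreeStruct.sylStr_of_free hV) hperf

end Cfsg.Agent.S0690
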