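import Cfsg.Statements.S0691
import Cfsg.Agent.H2.Regular2

set_option autoImplicit false
open Cfsg

namespace Cfsg.Agent.S0691

/-- The generators. -/
def gens : ℕ → ℕ × ℕ × ℕ × ℕ
  | 0 => (2,0,0,3)
  | 1 => (0,4,1,0)
  | _ => (1,2,1,3)

/-- All elements. -/
def elts : List (ℕ × ℕ × ℕ × ℕ) :=
  [(1,0,0,1), (2,0,0,3), (0,4,1,0), (1,2,1,3), (4,0,0,4), (0,2,2,0), (2,1,2,4), (0,3,3,0),
  (2,4,3,4), (4,2,1,2), (3,3,4,1), (3,0,0,2), (0,1,4,0), (4,3,4,2), (3,1,2,1), (1,4,3,3), (1,3,4,3),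
  (3,2,1,1), (3,4,3,1), (1,1,2,3), (2,2,1,4), (2,3,4,4), (4,4,3,2), (4,1,2,2)]

/-- Words reaching the vectors. -/
def words : List (List ℕ) :=
  [[], [0], [1], [2], [0,0], [1,0], [2,0], [0,1], [2,1], [1,2], [2,2], [0,0,0], [1,0,0], [2,0,0],
  [1,2,0], [2,2,0], [2,0,1], [2,2,1], [0,1,2], [2,1,2], [2,2,0,0], [2,1,2,0], [2,2,0,1], [2,0,1,2]]

theorem factPrime : Fact (Nat.Prime 5) := ⟨by norm_num⟩

attribute [local instance] factPrime


/-- An exceptional sharply doubly transitive group of degree 5^2: the listed matrices generate a subgroup of GL(2,5) of order 24 acting regularly on the non-zero vectors. -/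
theorem result (A : Matrix.GeneralLinearGroup (Fin 2) (ZMod 5)) (B : Matrix.GeneralLinearGroup (Fin 2) (ZMod 5)) (C : Matrix.GeneralLinearGroup (Fin 2) (ZMod 5)) (hA : (A : Matrix (Fin 2) (Fin 2) (ZMod 5)) = !![2, 0; 0, -2]) (hB : (B : Matrix (Fin 2) (Fin 2) (ZMod 5)) = !![0, -1; 1, 0]) (hC : (C : Matrix (Fin 2) (Fin 2) (ZMod 5)) = !![1, 2; 1, -2]) : Nat.card (Subgroup.closure ({A, B, C} : Set (Matrix.GeneralLinearGroup (Fin 2) (ZMod 5)))) = 24 ∧ ∀ v w : Fin 2 → ZMod 5, v ≠ 0 → w ≠ 0 → ∃! h : Subgroup.closure ({A, B, C} : Set (Matrix.GeneralLinearGroup (Fin 2) (ZMod 5))), Matrix.mulVec ((h : Matrix.GeneralLinearGroup (Fin 2) (ZMod 5)) : Matrix (Fin 2) (Fin 2) (ZMod 5)) v = w := by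
  have hA' : (A : Matrix (Fin 2) (Fin 2) (ZMod 5)) =
      H2.Regular2.toM (H2.Regular2.cast4 5 (gens 0)) := by
    rw [hA]; decide
  have hB' : (B : Matrix (Fin 2) (Fin 2) (ZMod 5)) =
      H2.Regular2.toM (H2.Regular2.cast4 5 (gens 1)) := by
    rw [hB]; decide
  have hC' : (C : Matrix (Fin 2) (Fin 2) (ZMod 5)) =
      H2.Regular2.toM (H2.Regular2.cast4 5 (gens 2)) := by
    rw [hC]; decide
  exact H2.Regular2.regular_of_certN (p := 5) {A, B, C} gens
    (by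
      rintro s (rfl | rfl | rfl)
      exacts [⟨0, hA'⟩, ⟨1, hB'⟩, ⟨2, hC'⟩])
    (by
      rintro (_ | _ | n)
      exacts [⟨A, by simp, hA'⟩, ⟨B, by simp, hB'⟩, ⟨C, by simp, hC'⟩])
    elts List.mem_cons_self
    (by
      have h0 : H2.Regular2.closedB 5 (gens 0) elts = true := by decide +kernel
      have h1 : H2.Regular2.closedB 5 (gens 1) elts = true := by decide +kernel
      have h2 : H2.Regular2.closedB 5 (gens 2) elts = true := by decide +kernel
      rintro (_ | _ | n)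
      exacts [h0, h1, h2])
    (by decide +kernel) words (by decide +kernel)

end Cfsg.Agent.S0691
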