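import Cfsg.Statements.S0694
import Mathlib

set_option autoImplicit false
open Cfsg

namespace Cfsg.Agent.S0694

open Finset in
theorem modEq_iff (q n i : ℕ) (hq : 2 ≤ q) :
    q ^ i ≡ 1 [MOD n * (q - 1)] ↔ (n : ℤ) ∣ ∑ j ∈ range i, (q : ℤ) ^ j := by
  rw [Nat.ModEq.comm, Nat.modEq_iff_dvd]
  have h1 : ((n * (q - 1) : ℕ) : ℤ) = n * ((q : ℤ) - 1) := by
    rw [Nat.cast_mul, Nat.cast_sub (by omega)]; simp
  have h2 : ((q ^ i : ℕ) : ℤ) - ((1 : ℕ) : ℤ) = (∑ j ∈ range i, (q : ℤ) ^ j) * ((q : ℤ) - 1) := by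
    rw [geom_sum_mul]; simp
  rw [h1, h2]
  have : (q : ℤ) - 1 ≠ 0 := by omega
  exact mul_dvd_mul_iff_right this

open Finset in
theorem sum_modEq (q r : ℤ) (h : r ∣ q - 1) (i : ℕ) : r ∣ (∑ j ∈ range i, q ^ j) - i := by
  induction i with
  | zero => simp
  | succ i ih =>
    rw [sum_range_succ]
    have : (∑ j ∈ range i, q ^ j) + q ^ i - ((i + 1 : ℕ) : ℤ)
        = ((∑ j ∈ range i, q ^ j) - i) + (q ^ i - 1) := by push_cast; ring
    rw [this]
    refine dvd_add ih (dvd_trans h ?_)
    simpa using sub_dvd_pow_sub_pow q 1 i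

open Finset in
theorem pow_dvd_iff (q : ℤ) (hq : 2 ≤ q) {r : ℕ} (hr : r.Prime) (h : (r : ℤ) ∣ q - 1)
    (h2 : r = 2 → 4 ∣ q - 1) (i k : ℕ) :
    (r : ℤ) ^ k ∣ ∑ j ∈ range i, q ^ j ↔ r ^ k ∣ i := by
  have hrp : Prime (r : ℤ) := Nat.prime_iff_prime_int.mp hr
  have hnq : ¬ (r : ℤ) ∣ q := by
    intro hq'
    have := dvd_sub hq' h
    simp at this
    exact hr.one_lt.ne' (by exact_mod_cast Int.eq_one_of_dvd_one (by positivity) this)
  have key : emultiplicity (r : ℤ) (q ^ i - 1 ^ i) =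
      emultiplicity (r : ℤ) (q - 1) + emultiplicity r i := by
    rcases hr.eq_two_or_odd' with rfl | hodd
    · have := Int.two_pow_sub_pow' i (h2 rfl) hnq
      rw [← Int.natCast_emultiplicity]
      exact this
    · exact Int.emultiplicity_pow_sub_pow hr hodd h hnq i
  rw [one_pow, ← geom_sum_mul, emultiplicity_mul hrp, add_comm] at key
  have hfin : emultiplicity (r : ℤ) (q - 1) ≠ ⊤ := by
    rw [← finiteMultiplicity_iff_emultiplicity_ne_top, Int.finiteMultiplicity_iff]
    exact ⟨by simpa using hr.one_lt.ne', by omega⟩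
  have key' := WithTop.add_left_cancel hfin key
  rw [pow_dvd_iff_le_emultiplicity, pow_dvd_iff_le_emultiplicity, key']


/-- The Dickson pair condition: for a prime power `q` and `n > 1`, (every prime factor of `n` divides `q - 1`, and `4 ∣ n → 4 ∣ q - 1`) holds exactly when `q ^ n ≡ 1` modulo `n * (q - 1)` but `q ^ i` is not, for `0 < i < n`. -/
theorem result (q n : ℕ) (hq : IsPrimePow q) (hn : 1 < n) : ((∀ r : ℕ, r.Prime → r ∣ n → r ∣ q - 1) ∧ (4 ∣ n → 4 ∣ q - 1)) ↔ (q ^ n ≡ 1 [MOD n * (q - 1)] ∧ ∀ i : ℕ, 0 < i → i < n → ¬ q ^ i ≡ 1 [MOD n * (q - 1)]) := by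
  have hq2 : 2 ≤ q := hq.two_le
  have hq2' : (2 : ℤ) ≤ q := by exact_mod_cast hq2
  have hcast : ∀ r : ℕ, r ∣ q - 1 ↔ (r : ℤ) ∣ (q : ℤ) - 1 := by
    intro r
    rw [← Int.natCast_dvd_natCast, Nat.cast_sub (by omega)]; simp
  simp only [modEq_iff q n _ hq2]
  constructor
  · rintro ⟨h1, h2⟩
    have key : ∀ i : ℕ, (n : ℤ) ∣ ∑ j ∈ Finset.range i, (q : ℤ) ^ j ↔ n ∣ i := by
      intro i
      rw [Int.natCast_dvd, Nat.dvd_iff_prime_pow_dvd_dvd, Nat.dvd_iff_prime_pow_dvd_dvd]
      refine forall_congr' fun r => forall_congr' fun k => forall_congr' fun hr =>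
        forall_congr' fun hk => ?_
      rw [← Int.natCast_dvd, Nat.cast_pow]
      rcases k with _ | k
      · simp
      have hrn : r ∣ n := dvd_trans (dvd_pow_self r (by omega)) hk
      have hrq := (hcast r).mp (h1 r hr hrn)
      by_cases h4 : r = 2 → (4 : ℤ) ∣ (q : ℤ) - 1
      · exact pow_dvd_iff q hq2' hr hrq h4 i _
      · push Not at h4
        obtain ⟨rfl, h4⟩ := h4
        have hk0 : k = 0 := by
          by_contra hk0
          apply h4
          have : 4 ∣ n := dvd_trans (pow_dvd_pow 2 (show 2 ≤ k + 1 by omega)) hk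
          exact_mod_cast (hcast 4).mp (h2 this)
        subst hk0
        have := sum_modEq q _ hrq i
        rw [zero_add, pow_one, pow_one, ← Int.natCast_dvd_natCast]
        exact dvd_iff_dvd_of_dvd_sub this
    refine ⟨(key n).mpr dvd_rfl, fun i hi0 hin h => ?_⟩
    exact absurd (Nat.le_of_dvd hi0 ((key i).mp h)) (by omega)
  · rintro ⟨h1, h2⟩
    haveI : NeZero n := ⟨by omega⟩
    set F : ℕ → ℤ := fun i => ∑ j ∈ Finset.range i, (q : ℤ) ^ j with hF
    have hgeom : ∀ i, F i * ((q : ℤ) - 1) = (q : ℤ) ^ i - 1 := fun i => geom_sum_mul _ _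
    have hcop : IsCoprime (n : ℤ) (q : ℤ) := by
      obtain ⟨c, hc⟩ := h1
      refine ⟨-(c * ((q : ℤ) - 1)), (q : ℤ) ^ (n - 1), ?_⟩
      have e := hgeom n
      have e2 : F n = n * c := hc
      rw [e2] at e
      have e3 : (q : ℤ) ^ (n - 1) * q = (q : ℤ) ^ n := by
        rw [← pow_succ, Nat.sub_add_cancel (by omega)]
      rw [e3]; linarith
    have hsub : ∀ i j : ℕ, i < j → F j - F i = (q : ℤ) ^ i * F (j - i) := by
      intro i j hij
      simp only [hF]
      obtain ⟨d, rfl⟩ := Nat.exists_eq_add_of_le hij.le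
      rw [Finset.sum_range_add, Nat.add_sub_cancel_left, Finset.mul_sum]
      simp [pow_add]
    have hinj0 : ∀ i j : ℕ, i < j → j < n → ((F i : ℤ) : ZMod n) ≠ ((F j : ℤ) : ZMod n) := by
      intro i j hij hj h
      rw [ZMod.intCast_eq_intCast_iff_dvd_sub, hsub i j hij] at h
      exact h2 (j - i) (by omega) (by omega) (hcop.pow_right.dvd_of_dvd_mul_left h)
    have hinj : Function.Injective (fun i : Fin n => ((F i : ℤ) : ZMod n)) := by
      intro i j h
      rcases lt_trichotomy i j with hlt | heq | hlt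
      · exact absurd h (hinj0 _ _ hlt j.2)
      · exact heq
      · exact absurd h.symm (hinj0 _ _ hlt i.2)
    have hsurj : Function.Surjective (fun i : Fin n => ((F i : ℤ) : ZMod n)) :=
      ((Fintype.bijective_iff_injective_and_card _).mpr ⟨hinj, by simp⟩).2
    have hall : ∀ a : ℤ, ∃ i : ℕ, (n : ℤ) ∣ a - F i := by
      intro a
      obtain ⟨i, hi⟩ := hsurj (a : ZMod n)
      exact ⟨i, (ZMod.intCast_eq_intCast_iff_dvd_sub _ _ _).mp hi⟩
    constructor
    · intro r hr hrn
      rw [hcast]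
      by_contra hnd
      have hrp : Prime (r : ℤ) := Nat.prime_iff_prime_int.mp hr
      obtain ⟨a, b, hab⟩ := (hrp.irreducible.coprime_iff_not_dvd).mpr hnd
      obtain ⟨i, hi⟩ := hall (-b)
      have hrn' : (r : ℤ) ∣ n := by exact_mod_cast hrn
      have h3 : (r : ℤ) ∣ (q : ℤ) ^ i := by
        have h4 : (r : ℤ) ∣ (-b - F i) * ((q : ℤ) - 1) := (dvd_trans hrn' hi).mul_right _
        have e : (q : ℤ) ^ i = a * r - (-b - F i) * ((q : ℤ) - 1) := by
          have := hgeom i
          linarith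
        rw [e]
        exact dvd_sub (Dvd.intro_left a rfl) h4
      have := hcop.isUnit_of_dvd' hrn' (hrp.dvd_of_dvd_pow h3)
      exact hrp.not_unit this
    · intro h4
      rw [hcast]
      by_contra hnd
      have h4' : (4 : ℤ) ∣ n := by exact_mod_cast h4
      have hqodd : ¬ (2 : ℤ) ∣ q := by
        intro h
        have := hcop.isUnit_of_dvd' (dvd_trans (by norm_num) h4') h
        exact Int.prime_two.not_unit this
      have hq3 : (q : ℤ) % 4 = 3 := by
        push_cast at hnd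
        omega
      have hmod : ∀ i, F i % 4 = 0 ∨ F i % 4 = 1 := by
        intro i
        induction i with
        | zero => left; simp [hF]
        | succ i ih =>
          have e : F (i + 1) = q * F i + 1 := by
            simp only [hF]
            rw [geom_sum_succ]
          rw [e]
          rcases ih with h | h
          · right; rw [Int.add_emod, Int.mul_emod, h]; simp
          · left; rw [Int.add_emod, Int.mul_emod, h, hq3]; simp
      obtain ⟨i, hi⟩ := hall 2
      have := dvd_trans h4' hi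
      have := hmod i
      omega

end Cfsg.Agent.S0694
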