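import Cfsg.Statements.S0695
import Cfsg.Agent.H3.NormalMulti

set_option autoImplicit false
open Cfsg

namespace Cfsg.Agent.S0695

/-- A regular normal subgroup of a doubly primitive group of finite degree at least 2 is an elementary abelian 2-group (and the degree is a power of 2), unless the degree is 3. -/
theorem result {G : Type*} [Group G] {X : Type*} [Fintype X] [MulAction G X] (hX : 2 ≤ Fintype.card X) (h2 : MulAction.IsMultiplyPreprimitive G X 2) (N : Subgroup G) [N.Normal] (htrans : MulAction.IsPretransitive N X) (hreg : ∀ x : X, MulAction.stabilizer N x = ⊥) : Fintype.card X = 3 ∨ (IsMulCommutative N ∧ (∀ n ∈ N, n ^ 2 = 1) ∧ ∃ m : ℕ, Fintype.card X = 2 ^ m) := by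
  rw [← Nat.card_eq_fintype_card] at hX ⊢
  rcases Cfsg.Agent.H3.NormalMulti.regular_normal_two h2 hX N inferInstance htrans hreg with h | h
  · exact Or.inl h
  right
  refine ⟨Cfsg.Agent.H3.NormalMulti.isMulCommutative_of_sq h, h, ?_⟩
  obtain ⟨b, -⟩ := Cfsg.Agent.H3.NormalMulti.exists_notMem (∅ : Finset X) (by
    rw [Finset.card_empty]; omega)
  have h5 : Nat.card N = Nat.card X := by
    have := MulAction.index_stabilizer_of_transitive N b
    rwa [hreg, Subgroup.index_bot] at this
  have : Finite N := Nat.finite_of_card_ne_zero (by omega)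
  have : Fact (Nat.Prime 2) := ⟨Nat.prime_two⟩
  have hp : IsPGroup 2 N := fun n => ⟨1, Subtype.ext (by simpa using h n n.2)⟩
  rw [← h5]
  exact IsPGroup.iff_card.mp hp

end Cfsg.Agent.S0695
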