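import Cfsg.Statements.S0699
import Cfsg.Agent.H3.Generous
import Cfsg.Agent.H3.Tuples

set_option autoImplicit false
open Cfsg

namespace Cfsg.Agent.S0699

/-- Wagner's Theorem: a non-trivial normal subgroup of a triply transitive permutation group of odd degree at least 5 is triply transitive. -/
theorem result {α : Type*} [Fintype α] [DecidableEq α] (G : Subgroup (Equiv.Perm α)) (hodd : Odd (Fintype.card α)) (h5 : 5 ≤ Fintype.card α) (hG : MulAction.IsMultiplyPretransitive G α 3) (N : Subgroup G) [N.Normal] (hN : N ≠ ⊥) : MulAction.IsMultiplyPretransitive N α 3 := by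
  open Cfsg.Agent.H3.Multi Cfsg.Agent.H3.NormalMulti MulAction SubMulAction Pointwise in
  rw [← Nat.card_eq_fintype_card] at hodd h5
  have hF2 : Fact (Nat.Prime 2) := ⟨Nat.prime_two⟩
  have hnd : ¬ 2 ∣ Nat.card α := by
    rw [← even_iff_two_dvd, Nat.not_even_iff_odd]; exact hodd
  have h2 : IsMultiplyPretransitive N α 2 := by
    rcases jordan_normal G (by omega) (by omega) hG N inferInstance hN with h | ⟨-, hreg, -, hsq⟩
    · exact h
    · exfalso
      have hp : IsPGroup 2 N := fun n => ⟨1, Subtype.ext (by simpa using hsq n n.2)⟩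
      obtain ⟨x, hx⟩ := hp.nonempty_fixed_point_of_prime_not_dvd_card α hnd
      apply hN
      rw [eq_bot_iff]
      intro n hn
      have : (⟨n, hn⟩ : N) ∈ stabilizer N x := hx ⟨n, hn⟩
      rw [hreg, Subgroup.mem_bot] at this
      exact congrArg Subtype.val this
  obtain ⟨a, -⟩ := exists_notMem (∅ : Finset α) (by rw [Finset.card_empty]; omega)
  obtain ⟨b, hb⟩ := exists_notMem ({a} : Finset α) (by rw [Finset.card_singleton]; omega)
  rw [Finset.mem_singleton] at hb
  have hswap0 : ∃ c, c ≠ a ∧ c ≠ b ∧ ∃ t : N, t • a = b ∧ t • b = a ∧ t • c = c := by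
    obtain ⟨t, ht1, ht2⟩ := is_two_pretransitive_iff.mp h2 (Ne.symm hb) hb
    obtain ⟨e, m, hm, hem⟩ := Nat.exists_eq_two_pow_mul_odd (orderOf_pos t).ne'
    have hpow : ∀ j : ℕ, (t ^ (2 * j + 1)) • a = b ∧ (t ^ (2 * j + 1)) • b = a := by
      intro j
      induction j with
      | zero => simpa using ⟨ht1, ht2⟩
      | succ j ih =>
        rw [show 2 * (j + 1) + 1 = 2 * j + 1 + 1 + 1 by ring, pow_succ, pow_succ]
        simp only [mul_smul, ht1, ht2]
        exact ih
    obtain ⟨j, rfl⟩ := hm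
    set u := t ^ (2 * j + 1) with hu
    have hu2 : u ^ 2 ^ e = 1 := by
      rw [hu, ← pow_mul, mul_comm, ← hem, pow_orderOf_eq_one]
    have hp : IsPGroup 2 (Subgroup.zpowers u) := by
      rintro ⟨_, l, rfl⟩
      refine ⟨e, Subtype.ext ?_⟩
      change (u ^ l) ^ 2 ^ e = 1
      rw [← zpow_natCast, ← zpow_mul, mul_comm, zpow_mul, zpow_natCast, hu2, one_zpow]
    obtain ⟨c, hc⟩ := hp.nonempty_fixed_point_of_prime_not_dvd_card α hnd
    have hc' : u • c = c := hc ⟨u, Subgroup.mem_zpowers u⟩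
    refine ⟨c, ?_, ?_, u, (hpow j).1, (hpow j).2, hc'⟩
    · rintro rfl
      exact hb ((hpow j).1.symm.trans hc')
    · rintro rfl
      exact hb (hc'.symm.trans (hpow j).2)
  obtain ⟨c, hca, hcb, t, ht1, ht2, ht3⟩ := hswap0
  have hswap : ∀ u v w : α, u ≠ v → w ≠ u → w ≠ v →
      ∃ g ∈ N, g • u = v ∧ g • v = u ∧ g • w = w := by
    intro u v w huv hwu hwv
    obtain ⟨g, g1, g2, g3⟩ := Cfsg.Agent.H3.Tuples.three hG (Ne.symm hb) (Ne.symm hca)
      (Ne.symm hcb) huv (Ne.symm hwu) (Ne.symm hwv)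
    refine ⟨g * t * g⁻¹, Subgroup.Normal.conj_mem inferInstance _ t.2 g, ?_, ?_, ?_⟩
    · rw [← g1, ← g2, mul_smul, mul_smul, inv_smul_smul]; exact congrArg _ ht1
    · rw [← g1, ← g2, mul_smul, mul_smul, inv_smul_smul]; exact congrArg _ ht2
    · rw [← g3, mul_smul, mul_smul, inv_smul_smul]; exact congrArg _ ht3
  have hgen : Cfsg.Agent.H3.Generous.Gen (N.map G.subtype) 2 := by
    apply Cfsg.Agent.H3.Generous.gen_of_hgen
    intro s hs σ
    induction σ using Equiv.Perm.swap_induction_on with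
    | one => exact ⟨1, Subgroup.one_mem _, fun _ => rfl⟩
    | swap_mul f u v huv ih =>
      obtain ⟨g, hg, h1⟩ := ih
      obtain ⟨w, hw, hw'⟩ := Finset.exists_mem_notMem_of_card_lt_card
        (s := ({(u : α), (v : α)} : Finset α)) (t := s) (by
          have : ({(u : α), (v : α)} : Finset α).card ≤ 2 := Finset.card_le_two
          omega)
      simp only [Finset.mem_insert, Finset.mem_singleton, not_or] at hw'
      have huv' : (u : α) ≠ v := fun e => huv (Subtype.ext e)
      obtain ⟨g', hg', k1, k2, k3⟩ := hswap u v w huv' hw'.1 hw'.2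
      have hs' : s = {(u : α), (v : α), w} := by
        symm
        apply Finset.eq_of_subset_of_card_le
        · intro x hx
          simp only [Finset.mem_insert, Finset.mem_singleton] at hx
          rcases hx with rfl | rfl | rfl
          · exact u.2
          · exact v.2
          · exact hw
        · rw [hs, Finset.card_eq_three.mpr ⟨_, _, _, huv', Ne.symm hw'.1, Ne.symm hw'.2, rfl⟩]
      refine ⟨g' * g, Subgroup.mul_mem _ ⟨g', hg', rfl⟩ hg, fun x => ?_⟩
      rw [Equiv.Perm.mul_apply, Equiv.Perm.mul_apply, h1]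
      generalize f x = y
      by_cases hyu : y = u
      · rw [hyu, Equiv.swap_apply_left]; exact k1
      by_cases hyv : y = v
      · rw [hyv, Equiv.swap_apply_right]; exact k2
      rw [Equiv.swap_apply_of_ne_of_ne hyu hyv]
      have hy : (y : α) ∈ ({(u : α), (v : α), w} : Finset α) := hs' ▸ y.2
      simp only [Finset.mem_insert, Finset.mem_singleton] at hy
      rcases hy with hy | hy | hy
      · exact absurd (Subtype.ext hy) hyu
      · exact absurd (Subtype.ext hy) hyv
      · rw [hy]; exact k3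
  have hΓ : ({a, b} : Finset α).card = 2 := Finset.card_pair (Ne.symm hb)
  generalize ({a, b} : Finset α) = Γ at hΓ
  have hoddorb : ∀ x, x ∉ Γ →
      ¬ 2 ∣ Nat.card (orbit (fixingSubgroup (N.map G.subtype) (Γ : Set α)) x) := by
    intro x hx
    have htr : IsPretransitive (fixingSubgroup G (Γ : Set α)) (ofFixingSubgroup G (Γ : Set α)) :=
      fix_trans_of_exists _ fun y hy z hz => fix_trans_of_multiply hG (by omega) Γ (by omega) hy hz
    set B := orbit (fixingSubgroup (N.map G.subtype) (Γ : Set α)) x with hB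
    have hBmem : ∀ y, y ∈ B ↔ ∃ n ∈ N, (∀ z ∈ Γ, n • z = z) ∧ n • x = y := by
      intro y
      constructor
      · rintro ⟨⟨⟨_, n, hn, rfl⟩, h1⟩, rfl⟩
        exact ⟨n, hn, (mem_fixingSubgroup_iff _).mp h1, rfl⟩
      · rintro ⟨n, hn, h1, rfl⟩
        exact ⟨⟨⟨_, n, hn, rfl⟩, (mem_fixingSubgroup_iff _).mpr h1⟩, rfl⟩
    have hconj : ∀ g : G, (∀ z ∈ Γ, g • z = z) → ∀ y ∈ B, g • y ∈ B → ∀ y' ∈ B, g • y' ∈ B := by
      intro g hg y hy hgy y' hy'
      obtain ⟨n, hn, n1, rfl⟩ := (hBmem _).mp hy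
      obtain ⟨m, hm, m1, m2⟩ := (hBmem _).mp hgy
      obtain ⟨l, hl, l1, rfl⟩ := (hBmem _).mp hy'
      refine (hBmem _).mpr ⟨g * (l * n⁻¹) * g⁻¹ * m, N.mul_mem
        (Subgroup.Normal.conj_mem inferInstance _ (N.mul_mem hl (N.inv_mem hn)) g) hm,
        fun z hz => ?_, ?_⟩
      · simp only [mul_smul]
        rw [m1 z hz, inv_fix (s := (Γ : Set α)) hg z hz, inv_fix (s := (Γ : Set α)) n1 z hz,
          l1 z hz, hg z hz]
      · simp only [mul_smul]
        rw [m2, inv_smul_smul, inv_smul_smul]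
    have hblock : IsBlock (fixingSubgroup G (Γ : Set α))
        (Subtype.val ⁻¹' B : Set (ofFixingSubgroup G (Γ : Set α))) := by
      rw [isBlock_iff_smul_eq_of_mem]
      intro g y hy hgy
      have hg := (mem_fixingSubgroup_iff G).mp g.2
      ext z
      rw [Set.mem_smul_set_iff_inv_smul_mem]
      constructor
      · intro hz
        have := hconj g hg y hy hgy _ hz
        change (g : G) • (g : G)⁻¹ • (z : α) ∈ B at this
        rwa [smul_inv_smul] at this
      · intro hz
        exact hconj (g : G)⁻¹ (inv_fix (s := (Γ : Set α)) hg) _ hgy (by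
          change (g : G)⁻¹ • (g : G) • (y : α) ∈ B
          rw [inv_smul_smul]; exact hy) _ hz
    have hdvd := hblock.ncard_dvd_card ⟨⟨x, hx⟩, mem_orbit_self x⟩
    rw [Set.ncard_preimage_of_injective_subset_range Subtype.val_injective (by
      intro y hy
      obtain ⟨n, hn, n1, rfl⟩ := (hBmem _).mp hy
      exact ⟨⟨n • x, smul_notMem_of_fix (s := (Γ : Set α)) n1 hx⟩, rfl⟩)] at hdvd
    have hc : Nat.card (ofFixingSubgroup G (Γ : Set α)) + 2 = Nat.card α := by
      have := Set.ncard_add_ncard_compl (Γ : Set α)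
      rw [Set.ncard_coe_finset, hΓ] at this
      rw [← this, add_comm]
      rfl
    intro h2
    rw [Nat.card_coe_set_eq] at h2
    have := h2.trans hdvd
    omega
  apply succ_of_fix h2 Γ hΓ
  intro x hx y hy
  by_contra hcon
  have hxy : y ∉ orbit (fixingSubgroup (N.map G.subtype) (Γ : Set α)) x := by
    rintro ⟨⟨⟨_, n, hn, rfl⟩, h1⟩, rfl⟩
    exact hcon ⟨⟨n, hn⟩, (mem_fixingSubgroup_iff _).mp h1, rfl⟩
  obtain ⟨i, hi⟩ := hgen.exists_dvd (by omega) Nat.prime_two le_rfl Γ hΓ ![x, y]
    (by intro i; fin_cases i <;> simpa) (by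
      intro i j hij
      fin_cases i <;> fin_cases j
      · exact absurd rfl hij
      · exact hxy
      · exact fun h => hxy (mem_orbit_symm.mp h)
      · exact absurd rfl hij)
  refine hoddorb _ ?_ hi
  fin_cases i <;> simpa

end Cfsg.Agent.S0699
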