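import Cfsg.Statements.S0701
import Cfsg.Agent.H3.Centralizer

set_option autoImplicit false
open Cfsg

namespace Cfsg.Agent.S0701

/-- The centraliser in the full symmetric group of a transitive permutation group `G` is semiregular, and it is transitive if and only if `G` is regular. -/
theorem result {α : Type*} (G : Subgroup (Equiv.Perm α)) [MulAction.IsPretransitive G α] : (∀ c ∈ Subgroup.centralizer (G : Set (Equiv.Perm α)), ∀ a : α, c a = a → c = 1) ∧ (MulAction.IsPretransitive (Subgroup.centralizer (G : Set (Equiv.Perm α))) α ↔ ∀ a : α, MulAction.stabilizer G a = ⊥) := by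
  open Cfsg.Agent.H3.Centralizer in
  refine ⟨fun c hc a ha => eq_one_of_centralizer_fix G inferInstance hc ha, fun h a => ?_,
    fun h => ?_⟩
  · rw [stabilizer_eq_bot_iff]
    intro g hg ha
    apply eq_one_of_centralizer_fix _ h _ ha
    rw [Subgroup.mem_centralizer_iff]
    intro c hc
    exact (Subgroup.mem_centralizer_iff.mp hc g hg).symm
  · apply isPretransitive_of_exists
    intro a b
    apply exists_centralizer_apply_eq G inferInstance
    intro g hg
    constructor
    · intro ha
      rw [(stabilizer_eq_bot_iff G a).mp (h a) g hg ha]; rfl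
    · intro hb
      rw [(stabilizer_eq_bot_iff G b).mp (h b) g hg hb]; rfl

end Cfsg.Agent.S0701
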