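import Cfsg.Statements.S0702
import Cfsg.Agent.H3.Centralizer

set_option autoImplicit false
open Cfsg

namespace Cfsg.Agent.S0702

/-- For a transitive permutation group `G` on a finite set, the centraliser of `G` in the symmetric group is isomorphic to `N_G(G_ω)/G_ω`, and its orbit of `ω` is the set of fixed points of `G_ω`. -/
theorem result {α : Type*} [Finite α] (G : Subgroup (Equiv.Perm α)) [MulAction.IsPretransitive G α] (a : α) : Nonempty (Subgroup.centralizer (G : Set (Equiv.Perm α)) ≃* Subgroup.normalizer ((MulAction.stabilizer G a : Subgroup G) : Set G) ⧸ (MulAction.stabilizer G a).subgroupOf (Subgroup.normalizer ((MulAction.stabilizer G a : Subgroup G) : Set G))) ∧ MulAction.orbit (Subgroup.centralizer (G : Set (Equiv.Perm α))) a = MulAction.fixedPoints (MulAction.stabilizer G a) α := by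
  open Cfsg.Agent.H3.Centralizer in
  have hG : MulAction.IsPretransitive G α := inferInstance
  have hnorm : ∀ n : G, n ∈ Subgroup.normalizer ((MulAction.stabilizer G a : Subgroup G) : Set G) ↔
      ∀ g ∈ G, g a = a ↔ g (n⁻¹ • a) = n⁻¹ • a := by
    intro n
    rw [Subgroup.mem_normalizer_iff]
    constructor
    · intro h g hg
      have := h ⟨g, hg⟩
      rw [MulAction.mem_stabilizer_iff, MulAction.mem_stabilizer_iff, mul_smul, mul_smul,
        ← eq_inv_smul_iff (g := n)] at this
      exact this
    · intro h g
      rw [MulAction.mem_stabilizer_iff, MulAction.mem_stabilizer_iff, mul_smul, mul_smul,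
        ← eq_inv_smul_iff (g := n)]
      exact h g g.2
  constructor
  · choose f hf hfa using fun n : Subgroup.normalizer
        ((MulAction.stabilizer G a : Subgroup G) : Set G) =>
      exists_centralizer_apply_eq G hG ((hnorm n).mp n.2)
    let φ : Subgroup.normalizer ((MulAction.stabilizer G a : Subgroup G) : Set G) →*
        Subgroup.centralizer (G : Set (Equiv.Perm α)) :=
      MonoidHom.mk' (fun n => ⟨f n, hf n⟩) fun n m => by
        apply Subtype.ext
        apply eq_of_centralizer_apply_eq G hG (hf _) (Subgroup.mul_mem _ (hf n) (hf m)) (a := a)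
        rw [hfa, Equiv.Perm.mul_apply, hfa]
        have := centralizer_apply (hf n) ((m : G)⁻¹).2 a
        rw [hfa] at this
        rw [Subgroup.coe_mul, mul_inv_rev, mul_smul]
        exact this.symm
    have hφ : ∀ n, ((φ n : Subgroup.centralizer (G : Set (Equiv.Perm α))) : Equiv.Perm α) = f n :=
      fun _ => rfl
    have hsurj : Function.Surjective φ := by
      intro c
      obtain ⟨g, hg⟩ := hG.exists_smul_eq a ((c : Equiv.Perm α) a)
      have hgn : g⁻¹ ∈ Subgroup.normalizer ((MulAction.stabilizer G a : Subgroup G) : Set G) := by
        rw [hnorm, inv_inv, hg]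
        intro x hx
        rw [← centralizer_apply c.2 hx, Equiv.apply_eq_iff_eq]
      refine ⟨⟨g⁻¹, hgn⟩, Subtype.ext ?_⟩
      apply eq_of_centralizer_apply_eq G hG (φ _).2 c.2 (a := a)
      rw [hφ, hfa, inv_inv, hg]
    have hker : φ.ker = (MulAction.stabilizer G a).subgroupOf
        (Subgroup.normalizer ((MulAction.stabilizer G a : Subgroup G) : Set G)) := by
      ext n
      rw [MonoidHom.mem_ker, Subgroup.mem_subgroupOf, MulAction.mem_stabilizer_iff]
      constructor
      · intro h
        have h1 := hfa n
        rw [← hφ, h, eq_inv_smul_iff] at h1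
        exact h1
      · intro h
        apply Subtype.ext
        apply eq_one_of_centralizer_fix G hG (φ n).2 (a := a)
        rw [hφ, hfa, inv_smul_eq_iff, h]
    exact ⟨((QuotientGroup.quotientMulEquivOfEq hker.symm).trans
      (QuotientGroup.quotientKerEquivOfSurjective φ hsurj)).symm⟩
  · ext b
    constructor
    · rintro ⟨c, rfl⟩ g
      have h1 : ((g : G) : Equiv.Perm α) a = a := g.2
      have := centralizer_apply c.2 (g : G).2 a
      rw [h1] at this
      exact this.symm
    · intro hb
      have hle : MulAction.stabilizer G a ≤ MulAction.stabilizer G b := fun g hg => hb ⟨g, hg⟩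
      have hcard : Nat.card (MulAction.stabilizer G b) ≤ Nat.card (MulAction.stabilizer G a) := by
        have h1 := (MulAction.stabilizer G a).card_mul_index
        have h2 := (MulAction.stabilizer G b).card_mul_index
        rw [MulAction.index_stabilizer_of_transitive] at h1 h2
        have : Nonempty α := ⟨a⟩
        exact (Nat.eq_of_mul_eq_mul_right Nat.card_pos (h2.trans h1.symm)).le
      have heq := Subgroup.eq_of_le_of_card_ge hle hcard
      obtain ⟨c, hc, hca⟩ := exists_centralizer_apply_eq G hG (a := a) (b := b) fun g hg => by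
        have := SetLike.ext_iff.mp heq ⟨g, hg⟩
        exact this
      exact ⟨⟨c, hc⟩, hca⟩

end Cfsg.Agent.S0702
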