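import Cfsg.Statements.S0703
import Cfsg.Agent.H3.Centralizer

set_option autoImplicit false
open Cfsg

namespace Cfsg.Agent.S0703

/-- An abelian transitive minimal normal subgroup `M` of a permutation group on a finite set is self-centralising in the symmetric group, regular, elementary abelian, and is the unique minimal normal subgroup. -/
theorem result {α : Type*} [Finite α] (G : Subgroup (Equiv.Perm α)) (M : Subgroup G) [M.Normal] (hM : M ≠ ⊥) (hmin : ∀ L : Subgroup G, L.Normal → L ≤ M → L = ⊥ ∨ L = M) (hab : IsMulCommutative M) (htrans : MulAction.IsPretransitive M α) : Subgroup.centralizer ((M.map G.subtype : Subgroup (Equiv.Perm α)) : Set (Equiv.Perm α)) = M.map G.subtype ∧ (∀ a : α, MulAction.stabilizer M a = ⊥) ∧ (∃ p : ℕ, p.Prime ∧ ∀ m ∈ M, m ^ p = 1) ∧ ∀ L : Subgroup G, L.Normal → L ≠ ⊥ → (∀ L' : Subgroup G, L'.Normal → L' ≤ L → L' = ⊥ ∨ L' = L) → L = M := by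
  open Cfsg.Agent.H3.Centralizer in
  have ht := map_subtype_isPretransitive G M htrans
  have hle : M.map G.subtype ≤ Subgroup.centralizer
      ((M.map G.subtype : Subgroup (Equiv.Perm α)) : Set (Equiv.Perm α)) := by
    rintro _ ⟨n, hn, rfl⟩
    rw [Subgroup.mem_centralizer_iff]
    rintro _ ⟨m, hm, rfl⟩
    exact congrArg (fun x : M => ((x : G) : Equiv.Perm α)) (hab.is_comm.comm ⟨m, hm⟩ ⟨n, hn⟩)
  have hC := eq_centralizer_of_transitive _ _ ht ht hle
  refine ⟨hC, fun a => ?_, exists_prime_pow_eq_one M inferInstance hM hmin hab,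
    fun L hL hL0 hLmin => ?_⟩
  · rw [sub_stabilizer_eq_bot_iff]
    intro g hg ha
    exact Subtype.ext (eq_one_of_centralizer_fix _ ht (hle ⟨g, hg, rfl⟩) ha)
  · by_contra hne
    have hd := disjoint_of_minimal M L inferInstance hL hM hmin hLmin (Ne.symm hne)
    have h1 := map_le_centralizer_of_disjoint G M L inferInstance hL hd
    rw [hC, Subgroup.map_le_map_iff_of_injective G.subtype_injective] at h1
    exact hL0 (hd.symm.eq_bot_of_le h1)

end Cfsg.Agent.S0703
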