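import Cfsg.Statements.S0704
import Cfsg.Agent.H3.Centralizer

set_option autoImplicit false
open Cfsg

namespace Cfsg.Agent.S0704

/-- Two distinct transitive minimal normal subgroups `M`, `N` of a permutation group are regular, non-abelian, isomorphic, each other's centraliser in the symmetric group, and the only minimal normal subgroups. -/
theorem result {α : Type*} (G : Subgroup (Equiv.Perm α)) (M N : Subgroup G) [M.Normal] [N.Normal] (hM : M ≠ ⊥) (hN : N ≠ ⊥) (hMmin : ∀ L : Subgroup G, L.Normal → L ≤ M → L = ⊥ ∨ L = M) (hNmin : ∀ L : Subgroup G, L.Normal → L ≤ N → L = ⊥ ∨ L = N) (hMN : M ≠ N) (hMt : MulAction.IsPretransitive M α) (hNt : MulAction.IsPretransitive N α) : (∀ a : α, MulAction.stabilizer M a = ⊥) ∧ (∀ a : α, MulAction.stabilizer N a = ⊥) ∧ ¬ IsMulCommutative M ∧ Nonempty (M ≃* N) ∧ Subgroup.centralizer ((M.map G.subtype : Subgroup (Equiv.Perm α)) : Set (Equiv.Perm α)) = N.map G.subtype ∧ Subgroup.centralizer ((N.map G.subtype : Subgroup (Equiv.Perm α)) : Set (Equiv.Perm α))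 = M.map G.subtype ∧ ∀ L : Subgroup G, L.Normal → L ≠ ⊥ → (∀ L' : Subgroup G, L'.Normal → L' ≤ L → L' = ⊥ ∨ L' = L) → L = M ∨ L = N := by
  open Cfsg.Agent.H3.Centralizer in
  have hMt' := map_subtype_isPretransitive G M hMt
  have hNt' := map_subtype_isPretransitive G N hNt
  have hd := disjoint_of_minimal M N inferInstance inferInstance hM hMmin hNmin hMN
  have hNC := map_le_centralizer_of_disjoint G M N inferInstance inferInstance hd
  have hMC := map_le_centralizer_of_disjoint G N M inferInstance inferInstance hd.symm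
  have hCM := eq_centralizer_of_transitive _ _ hMt' hNt' hNC
  have hCN := eq_centralizer_of_transitive _ _ hNt' hMt' hMC
  have hcomm : ∀ (m : M) (n : N) (x : α), m • n • x = n • m • x := by
    intro m n x
    have := (Subgroup.commute_of_normal_of_disjoint M N inferInstance inferInstance hd m n
      m.2 n.2).eq
    change (m : G) • (n : G) • x = (n : G) • (m : G) • x
    rw [← mul_smul, this, mul_smul]
  have hMreg : ∀ (m m' : M) (a : α), m • a = m' • a → m = m' := fun m m' a h =>
    Subtype.ext (Subtype.ext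
      (eq_of_centralizer_apply_eq _ hNt' (hMC ⟨m, m.2, rfl⟩) (hMC ⟨m', m'.2, rfl⟩) h))
  have hNreg : ∀ (m m' : N) (a : α), m • a = m' • a → m = m' := fun m m' a h =>
    Subtype.ext (Subtype.ext
      (eq_of_centralizer_apply_eq _ hMt' (hNC ⟨m, m.2, rfl⟩) (hNC ⟨m', m'.2, rfl⟩) h))
  refine ⟨fun a => ?_, fun a => ?_, fun hab => ?_, ?_, hCM, hCN, fun L hL hL0 hLmin => ?_⟩
  · rw [sub_stabilizer_eq_bot_iff]
    intro g hg ha
    exact Subtype.ext (eq_one_of_centralizer_fix _ hNt' (hMC ⟨g, hg, rfl⟩) ha)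
  · rw [sub_stabilizer_eq_bot_iff]
    intro g hg ha
    exact Subtype.ext (eq_one_of_centralizer_fix _ hMt' (hNC ⟨g, hg, rfl⟩) ha)
  · have hle : M.map G.subtype ≤ Subgroup.centralizer
        ((M.map G.subtype : Subgroup (Equiv.Perm α)) : Set (Equiv.Perm α)) := by
      rintro _ ⟨n, hn, rfl⟩
      rw [Subgroup.mem_centralizer_iff]
      rintro _ ⟨m, hm, rfl⟩
      exact congrArg (fun x : M => ((x : G) : Equiv.Perm α)) (hab.is_comm.comm ⟨m, hm⟩ ⟨n, hn⟩)
    rw [hCM, Subgroup.map_le_map_iff_of_injective G.subtype_injective] at hle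
    exact hM (hd.eq_bot_of_le hle)
  · have := nontrivial_of_ne_bot G M hM
    obtain ⟨a⟩ : Nonempty α := inferInstance
    choose f hf using fun m : M => hNt.exists_smul_eq a (m⁻¹ • a)
    let φ : M →* N := MonoidHom.mk' f fun m m' => by
      apply hNreg _ _ a
      rw [hf, mul_smul, hf, ← hcomm, hf, mul_inv_rev, mul_smul]
    refine ⟨MulEquiv.ofBijective φ ⟨fun m m' h => ?_, fun n => ?_⟩⟩
    · have h1 : f m = f m' := h
      have h2 := hf m
      rw [h1, hf] at h2
      exact (inv_injective (hMreg _ _ _ h2)).symm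
    · obtain ⟨m, hm⟩ := hMt.exists_smul_eq a (n • a)
      refine ⟨m⁻¹, hNreg _ _ a ?_⟩
      change f m⁻¹ • a = _
      rw [hf, inv_inv, hm]
  · by_cases hne : L = M
    · exact Or.inl hne
    right
    have hd' := disjoint_of_minimal M L inferInstance hL hM hMmin hLmin (Ne.symm hne)
    have h1 := map_le_centralizer_of_disjoint G M L inferInstance hL hd'
    rw [hCM, Subgroup.map_le_map_iff_of_injective G.subtype_injective] at h1
    exact (hNmin L hL h1).resolve_left hL0

end Cfsg.Agent.S0704
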