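import Cfsg.Statements.S0707
import Cfsg.Agent.H3.Centralizer
import Cfsg.Agent.H3.Multi

set_option autoImplicit false
open Cfsg

namespace Cfsg.Agent.S0707

/-- In a primitive permutation group, distinct points have distinct stabilisers unless the group is regular of prime degree. -/
theorem result {α : Type*} (G : Subgroup (Equiv.Perm α)) [MulAction.IsPreprimitive G α] (h : ¬ (Nat.card α).Prime ∨ ∃ a : α, MulAction.stabilizer G a ≠ ⊥) {a b : α} (hab : a ≠ b) : MulAction.stabilizer G a ≠ MulAction.stabilizer G b := by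
  intro heq
  have hG : MulAction.IsPreprimitive G α := inferInstance
  have hall : ∀ x y : α, MulAction.stabilizer G x = MulAction.stabilizer G y := by
    refine (Cfsg.Agent.H3.Multi.prim_rel hG
      (fun x y => MulAction.stabilizer G x = MulAction.stabilizer G y)
      ⟨fun _ => rfl, fun h => h.symm, fun h h' => h.trans h'⟩ fun g x y hxy => ?_).resolve_left
      fun h' => hab (h' a b heq)
    rw [MulAction.stabilizer_smul_eq_stabilizer_map_conj,
      MulAction.stabilizer_smul_eq_stabilizer_map_conj, hxy]
  have hbot : ∀ x : α, MulAction.stabilizer G x = ⊥ := by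
    intro x
    rw [eq_bot_iff]
    intro g hg
    rw [Subgroup.mem_bot]
    ext y
    have : g ∈ MulAction.stabilizer G y := hall x y ▸ hg
    exact this
  have : Nontrivial α := ⟨⟨a, b, hab⟩⟩
  have hco := MulAction.IsPreprimitive.isCoatom_stabilizer_of_isPreprimitive G a
  rw [hbot] at hco
  have hsub : ∀ K : Subgroup G, K = ⊥ ∨ K = ⊤ := fun K => by
    by_cases h0 : K = ⊥
    · exact Or.inl h0
    · exact Or.inr (hco.2 K (bot_lt_iff_ne_bot.mpr h0))
  have hnt : Nontrivial G := by
    rw [← Subgroup.nontrivial_iff]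
    exact ⟨⟨⊥, ⊤, hco.1⟩⟩
  have hs : IsSimpleGroup G := ⟨fun K _ => hsub K⟩
  obtain ⟨g, hg⟩ := exists_ne (1 : G)
  have hz : Subgroup.zpowers g = ⊤ := (hsub _).resolve_left (by simpa using hg)
  have hcyc : IsCyclic G := ⟨⟨g, fun x => by
    have : x ∈ Subgroup.zpowers g := hz ▸ Subgroup.mem_top x
    exact this⟩⟩
  have hp : (Nat.card G).Prime := Group.is_simple_iff_prime_card.mp hs
  rcases h with h | ⟨x, hx⟩
  · apply h
    rw [← MulAction.index_stabilizer_of_transitive G a, hbot, Subgroup.index_bot]
    exact hp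
  · exact hx (hbot x)

end Cfsg.Agent.S0707
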