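import Cfsg.Statements.S0708
import Cfsg.Agent.H3.Tuples
import Cfsg.Agent.H3.NormalMulti

set_option autoImplicit false
open Cfsg

namespace Cfsg.Agent.S0708

/-- Tits' argument: a sharply 4-transitive group (no finiteness assumed) has finite degree at most 11, and at most 6 when the degree is even. -/
theorem result {G : Type*} [Group G] {Ω : Type*} [MulAction G Ω] (h4 : MulAction.IsMultiplyPretransitive G Ω 4) (hsharp : ∀ x : Fin 4 ↪ Ω, MulAction.stabilizer G x = ⊥) (hne : Nonempty (Fin 4 ↪ Ω)) : Finite Ω ∧ Nat.card Ω ≤ 11 ∧ (Even (Nat.card Ω) → Nat.card Ω ≤ 6) := by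
  classical
  open Cfsg.Agent.H3.Tuples Cfsg.Agent.H3.NormalMulti MulAction in
  obtain ⟨e⟩ := hne
  have hne : ∀ i j : Fin 4, i ≠ j → e i ≠ e j := fun i j h => e.injective.ne h
  have hab := hne 0 1 (by decide)
  have hac := hne 0 2 (by decide)
  have had := hne 0 3 (by decide)
  have hbc := hne 1 2 (by decide)
  have hbd := hne 1 3 (by decide)
  have hcd := hne 2 3 (by decide)
  generalize e 0 = a at *
  generalize e 1 = b at *
  generalize e 2 = c at *
  generalize e 3 = d at *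
  have eq4 : ∀ {p q r s : Ω}, p ≠ q → p ≠ r → p ≠ s → q ≠ r → q ≠ s → r ≠ s → ∀ {g h : G},
      g • p = h • p → g • q = h • q → g • r = h • r → g • s = h • s → g = h := by
    intro p q r s h1 h2 h3 h4 h5 h6 g h e1 e2 e3 e4
    have := sharp_four hsharp h1 h2 h3 h4 h5 h6 (g := h⁻¹ * g)
      (by rw [mul_smul, e1, inv_smul_smul]) (by rw [mul_smul, e2, inv_smul_smul])
      (by rw [mul_smul, e3, inv_smul_smul]) (by rw [mul_smul, e4, inv_smul_smul])
    exact (inv_mul_eq_one.mp this).symm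
  obtain ⟨x, xa, xb, xc, xd⟩ := four h4 hab hac had hbc hbd hcd hab had hac hbd hbc hcd.symm
  obtain ⟨y, ya, yb, yc, yd⟩ := four h4 hab hac had hbc hbd hcd hab.symm hbc hbd hac had hcd
  have hxx : x * x = 1 := eq4 hab hac had hbc hbd hcd (by simp [mul_smul, xa])
    (by simp [mul_smul, xb]) (by simp [mul_smul, xc, xd]) (by simp [mul_smul, xc, xd])
  have hyy : y * y = 1 := eq4 hab hac had hbc hbd hcd (by simp [mul_smul, ya, yb])
    (by simp [mul_smul, ya, yb]) (by simp [mul_smul, yc]) (by simp [mul_smul, yd])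
  have hxy : x * y = y * x := eq4 hab hac had hbc hbd hcd (by simp [mul_smul, xa, xb, ya])
    (by simp [mul_smul, xa, xb, yb]) (by simp [mul_smul, xc, yc, yd])
    (by simp [mul_smul, xd, yc, yd])
  have hxx' : ∀ p : Ω, x • x • p = p := fun p => by rw [← mul_smul, hxx, one_smul]
  have hyy' : ∀ p : Ω, y • y • p = p := fun p => by rw [← mul_smul, hyy, one_smul]
  have hxy' : ∀ p : Ω, x • y • p = y • x • p := fun p => by rw [← mul_smul, hxy, mul_smul]
  have hx1 : x ≠ 1 := fun h => hcd (by rw [← xc, h, one_smul])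
  have hy1 : y ≠ 1 := fun h => hab (by rw [← ya, h, one_smul])
  have hz1 : x * y ≠ 1 := fun h => hab (by rw [← xb, ← ya, ← mul_smul, h, one_smul])
  -- a further fixed point of one of two commuting involutions is fixed by the other
  have hthird : ∀ (u v : G) (p q : Ω), u ≠ 1 → p ≠ q → u • p = p → u • q = q → v • p = q →
      v • q = p → (∀ r : Ω, u • v • r = v • u • r) → ∀ r : Ω, u • r = r → r ≠ p → r ≠ q →
      v • r = r := by
    intro u v p q hu hpq up uq vp vq hc r ur rp rq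
    by_contra hne
    refine hu (sharp_four hsharp hpq rp.symm (c := r) (d := v • r) ?_ rq.symm ?_ (Ne.symm hne)
      up uq ur (by rw [hc, ur]))
    · intro h; rw [← vq, smul_left_cancel_iff] at h; exact rq h.symm
    · intro h; rw [← vp, smul_left_cancel_iff] at h; exact rp h.symm
  obtain ⟨T, hT, hTz⟩ : ∃ T : Finset Ω, T.card ≤ 3 ∧ ∀ p : Ω, x • y • p = p → p ∈ T := by
    by_contra hcon
    push Not at hcon
    obtain ⟨p, hp, -⟩ := hcon ∅ (by simp)
    obtain ⟨q, hq, hq'⟩ := hcon {p} (by simp)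
    obtain ⟨r, hr, hr'⟩ := hcon {p, q} (Finset.card_le_two.trans (by omega))
    obtain ⟨s, hs, hs'⟩ := hcon {p, q, r} Finset.card_le_three
    simp only [Finset.mem_insert, Finset.mem_singleton, not_or] at hq' hr' hs'
    exact hz1 (sharp_four hsharp (Ne.symm hq') (Ne.symm hr'.1) (Ne.symm hs'.1) (Ne.symm hr'.2)
      (Ne.symm hs'.2.1) (Ne.symm hs'.2.2) (by rw [mul_smul, hp]) (by rw [mul_smul, hq])
      (by rw [mul_smul, hr]) (by rw [mul_smul, hs]))
  have hcent : ∀ g : G, g * x = x * g → g * y = y * g →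
      g = 1 ∨ g = x ∨ g = y ∨ g = x * y := by
    intro g hgx hgy
    have hgx' : ∀ p : Ω, x • g • p = g • x • p := fun p => by rw [← mul_smul, ← hgx, mul_smul]
    have hgy' : ∀ p : Ω, y • g • p = g • y • p := fun p => by rw [← mul_smul, ← hgy, mul_smul]
    have h1 : g • a = a ∨ g • a = b := by
      by_contra hcon
      push Not at hcon
      have := hthird x y a b hx1 hab xa xb ya yb hxy' (g • a) (by rw [hgx', xa]) hcon.1 hcon.2
      rw [hgy', ya, smul_left_cancel_iff] at this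
      exact hab this.symm
    have h2 : g • c = c ∨ g • c = d := by
      by_contra hcon
      push Not at hcon
      have := hthird y x c d hy1 hcd yc yd xc xd (fun r => (hxy' r).symm) (g • c)
        (by rw [hgy', yc]) hcon.1 hcon.2
      rw [hgx', xc, smul_left_cancel_iff] at this
      exact hcd this.symm
    have h3 : g • b = y • g • a := by rw [hgy', ya]
    have h4 : g • d = x • g • c := by rw [hgx', xc]
    rcases h1 with h1 | h1 <;> rcases h2 with h2 | h2
    · left
      exact eq4 hab hac had hbc hbd hcd (by simp [h1]) (by simp [h1, h3, ya]) (by simp [h2])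
        (by simp [h2, h4, xc])
    · right; left
      exact eq4 hab hac had hbc hbd hcd (by simp [h1, xa]) (by simp [h1, h3, ya, xb])
        (by simp [h2, xc]) (by simp [h2, h4])
    · right; right; left
      exact eq4 hab hac had hbc hbd hcd (by simp [h1, ya]) (by simp [h1, h3])
        (by simp [h2, yc]) (by simp [h2, h4, xc, yd])
    · right; right; right
      exact eq4 hab hac had hbc hbd hcd (by simp [h1, ya, xb, mul_smul])
        (by simp [h1, h3, yb, xa, mul_smul])
        (by simp [h2, yc, xc, mul_smul]) (by simp [h2, h4, yd, mul_smul])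
  have hreg : ∀ r : Ω, x • r ≠ r → y • r ≠ r → x • y • r ≠ r →
      r ≠ x • r ∧ r ≠ y • r ∧ r ≠ x • y • r ∧ x • r ≠ y • r ∧ x • r ≠ x • y • r ∧
        y • r ≠ x • y • r := by
    intro r h1 h2 h3
    refine ⟨h1.symm, h2.symm, h3.symm, fun h => h3 ?_, fun h => h2 ?_, fun h => h1 ?_⟩
    · rw [← h, hxx']
    · rw [smul_left_cancel_iff] at h; exact h.symm
    · rw [hxy', smul_left_cancel_iff] at h; exact h.symm
  have hR : ∀ r : Ω, x • r ≠ r → y • r ≠ r → x • y • r ≠ r →
      ∀ s : Ω, x • s ≠ s → y • s ≠ s → x • y • s ≠ s →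
      s = r ∨ s = x • r ∨ s = y • r ∨ s = x • y • r := by
    intro r r1 r2 r3 s s1 s2 s3
    obtain ⟨k1, k2, k3, k4, k5, k6⟩ := hreg r r1 r2 r3
    obtain ⟨l1, l2, l3, l4, l5, l6⟩ := hreg s s1 s2 s3
    obtain ⟨g, g1, g2, g3, g4⟩ := four h4 k1 k2 k3 k4 k5 k6 l1 l2 l3 l4 l5 l6
    have hgx : g * x = x * g := eq4 k1 k2 k3 k4 k5 k6 (by simp only [mul_smul, g1, g2])
      (by simp only [mul_smul, hxx', g1, g2]) (by simp only [mul_smul, g3, g4])
      (by simp only [mul_smul, hxx', g3, g4])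
    have hgy : g * y = y * g := eq4 k1 k2 k3 k4 k5 k6 (by simp only [mul_smul, g1, g3])
      (by simp only [mul_smul, ← hxy', g4, g2]) (by simp only [mul_smul, hyy', g1, g3])
      (by simp only [mul_smul, g4, ← hxy', hyy', g2])
    rw [← g1]
    rcases hcent g hgx hgy with h | h | h | h <;> simp [h, mul_smul]
  obtain ⟨U, hU, hUall⟩ : ∃ U : Finset Ω, U.card ≤ 11 ∧ ∀ p, p ∈ U := by
    have hF : ∀ p : Ω, (x • p = p ∨ y • p = p ∨ x • y • p = p) → p ∈ ({a, b, c, d} ∪ T) := by
      intro p hp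
      by_cases hp' : p ∈ ({a, b, c, d} : Finset Ω)
      · exact Finset.mem_union_left _ hp'
      apply Finset.mem_union_right
      simp only [Finset.mem_insert, Finset.mem_singleton, not_or] at hp'
      apply hTz
      rcases hp with hp | hp | hp
      · rw [hthird x y a b hx1 hab xa xb ya yb hxy' p hp hp'.1 hp'.2.1, hp]
      · rw [hp, hthird y x c d hy1 hcd yc yd xc xd (fun r => (hxy' r).symm) p hp hp'.2.2.1
          hp'.2.2.2]
      · exact hp
    have hFc : (({a, b, c, d} : Finset Ω) ∪ T).card ≤ 7 :=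
      (Finset.card_union_le _ _).trans (by
        have : ({a, b, c, d} : Finset Ω).card ≤ 4 := Finset.card_le_four
        omega)
    by_cases hex : ∃ r : Ω, x • r ≠ r ∧ y • r ≠ r ∧ x • y • r ≠ r
    · obtain ⟨r, r1, r2, r3⟩ := hex
      refine ⟨({a, b, c, d} ∪ T) ∪ {r, x • r, y • r, x • y • r}, (Finset.card_union_le _ _).trans
        (by
          have : ({r, x • r, y • r, x • y • r} : Finset Ω).card ≤ 4 := Finset.card_le_four
          omega), fun p => ?_⟩
      by_cases hp : x • p = p ∨ y • p = p ∨ x • y • p = p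
      · exact Finset.mem_union_left _ (hF p hp)
      · push Not at hp
        apply Finset.mem_union_right
        simpa using hR r r1 r2 r3 p hp.1 hp.2.1 hp.2.2
    · refine ⟨{a, b, c, d} ∪ T, by omega, fun p => hF p ?_⟩
      by_contra hp
      push Not at hp
      exact hex ⟨p, hp⟩
  have hfin : Finite Ω := Finite.of_finite_univ (U.finite_toSet.subset fun p _ => hUall p)
  have h11 : Nat.card Ω ≤ 11 := (card_le_of_forall_mem U hUall).trans hU
  refine ⟨hfin, h11, fun heven => ?_⟩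
  by_contra h6
  have hprime : (Nat.card Ω - 3).Prime := by
    obtain ⟨m, hm⟩ := heven
    have : Nat.card Ω - 3 = 5 ∨ Nat.card Ω - 3 = 7 := by omega
    rcases this with h | h <;> rw [h] <;> norm_num
  set P := fixingSubgroup G ({a, b, c} : Set Ω) with hP
  have hPmem : ∀ g : G, g ∈ P ↔ g • a = a ∧ g • b = b ∧ g • c = c := fun g => by
    simp [hP, mem_fixingSubgroup_iff]
  have hPtr : ∀ p : Ω, p ≠ a → p ≠ b → p ≠ c → ∃ g ∈ P, g • d = p := by
    intro p h1 h2 h3
    obtain ⟨g, g1, g2, g3, g4⟩ := four h4 hab hac had hbc hbd hcd hab hac h1.symm hbc h2.symm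
      h3.symm
    exact ⟨g, (hPmem g).mpr ⟨g1, g2, g3⟩, g4⟩
  have hPcard : Nat.card P = Nat.card Ω - 3 := by
    have h1 := index_stabilizer P d
    have h2 : stabilizer P d = ⊥ := by
      rw [eq_bot_iff]
      intro g hg
      obtain ⟨g1, g2, g3⟩ := (hPmem g).mp g.2
      exact Subtype.ext (sharp_four hsharp hab hac had hbc hbd hcd g1 g2 g3 hg)
    have h3 : orbit P d = ({a, b, c} : Set Ω)ᶜ := by
      ext p
      constructor
      · rintro ⟨g, rfl⟩
        exact Cfsg.Agent.H3.Multi.smul_notMem_of_fix ((mem_fixingSubgroup_iff G).mp g.2)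
          (by simp [had.symm, hbd.symm, hcd.symm])
      · intro hp
        simp only [Set.mem_compl_iff, Set.mem_insert_iff, Set.mem_singleton_iff, not_or] at hp
        obtain ⟨g, hg, h⟩ := hPtr p hp.1 hp.2.1 hp.2.2
        exact ⟨⟨g, hg⟩, h⟩
    rw [h2, h3, Subgroup.index_bot] at h1
    have h5 := Set.ncard_add_ncard_compl ({a, b, c} : Set Ω)
    rw [Set.ncard_eq_three.mpr ⟨a, b, c, hab, hac, hbc, rfl⟩] at h5
    omega
  have : Fact (Nat.card Ω - 3).Prime := ⟨hprime⟩
  have hcyc : IsCyclic P := isCyclic_of_prime_card hPcard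
  obtain ⟨g, hg⟩ := hcyc.exists_generator
  have hg' : ∀ u ∈ P, ∃ i : ℤ, (g : G) ^ i = u := fun u hu => by
    obtain ⟨i, hi⟩ := hg ⟨u, hu⟩
    exact ⟨i, congrArg Subtype.val hi⟩
  obtain ⟨t, ta, tb, tc, td⟩ := four h4 hab hac had hbc hbd hcd hac hab had hbc.symm hcd hbd
  obtain ⟨g1, g2, g3⟩ := (hPmem g).mp g.2
  obtain ⟨i, hi⟩ := hg' (y * g * y⁻¹) ((hPmem _).mpr ⟨
    by rw [mul_smul, mul_smul, ← yb, inv_smul_smul, g2],
    by rw [mul_smul, mul_smul, ← ya, inv_smul_smul, g1],
    by rw [mul_smul, mul_smul, ← yc, inv_smul_smul, g3]⟩)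
  obtain ⟨j, hj⟩ := hg' (t * g * t⁻¹) ((hPmem _).mpr ⟨
    by rw [mul_smul, mul_smul, ← ta, inv_smul_smul, g1],
    by rw [mul_smul, mul_smul, ← tc, inv_smul_smul, g3],
    by rw [mul_smul, mul_smul, ← tb, inv_smul_smul, g2]⟩)
  have hcomm : (y * t) * g * (y * t)⁻¹ = (t * y) * g * (t * y)⁻¹ := by
    calc (y * t) * g * (y * t)⁻¹ = y * (t * g * t⁻¹) * y⁻¹ := by group
      _ = (y * g * y⁻¹) ^ j := by rw [← hj, conj_zpow]
      _ = (t * g * t⁻¹) ^ i := by rw [← hi, ← hj, ← zpow_mul, ← zpow_mul, mul_comm]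
      _ = t * (y * g * y⁻¹) * t⁻¹ := by rw [← hi, conj_zpow]
      _ = (t * y) * g * (t * y)⁻¹ := by group
  have hcomm' : Commute ((t * y)⁻¹ * (y * t)) g := by
    have : (t * y)⁻¹ * (y * t) * g = (t * y)⁻¹ * ((y * t) * g * (y * t)⁻¹) * (y * t) := by group
    rw [Commute, SemiconjBy, this, hcomm]
    group
  have hfix : ∀ p : Ω, p ≠ a → p ≠ b → p ≠ c → ((t * y)⁻¹ * (y * t)) • p = p := by
    intro p h1 h2 h3
    obtain ⟨u, hu, rfl⟩ := hPtr p h1 h2 h3
    obtain ⟨l, rfl⟩ := hg' u hu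
    rw [← mul_smul, (hcomm'.zpow_right l).eq, mul_smul]
    congr 1
    rw [mul_smul, inv_smul_eq_iff, mul_smul, mul_smul, td, yd, td]
  obtain ⟨p, hp⟩ := exists_notMem ({a, b, c, d} : Finset Ω) (by
    have : ({a, b, c, d} : Finset Ω).card ≤ 4 := Finset.card_le_four
    omega)
  obtain ⟨q, hq⟩ := exists_notMem ({p, a, b, c, d} : Finset Ω) (by
    have : ({p, a, b, c, d} : Finset Ω).card ≤ 5 := Finset.card_le_five
    omega)
  obtain ⟨r, hr⟩ := exists_notMem ({q, p, a, b, c, d} : Finset Ω) (by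
    have : ({q, p, a, b, c, d} : Finset Ω).card ≤ 6 := Finset.card_le_six
    omega)
  simp only [Finset.mem_insert, Finset.mem_singleton, not_or] at hp hq hr
  have h1 := sharp_four hsharp hp.2.2.2 (Ne.symm hq.1) (Ne.symm hr.2.1) (Ne.symm hq.2.2.2.2)
    (Ne.symm hr.2.2.2.2.2) (Ne.symm hr.1) (hfix p hp.1 hp.2.1 hp.2.2.1)
    (hfix d had.symm hbd.symm hcd.symm) (hfix q hq.2.1 hq.2.2.1 hq.2.2.2.1)
    (hfix r hr.2.2.1 hr.2.2.2.1 hr.2.2.2.2.1)
  rw [inv_mul_eq_one] at h1
  have h2 : (t * y) • a = (y * t) • a := by rw [h1]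
  rw [mul_smul, mul_smul, ya, tb, ta, ya] at h2
  exact hbc h2.symm

end Cfsg.Agent.S0708
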