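import Cfsg.Statements.S0709
import Cfsg.Agent.H3.Multi

set_option autoImplicit false
open Cfsg

namespace Cfsg.Agent.S0709

/-- Witt's Lemma for constructing transitive extensions. Points `q 1, …, q t` (`t ≥ 2`) of a finite set are given; `G` fixes `q i` for `i ≥ 3` and is doubly transitive on the remaining points; `s 1 ∈ G` swaps `q 1, q 2`; for `2 ≤ i ≤ t-1`, `s i` swaps `q i, q (i+1)` and fixes the other `q j`; with `H` the stabiliser of `q 1, q 2` in `G`: `s i ^ 2 ∈ H`, `(s i * s (i+1)) ^ 3 ∈ H`, `(s i * s j) ^ 2 ∈ H` for `j ≥ i + 2`, and `s i` (`i ≥ 2`) normalises the stabiliser of `q 2` in `G`. Then `G` and the `s i` generate a `t`-transitive group whose pointwise stabiliser of the `q`'s is `H`. -/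
theorem result {α : Type*} [Fintype α] [DecidableEq α] (t : ℕ) (ht : 2 ≤ t) (q : ℕ → α) (hq : ∀ i j : ℕ, 1 ≤ i → i ≤ t → 1 ≤ j → j ≤ t → q i = q j → i = j) (G : Subgroup (Equiv.Perm α)) (hfix : ∀ g ∈ G, ∀ i : ℕ, 3 ≤ i → i ≤ t → g (q i) = q i) (h2 : ∀ a b c d : α, (∀ i, 3 ≤ i → i ≤ t → a ≠ q i ∧ b ≠ q i ∧ c ≠ q i ∧ d ≠ q i) → a ≠ b → c ≠ d → ∃ g ∈ G, g a = c ∧ g b = d) (s : ℕ → Equiv.Perm α) (hs1 : s 1 ∈ G) (hs1q : s 1 (q 1) = q 2 ∧ s 1 (q 2) = q 1) (hsq : ∀ i : ℕ, 2 ≤ i → i + 1 ≤ t → s i (q i) = q (i + 1) ∧ s i (q (i + 1)) = q i ∧ ∀ j : ℕ, 1 ≤ j → j ≤ t → j ≠ i → j ≠ i + 1 → s i (q j) = q j) (H : Subgroup (Equiv.Perm α)) (hH : H = G ⊓ MulAction.stabilizer (Equiv.Perm α) (q 1) ⊓ MulAction.stabilizer (Equiv.Perm α) (q 2)) (hsq2 : ∀ i : ℕ, 1 ≤ i → i + 1 ≤ t → s i ^ 2 ∈ H) (hbraid : ∀ i : ℕ, 1 ≤ i → i + 2 ≤ t → (s i * s (i + 1)) ^ 3 ∈ H) (hcomm : ∀ i j : ℕ, 1 ≤ i → i + 2 ≤ j → j + 1 ≤ t → (s i * s j) ^ 2 ∈ H ∧ (s j * s i) ^ 2 ∈ H) (hnorm : ∀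 i : ℕ, 2 ≤ i → i + 1 ≤ t → ∀ g ∈ G ⊓ MulAction.stabilizer (Equiv.Perm α) (q 2), s i * g * (s i)⁻¹ ∈ G ⊓ MulAction.stabilizer (Equiv.Perm α) (q 2)) : MulAction.IsMultiplyPretransitive ↥(Subgroup.closure ((G : Set (Equiv.Perm α)) ∪ {x | ∃ i : ℕ, 2 ≤ i ∧ i + 1 ≤ t ∧ x = s i})) α t ∧ Subgroup.closure ((G : Set (Equiv.Perm α)) ∪ {x | ∃ i : ℕ, 2 ≤ i ∧ i + 1 ≤ t ∧ x = s i}) ⊓ fixingSubgroup (Equiv.Perm α) {x | ∃ i : ℕ, 1 ≤ i ∧ i ≤ t ∧ x = q i} = H := by
  set G1 := G ⊓ MulAction.stabilizer (Equiv.Perm α) (q 2) with hG1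
  have hG1mem : ∀ g, g ∈ G1 ↔ g ∈ G ∧ g (q 2) = q 2 := fun g => Iff.rfl
  have hHmem : ∀ g, g ∈ H ↔ (g ∈ G ∧ g (q 1) = q 1) ∧ g (q 2) = q 2 := fun g => by
    rw [hH]; rfl
  let K : ℕ → Subgroup (Equiv.Perm α) := fun i =>
    Subgroup.closure ((G1 : Set (Equiv.Perm α)) ∪ {x | ∃ j : ℕ, 1 ≤ j ∧ j + 1 ≤ i ∧ x = s j})
  have hG1K : ∀ i, G1 ≤ K i := fun i g hg => Subgroup.subset_closure (Or.inl hg)
  have hHK : ∀ i, H ≤ K i := fun i g hg =>
    hG1K i ((hG1mem g).mpr ⟨((hHmem g).mp hg).1.1, ((hHmem g).mp hg).2⟩)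
  have hsK : ∀ i j, 1 ≤ j → j + 1 ≤ i → s j ∈ K i := fun i j h1 h2 =>
    Subgroup.subset_closure (Or.inr ⟨j, h1, h2, rfl⟩)
  have hmono : ∀ i j, i ≤ j → K i ≤ K j := by
    intro i j hij
    apply Subgroup.closure_mono
    rintro x (hx | ⟨l, h1, h2, rfl⟩)
    · exact Or.inl hx
    · exact Or.inr ⟨l, h1, by omega, rfl⟩
  have hqne : ∀ i j : ℕ, 1 ≤ i → i ≤ t → 1 ≤ j → j ≤ t → i ≠ j → q i ≠ q j :=
    fun i j h1 h2 h3 h4 h e => h (hq i j h1 h2 h3 h4 e)
  have hKfix : ∀ i j, 1 ≤ i → i < j → j ≤ t → ∀ g ∈ K i, g (q j) = q j := by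
    intro i j hi hij hj
    have : K i ≤ MulAction.stabilizer (Equiv.Perm α) (q j) := by
      rw [Subgroup.closure_le]
      rintro x (hx | ⟨l, h1, h2, rfl⟩)
      · rcases Nat.lt_or_ge j 3 with h | h
        · have : j = 2 := by omega
          subst this
          exact hx.2
        · exact hfix x hx.1 j h hj
      · rcases Nat.lt_or_ge l 2 with h | h
        · have : l = 1 := by omega
          subst this
          exact hfix _ hs1 j (by omega) hj
        · exact (hsq l h (by omega)).2.2 j (by omega) hj (by omega) (by omega)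
    exact fun g hg => this hg
  have hK1 : K 1 ≤ G1 := by
    rw [Subgroup.closure_le]
    rintro x (hx | ⟨l, h1, h2, rfl⟩)
    · exact hx
    · omega
  have hK2 : K 2 ≤ G := by
    rw [Subgroup.closure_le]
    rintro x (hx | ⟨l, h1, h2, rfl⟩)
    · exact hx.1
    · have : l = 1 := by omega
      subst this
      exact hs1
  have hT1 : ∀ a, (∀ j, 2 ≤ j → j ≤ t → a ≠ q j) → ∃ u ∈ G1, u (q 1) = a := by
    intro a ha
    obtain ⟨u, hu, u1, u2⟩ := h2 (q 2) (q 1) (q 2) a (fun i h3 hi =>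
      ⟨hqne 2 i (by omega) ht (by omega) hi (by omega),
        hqne 1 i (by omega) (by omega) (by omega) hi (by omega),
        hqne 2 i (by omega) ht (by omega) hi (by omega), ha i (by omega) hi⟩)
      (hqne 2 1 (by omega) ht (by omega) (by omega) (by omega)) (ha 2 le_rfl ht).symm
    exact ⟨u, ⟨hu, u1⟩, u2⟩
  have hD1 : ∀ g ∈ G, g ∈ K 1 ∨ ∃ u ∈ K 1, ∃ v ∈ K 1, g = u * s 1 * v := by
    intro g hg
    by_cases h : g (q 2) = q 2
    · exact Or.inl (hG1K 1 ⟨hg, h⟩)
    right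
    obtain ⟨u, hu, u2⟩ := hT1 (g (q 2)) (by
      intro j h1 hj e
      rcases Nat.lt_or_ge j 3 with h' | h'
      · have : j = 2 := by omega
        subst this
        exact h e
      · rw [← hfix g hg j h' hj, Equiv.apply_eq_iff_eq] at e
        exact hqne 2 j (by omega) ht (by omega) hj (by omega) e)
    refine ⟨u, hG1K 1 hu, (u * s 1)⁻¹ * g, hG1K 1 ⟨G.mul_mem (G.inv_mem (G.mul_mem hu.1 hs1)) hg,
      ?_⟩, by group⟩
    change ((u * s 1)⁻¹ * g) (q 2) = q 2
    rw [Equiv.Perm.mul_apply, Equiv.Perm.inv_eq_iff_eq, Equiv.Perm.mul_apply, hs1q.2, u2]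
  have hGK2 : G ≤ K 2 := by
    intro g hg
    rcases hD1 g hg with h | ⟨u, hu, v, hv, rfl⟩
    · exact hmono 1 2 (by omega) h
    · exact (K 2).mul_mem ((K 2).mul_mem (hmono 1 2 (by omega) hu) (hsK 2 1 le_rfl le_rfl))
        (hmono 1 2 (by omega) hv)
  have hD : ∀ i, 1 ≤ i → i + 1 ≤ t → ∀ g ∈ K (i + 1),
      g ∈ K i ∨ ∃ u ∈ K i, ∃ v ∈ K i, g = u * s i * v := by
    intro i hi
    induction i, hi using Nat.le_induction with
    | base => exact fun _ g hg => hD1 g (hK2 hg)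
    | succ i hi ih =>
      intro hit
      have ih := ih (by omega)
      set σ := s (i + 1) with hσ
      have hσ2 : σ ^ 2 ∈ H := hsq2 (i + 1) (by omega) hit
      have hN : ∀ g ∈ K i, σ * g * σ⁻¹ ∈ K i := by
        have : K i ≤ (K i).comap (MulAut.conj σ).toMonoidHom := by
          rw [Subgroup.closure_le]
          rintro x (hx | ⟨l, h1, h2, rfl⟩)
          · exact hG1K i (hnorm (i + 1) (by omega) hit x hx)
          · have h3 := (hcomm l (i + 1) h1 (by omega) hit).2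
            change σ * s l * σ⁻¹ ∈ K i
            have : σ * s l * σ⁻¹ = (σ * s l) ^ 2 * (s l)⁻¹ * (σ ^ 2)⁻¹ := by
              simp only [pow_two]; group
            rw [this]
            exact (K i).mul_mem ((K i).mul_mem (hHK i h3) ((K i).inv_mem (hsK i l h1 h2)))
              ((K i).inv_mem (hHK i hσ2))
        exact fun g hg => this hg
      have hN' : ∀ g ∈ K i, σ⁻¹ * g * σ ∈ K i := by
        intro g hg
        have : σ⁻¹ * g * σ = (σ ^ 2)⁻¹ * (σ * g * σ⁻¹) * σ ^ 2 := by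
          simp only [pow_two]; group
        rw [this]
        exact (K i).mul_mem ((K i).mul_mem ((K i).inv_mem (hHK i hσ2)) (hN g hg)) (hHK i hσ2)
      have hle := hmono i (i + 1) (by omega)
      have hτ : s i ∈ K (i + 1) := hsK _ _ hi le_rfl
      have hb := hbraid i hi hit
      have hKW : ∀ x ∈ K (i + 1), ∀ y : Equiv.Perm α,
          (y ∈ K (i + 1) ∨ ∃ u ∈ K (i + 1), ∃ v ∈ K (i + 1), y = u * σ * v) →
          (x * y ∈ K (i + 1) ∨ ∃ u ∈ K (i + 1), ∃ v ∈ K (i + 1), x * y = u * σ * v) := by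
        rintro x hx y (hy | ⟨u, hu, v, hv, rfl⟩)
        · exact Or.inl ((K _).mul_mem hx hy)
        · exact Or.inr ⟨x * u, (K _).mul_mem hx hu, v, hv, by group⟩
      have hσW : ∀ y : Equiv.Perm α,
          (y ∈ K (i + 1) ∨ ∃ u ∈ K (i + 1), ∃ v ∈ K (i + 1), y = u * σ * v) →
          (σ * y ∈ K (i + 1) ∨ ∃ u ∈ K (i + 1), ∃ v ∈ K (i + 1), σ * y = u * σ * v) := by
        rintro y (hy | ⟨u, hu, v, hv, rfl⟩)
        · exact Or.inr ⟨1, (K _).one_mem, y, hy, by group⟩
        · rcases ih u hu with h | ⟨a, ha, b, hb', rfl⟩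
          · left
            have : σ * (u * σ * v) = (σ * u * σ⁻¹) * σ ^ 2 * v := by
              simp only [pow_two]; group
            rw [this]
            exact (K _).mul_mem ((K _).mul_mem (hle (hN u h)) (hHK _ hσ2)) hv
          · right
            refine ⟨(σ * a * σ⁻¹) * (s i)⁻¹ * (s i * σ) ^ 3 * (σ ^ 2)⁻¹,
              (K _).mul_mem ((K _).mul_mem ((K _).mul_mem (hle (hN a ha)) ((K _).inv_mem hτ))
                (hHK _ hb)) ((K _).inv_mem (hHK _ hσ2)),
              (s i)⁻¹ * (σ⁻¹ * b * σ) * v,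
              (K _).mul_mem ((K _).mul_mem ((K _).inv_mem hτ) (hle (hN' b hb'))) hv, ?_⟩
            simp only [pow_succ, pow_zero]; group
      intro g hg
      induction hg using Subgroup.closure_induction_left with
      | one => exact Or.inl (K _).one_mem
      | mul_left x hx y _ hy =>
        rcases hx with hx | ⟨l, h1, h2, rfl⟩
        · exact hKW x (hG1K _ hx) y hy
        · rcases Nat.lt_or_ge l (i + 1) with h | h
          · exact hKW _ (hsK _ l h1 h) y hy
          · have : l = i + 1 := by omega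
            subst this
            exact hσW y hy
      | inv_mul_cancel x hx y _ hy =>
        rcases hx with hx | ⟨l, h1, h2, rfl⟩
        · exact hKW _ ((K _).inv_mem (hG1K _ hx)) y hy
        · rcases Nat.lt_or_ge l (i + 1) with h | h
          · exact hKW _ ((K _).inv_mem (hsK _ l h1 h)) y hy
          · have : l = i + 1 := by omega
            subst this
            have : (s (i + 1))⁻¹ * y = (σ ^ 2)⁻¹ * (σ * y) := by
              simp only [pow_two, hσ]; group
            rw [this]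
            exact hKW _ ((K _).inv_mem (hHK _ hσ2)) _ (hσW y hy)
  have hsw : ∀ i, 1 ≤ i → i + 1 ≤ t → s i (q i) = q (i + 1) ∧ s i (q (i + 1)) = q i := by
    intro i h1 hi
    rcases Nat.lt_or_ge i 2 with h | h
    · have : i = 1 := by omega
      subst this
      exact hs1q
    · exact ⟨(hsq i h hi).1, (hsq i h hi).2.1⟩
  have hS : ∀ i, 1 ≤ i → i + 1 ≤ t → ∀ g ∈ K (i + 1), g (q (i + 1)) = q (i + 1) → g ∈ K i := by
    intro i h1 hi g hg hgq
    rcases hD i h1 hi g hg with h | ⟨u, hu, v, hv, rfl⟩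
    · exact h
    · exfalso
      rw [Equiv.Perm.mul_apply, Equiv.Perm.mul_apply, hKfix i (i + 1) h1 (by omega) hi v hv,
        (hsw i h1 hi).2, ← hKfix i (i + 1) h1 (by omega) hi u hu, Equiv.apply_eq_iff_eq] at hgq
      exact hqne i (i + 1) h1 (by omega) (by omega) hi (by omega) hgq
  have hT : ∀ i, 1 ≤ i → i ≤ t → ∀ a, (∀ j, i < j → j ≤ t → a ≠ q j) →
      ∃ u ∈ K i, u (q 1) = a := by
    intro i hi
    induction i, hi using Nat.le_induction with
    | base =>
      intro _ a ha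
      obtain ⟨u, hu, h⟩ := hT1 a ha
      exact ⟨u, hG1K 1 hu, h⟩
    | succ i hi ih =>
      intro hit a ha
      by_cases h : a = q (i + 1)
      · obtain ⟨u, hu, h'⟩ := ih (by omega) (q i) (fun j h1 h2 =>
          hqne i j hi (by omega) (by omega) h2 (by omega))
        refine ⟨s i * u, (K _).mul_mem (hsK _ _ hi le_rfl) (hmono _ _ (by omega) hu), ?_⟩
        rw [Equiv.Perm.mul_apply, h', (hsw i hi hit).1, h]
      · obtain ⟨u, hu, h'⟩ := ih (by omega) a (fun j h1 h2 => by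
          rcases Nat.lt_or_ge (i + 1) j with h3 | h3
          · exact ha j h3 h2
          · have : j = i + 1 := by omega
            rw [this]; exact h)
        exact ⟨u, hmono _ _ (by omega) hu, h'⟩
  have hL : Subgroup.closure ((G : Set (Equiv.Perm α)) ∪
      {x | ∃ i : ℕ, 2 ≤ i ∧ i + 1 ≤ t ∧ x = s i}) = K t := by
    apply le_antisymm
    · rw [Subgroup.closure_le]
      rintro x (hx | ⟨l, h1, h2, rfl⟩)
      · exact hmono 2 t ht (hGK2 hx)
      · exact hsK t l (by omega) h2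
    · rw [Subgroup.closure_le]
      rintro x (hx | ⟨l, h1, h2, rfl⟩)
      · exact Subgroup.subset_closure (Or.inl hx.1)
      · rcases Nat.lt_or_ge l 2 with h | h
        · have : l = 1 := by omega
          subst this
          exact Subgroup.subset_closure (Or.inl hs1)
        · exact Subgroup.subset_closure (Or.inr ⟨l, h, h2, rfl⟩)
  rw [hL]
  constructor
  · suffices h : ∀ j ≤ t, MulAction.IsMultiplyPretransitive (K t) α j from h t le_rfl
    intro j
    induction j with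
    | zero => intro _; exact MulAction.is_zero_pretransitive'
    | succ j ih =>
      intro hj
      apply Cfsg.Agent.H3.Multi.succ_of_fix (ih (by omega)) ((Finset.Ioc (t - j) t).image q)
      · rw [Finset.card_image_of_injOn, Nat.card_Ioc]
        · omega
        · intro a ha b hb e
          simp only [Finset.coe_Ioc, Set.mem_Ioc] at ha hb
          exact hq a b (by omega) ha.2 (by omega) hb.2 e
      · intro x hx y hy
        obtain ⟨u, hu, hux⟩ := hT (t - j) (by omega) (by omega) x (fun l h1 h2 e =>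
          hx (Finset.mem_image.mpr ⟨l, Finset.mem_Ioc.mpr ⟨h1, h2⟩, e.symm⟩))
        obtain ⟨v, hv, hvy⟩ := hT (t - j) (by omega) (by omega) y (fun l h1 h2 e =>
          hy (Finset.mem_image.mpr ⟨l, Finset.mem_Ioc.mpr ⟨h1, h2⟩, e.symm⟩))
        have hw : v * u⁻¹ ∈ K (t - j) := (K _).mul_mem hv ((K _).inv_mem hu)
        refine ⟨⟨v * u⁻¹, hmono _ _ (by omega) hw⟩, fun z hz => ?_, ?_⟩
        · obtain ⟨l, hl, rfl⟩ := Finset.mem_image.mp hz
          obtain ⟨h1, h2⟩ := Finset.mem_Ioc.mp hl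
          exact hKfix (t - j) l (by omega) h1 h2 _ hw
        · change (v * u⁻¹) x = y
          rw [← hux, ← hvy]; simp
  · apply le_antisymm
    · rintro g ⟨hg, hgq⟩
      have hgq' : ∀ i, 1 ≤ i → i ≤ t → g (q i) = q i := fun i h1 h2 =>
        (mem_fixingSubgroup_iff _).mp hgq (q i) ⟨i, h1, h2, rfl⟩
      have : ∀ d, d < t → g ∈ K (t - d) := by
        intro d
        induction d with
        | zero => intro _; exact hg
        | succ d ih =>
          intro hd
          have e : t - d = t - (d + 1) + 1 := by omega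
          have := ih (by omega)
          rw [e] at this
          exact hS _ (by omega) (by omega) g this (hgq' _ (by omega) (by omega))
      have h1 := this (t - 1) (by omega)
      rw [show t - (t - 1) = 1 by omega] at h1
      exact (hHmem g).mpr ⟨⟨(hK1 h1).1, hgq' 1 le_rfl (by omega)⟩, hgq' 2 (by omega) ht⟩
    · intro g hg
      refine ⟨hHK t hg, (mem_fixingSubgroup_iff _).mpr ?_⟩
      rintro _ ⟨i, h1, h2, rfl⟩
      rcases Nat.lt_or_ge i 2 with h | h
      · have : i = 1 := by omega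
        subst this
        exact ((hHmem g).mp hg).1.2
      · exact hKfix 1 i le_rfl h h2 g (hHK 1 hg)

end Cfsg.Agent.S0709
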