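import Cfsg.Statements.S0712
import Cfsg.Agent.H3.NormalMulti

set_option autoImplicit false
open Cfsg

namespace Cfsg.Agent.S0712

/-- Jordan: a primitive group in which the pointwise stabiliser of a set `s` is doubly transitive on the complement of `s` (which has at least 2 points) is `(|s| + 2)`-transitive. -/
theorem result {α : Type*} [Fintype α] [DecidableEq α] (G : Subgroup (Equiv.Perm α)) (hG : MulAction.IsPreprimitive G α) (s : Set α) {m : ℕ} (hsm : s.ncard = m) (hm : m + 2 ≤ Fintype.card α) (h2 : MulAction.IsMultiplyPretransitive (fixingSubgroup G s) (SubMulAction.ofFixingSubgroup G s) 2) : MulAction.IsMultiplyPretransitive G α (m + 2) := by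
  open Cfsg.Agent.H3.Multi Cfsg.Agent.H3.NormalMulti in
  rw [← Nat.card_eq_fintype_card] at hm
  have h2' : ∀ a b c d : α, a ∉ s → b ∉ s → c ∉ s → d ∉ s → a ≠ b → c ≠ d →
      ∃ g : G, (∀ z ∈ s, g • z = z) ∧ g • a = c ∧ g • b = d := by
    intro a b c d ha hb hc hd hab hcd
    rw [MulAction.is_two_pretransitive_iff] at h2
    obtain ⟨g, h1, h3⟩ := @h2
      ⟨a, ha⟩ ⟨b, hb⟩ ⟨c, hc⟩ ⟨d, hd⟩
      (fun h => hab (congrArg Subtype.val h)) (fun h => hcd (congrArg Subtype.val h))
    exact ⟨g, (mem_fixingSubgroup_iff G).mp g.2, congrArg Subtype.val h1,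
      congrArg Subtype.val h3⟩
  have hm1 : MulAction.IsMultiplyPretransitive G α (m + 1) := by
    rcases m with _ | n
    · rw [zero_add, MulAction.is_one_pretransitive_iff]
      exact hG.toIsPretransitive
    · exact (hG.isMultiplyPreprimitive hsm (by omega)
        (MulAction.isPreprimitive_of_is_two_pretransitive h2)).isMultiplyPretransitive
  have hcard : s.toFinite.toFinset.card = m := by
    rw [← hsm, Set.ncard_eq_toFinset_card s s.toFinite]
  obtain ⟨a, ha⟩ := exists_notMem s.toFinite.toFinset (by omega)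
  apply succ_of_fix hm1 (insert a s.toFinite.toFinset)
    (by rw [Finset.card_insert_of_notMem ha, hcard])
  intro x hx y hy
  simp only [Finset.mem_insert, Set.Finite.mem_toFinset, not_or] at hx hy ha
  obtain ⟨g, h1, h3, h4⟩ := h2' a x a y ha hx.2 ha hy.2 (Ne.symm hx.1) (Ne.symm hy.1)
  refine ⟨g, fun z hz => ?_, h4⟩
  simp only [Finset.mem_insert, Set.Finite.mem_toFinset] at hz
  rcases hz with rfl | hz
  · exact h3
  · exact h1 z hz

end Cfsg.Agent.S0712
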