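import Cfsg.Statements.S0713
import Cfsg.Agent.H3.JordanCycle

set_option autoImplicit false
open Cfsg

namespace Cfsg.Agent.S0713

/-- Jordan's Theorem: a primitive permutation group of degree `n ≥ 5` containing a `p`-cycle for a prime `p ≤ n - 3` contains the alternating group. -/
theorem result {α : Type*} [Fintype α] [DecidableEq α] (G : Subgroup (Equiv.Perm α)) (hG : MulAction.IsPreprimitive G α) {p : ℕ} (hp : p.Prime) (hn : 5 ≤ Fintype.card α) (hpn : p + 3 ≤ Fintype.card α) {g : Equiv.Perm α} (hgc : g.IsCycle) (hgp : g.support.card = p) (hg : g ∈ G) : alternatingGroup α ≤ G := by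
  rw [← Nat.card_eq_fintype_card] at hpn
  exact Cfsg.Agent.H3.JordanCycle.alt_le_of_prime_cycle G hG hp hpn hgc hgp hg

end Cfsg.Agent.S0713
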