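import Cfsg.Statements.S0714
import Cfsg.Agent.H1.PermModule

set_option autoImplicit false
open Cfsg

namespace Cfsg.Agent.S0714

open H1.PermModule Equiv

theorem exists_notMem {α : Type*} [Fintype α] [DecidableEq α] (s : Finset α)
    (h : s.card < Fintype.card α) : ∃ x, x ∉ s := by
  by_contra hcon
  push Not at hcon
  have : s = Finset.univ := Finset.eq_univ_iff_forall.2 hcon
  rw [this, Finset.card_univ] at h
  exact lt_irrefl _ h

/-- Over any field, the permutation module of the alternating group of degree at least 5 has exactly four invariant subspaces: zero, the constant functions, the functions with coordinate sum zero, and everything. -/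
theorem result {α : Type*} [Fintype α] [DecidableEq α] (hα : 5 ≤ Fintype.card α) {K : Type*} [Field K] (W : Subrepresentation (Cfsg.permRep K (alternatingGroup α) α)) : W.toSubmodule = ⊥ ∨ W = Cfsg.permConstants K (alternatingGroup α) α ∨ W = Cfsg.permSumZero K (alternatingGroup α) α ∨ W.toSubmodule = ⊤ := by
  classical
  have hmem : ∀ x y z : α, x ≠ y → x ≠ z → swap x y * swap x z ∈ alternatingGroup α := by
    intro x y z h1 h2
    rw [Perm.mem_alternatingGroup, Perm.sign_mul, Perm.sign_swap h1, Perm.sign_swap h2]
    simp
  by_cases hC : ∀ v ∈ W.toSubmodule, ∀ a b, v a = v b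
  · by_cases h0 : W.toSubmodule = ⊥
    · exact Or.inl h0
    · right; left
      obtain ⟨v, hv, hv0⟩ := (Submodule.ne_bot_iff _).1 h0
      obtain ⟨a, ha⟩ := Function.ne_iff.1 hv0
      have ha' : v a ≠ 0 := ha
      ext w
      rw [mem_permConstants]
      constructor
      · intro hw
        exact ⟨w a, fun x => hC w hw x a⟩
      · rintro ⟨c, hc⟩
        have : w = (c * (v a)⁻¹) • v := by
          funext x
          simp [hc, hC v hv x a, ha']
        rw [this]
        exact W.toSubmodule.smul_mem _ hv
  · right; right
    push Not at hC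
    obtain ⟨v, hv, a, b, hab⟩ := hC
    have hne : a ≠ b := fun h => hab (h ▸ rfl)
    obtain ⟨c, hc⟩ := exists_notMem {a, b} (lt_of_le_of_lt Finset.card_le_two (by omega))
    obtain ⟨d, hd⟩ := exists_notMem {a, b, c} (lt_of_le_of_lt Finset.card_le_three (by omega))
    obtain ⟨e, he⟩ := exists_notMem {a, b, c, d} (lt_of_le_of_lt Finset.card_le_four (by omega))
    simp only [Finset.mem_insert, Finset.mem_singleton, not_or] at hc hd he
    obtain ⟨hca, hcb⟩ := hc
    obtain ⟨hda, hdb, hdc⟩ := hd
    obtain ⟨hea, heb, hec, hed⟩ := he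
    -- first three-cycle
    let g : alternatingGroup α := ⟨swap a c * swap a b, hmem _ _ _ (Ne.symm hca) hne⟩
    let u : α → K := permRep K (alternatingGroup α) α g⁻¹ v - v
    have hu : u ∈ W.toSubmodule := W.toSubmodule.sub_mem (W.apply_mem_toSubmodule _ hv) hv
    have hux : ∀ x, u x = v (swap a c (swap a b x)) - v x := by
      intro x
      simp only [u, Pi.sub_apply, permRep_apply, inv_inv]
      rfl
    have hua : u a ≠ 0 := by
      rw [hux, swap_apply_left, swap_apply_of_ne_of_ne hne.symm (Ne.symm hcb)]
      exact sub_ne_zero.2 hab.symm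
    have hud : u d = 0 := by
      rw [hux, swap_apply_of_ne_of_ne hda hdb, swap_apply_of_ne_of_ne hda hdc, sub_self]
    have hue : u e = 0 := by
      rw [hux, swap_apply_of_ne_of_ne hea heb, swap_apply_of_ne_of_ne hea hec, sub_self]
    -- second three-cycle
    let k : alternatingGroup α := ⟨swap a d * swap a e, hmem _ _ _ (Ne.symm hda) (Ne.symm hea)⟩
    let w : α → K := permRep K (alternatingGroup α) α k⁻¹ u - u
    have hw : w ∈ W.toSubmodule := W.toSubmodule.sub_mem (W.apply_mem_toSubmodule _ hu) hu
    have hwx : ∀ x, w x = u (swap a d (swap a e x)) - u x := by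
      intro x
      simp only [w, Pi.sub_apply, permRep_apply, inv_inv]
      rfl
    have hw' : (Pi.single d 1 - Pi.single a 1 : α → K) = (u a)⁻¹ • w := by
      funext x
      rw [Pi.smul_apply, hwx, Pi.sub_apply]
      by_cases hxa : x = a
      · subst hxa
        rw [swap_apply_left, swap_apply_of_ne_of_ne hea hed, hue]
        simp [Ne.symm hda, hua]
      by_cases hxd : x = d
      · subst hxd
        rw [swap_apply_of_ne_of_ne hda (Ne.symm hed), swap_apply_right, hud]
        simp [hxa, hua]
      by_cases hxe : x = e
      · subst hxe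
        rw [swap_apply_right, swap_apply_left, hud, hue]
        simp [hxa, hxd]
      rw [swap_apply_of_ne_of_ne hxa hxe, swap_apply_of_ne_of_ne hxa hxd]
      simp [hxa, hxd]
    have hda' : (Pi.single d 1 - Pi.single a 1 : α → K) ∈ W.toSubmodule :=
      hw' ▸ W.toSubmodule.smul_mem _ hw
    have h2 : MulAction.IsMultiplyPretransitive (alternatingGroup α) α 2 := by
      have := alternatingGroup.isMultiplyPretransitive α
      apply MulAction.isMultiplyPretransitive_of_le (n := Nat.card α - 2)
      · rw [Nat.card_eq_fintype_card]; omega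
      · omega
    have hdiff : ∀ x, (Pi.single x 1 - Pi.single a 1 : α → K) ∈ W.toSubmodule := by
      intro x
      by_cases hxa : x = a
      · rw [hxa, sub_self]; exact W.toSubmodule.zero_mem
      obtain ⟨t, ht1, ht2⟩ := MulAction.is_two_pretransitive_iff.1 h2 hda hxa
      have := W.apply_mem_toSubmodule t hda'
      rwa [map_sub, permRep_single, permRep_single, ht1, ht2] at this
    have hsub : ∀ f : α → K, f - (∑ x, f x) • Pi.single a 1 ∈ W.toSubmodule := by
      intro f
      have : f - (∑ x, f x) • Pi.single a 1 =
          ∑ x, f x • (Pi.single x 1 - Pi.single a 1 : α → K) := by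
        simp only [smul_sub, Finset.sum_sub_distrib, ← Finset.sum_smul]
        congr 1
        exact pi_eq_sum_univ' f
      rw [this]
      exact W.toSubmodule.sum_mem fun x _ => W.toSubmodule.smul_mem _ (hdiff x)
    by_cases hS : ∀ f ∈ W.toSubmodule, ∑ x, f x = 0
    · left
      ext f
      rw [mem_permSumZero]
      refine ⟨hS f, fun hf => ?_⟩
      have := hsub f
      rwa [hf, zero_smul, sub_zero] at this
    · right
      push Not at hS
      obtain ⟨f, hf, hf0⟩ := hS
      have h3 : (∑ x, f x) • (Pi.single a 1 : α → K) ∈ W.toSubmodule := by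
        have := W.toSubmodule.sub_mem hf (hsub f)
        rwa [sub_sub_cancel] at this
      have h4 : (Pi.single a 1 : α → K) ∈ W.toSubmodule :=
        (W.toSubmodule.smul_mem_iff hf0).1 h3
      rw [eq_top_iff]
      intro f' _
      have := W.toSubmodule.add_mem (hsub f') (W.toSubmodule.smul_mem (∑ x, f' x) h4)
      rwa [sub_add_cancel] at this

end Cfsg.Agent.S0714
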