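import Cfsg.Statements.S0715
import Cfsg.Agent.H1.PermChar
import Cfsg.Agent.H1.TwoPRank

set_option autoImplicit false
open Cfsg

namespace Cfsg.Agent.S0715

open H1.CharDecomp H1.PermChar H1.TwoPRank MulAction

/-- If a natural number `f` divides the degree of every non-principal irreducible constituent of the permutation character of a transitive group, then `f` divides every non-trivial subdegree. -/
theorem result {G : Type*} [Group G] [Fintype G] {Ω : Type*} [Fintype Ω] [MulAction G Ω] [MulAction.IsPretransitive G Ω] (f : ℕ) (hf : ∀ χ : G → ℂ, Cfsg.IsIrrCharacter G χ → χ ≠ (fun _ => 1) → Cfsg.classInner (fun g : G => (Nat.card (MulAction.fixedBy Ω g) : ℂ)) χ ≠ 0 → ∃ m : ℕ, χ 1 = (f : ℂ) * m) (a b : Ω) (hab : b ≠ a) : f ∣ Nat.card (MulAction.orbit (MulAction.stabilizer G a) b) := by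
  classical
  rw [← character_permRep] at hf
  set k := Nat.card (orbit (stabilizer G a) b) with hk
  let M₀ : Matrix Ω Ω ℤ := fun x y => adj G a b x y
  let M : Matrix Ω Ω ℂ := M₀.map (Int.castRingHom ℂ)
  let A : Module.End ℂ (Ω → ℂ) := Matrix.toLin' M
  have hA : Comm (permRep ℂ G Ω) A := comm_toLin' fun g x y =>
    congrArg (Int.castRingHom ℂ) (adj_smul a b g x y)
  have hA1 : ∀ c : ℂ, A (fun _ => c) = (k : ℂ) • fun _ => c := by
    intro c
    funext x
    change ∑ y, (adj G a b x y : ℂ) * c = k * c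
    rw [← Finset.sum_mul, ← Int.cast_sum, rowsum_eq (adj_smul a b) x a, sum_adj_eq_card]
    simp [hk]
  have htr : LinearMap.trace ℂ _ A = 0 := by
    rw [Matrix.trace_toLin'_eq]
    refine Finset.sum_eq_zero fun x _ => ?_
    change ((adj G a b x x : ℤ) : ℂ) = 0
    rw [adj_neg fun h => h.ne hab.symm rfl, Int.cast_zero]
  have hint : ∀ μ ∈ A.charpoly.roots, IsIntegral ℤ μ := by
    intro μ hμ
    refine ⟨M₀.charpoly, M₀.charpoly_monic, ?_⟩
    have h1 := Polynomial.isRoot_of_mem_roots hμ
    rw [Matrix.charpoly_toLin', Matrix.charpoly_map, Polynomial.IsRoot, Polynomial.eval_map] at h1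
    exact h1
  have hinv : ∀ μ g, ∀ v ∈ A.maxGenEigenspace μ, permRep ℂ G Ω g v ∈ A.maxGenEigenspace μ :=
    fun μ g v hv => Module.End.mapsTo_maxGenEigenspace_of_comm (hA g).symm μ hv
  have hone : (fun _ => (1 : ℂ)) ∈ A.maxGenEigenspace k := by
    apply A.eigenspace_le_maxGenEigenspace
    exact Module.End.mem_eigenspace_iff.2 (hA1 1)
  have hn : (Fintype.card Ω : ℂ) ≠ 0 := by
    have : Nonempty Ω := ⟨a⟩
    exact_mod_cast Fintype.card_ne_zero
  have hdim : ∀ μ : ℂ, ∃ m : ℕ, Module.finrank ℂ (A.maxGenEigenspace μ) =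
      (if μ = k then 1 else 0) + f * m := by
    intro μ
    split_ifs with hμ
    · subst hμ
      let s : (Ω → ℂ) →ₗ[ℂ] ℂ := ∑ x, LinearMap.proj x
      have hs : ∀ v, s v = ∑ x, v x := fun v => by simp [s]
      obtain ⟨m, hm⟩ := dvd_finrank f hf (A.maxGenEigenspace k ⊓ LinearMap.ker s) (by
        rintro g v ⟨h1, h2⟩
        refine ⟨hinv _ g v h1, ?_⟩
        have h3 : s v = 0 := h2
        change s _ = 0
        rw [← h3, hs, hs]
        exact Fintype.sum_equiv (MulAction.toPerm g⁻¹) _ _ fun x => rfl) (by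
        rintro v ⟨-, h2⟩ h3
        have h4 : s v = 0 := h2
        rw [hs, Finset.sum_congr rfl fun x _ => h3 x a] at h4
        simp only [Finset.sum_const, Finset.card_univ, nsmul_eq_mul, mul_eq_zero, hn,
          false_or] at h4
        funext x
        rw [h3 x a, h4]
        rfl)
      refine ⟨m, ?_⟩
      have h1 := LinearMap.finrank_range_add_finrank_ker (s.domRestrict (A.maxGenEigenspace k))
      have h2 : LinearMap.range (s.domRestrict (A.maxGenEigenspace k)) = ⊤ := by
        rw [eq_top_iff]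
        intro c _
        refine ⟨(c / Fintype.card Ω) • ⟨_, hone⟩, ?_⟩
        rw [map_smul, LinearMap.domRestrict_apply, hs]
        simp only [Finset.sum_const, Finset.card_univ, nsmul_eq_mul, mul_one, smul_eq_mul]
        field_simp
      rw [h2, finrank_top, Module.finrank_self, LinearMap.ker_domRestrict,
        ← Submodule.finrank_map_subtype_eq, Submodule.map_comap_subtype, hm] at h1
      exact h1.symm
    · simp only [zero_add]
      refine dvd_finrank f hf _ (hinv μ) fun v hv h3 => ?_
      have h4 : v = fun _ => v a := funext fun x => h3 x a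
      have h5 : v ∈ A.maxGenEigenspace k := by
        apply A.eigenspace_le_maxGenEigenspace
        rw [Module.End.mem_eigenspace_iff, h4]
        exact hA1 _
      exact (Submodule.disjoint_def.1 (A.disjoint_genEigenspace hμ ⊤ ⊤)) v hv h5
  choose m hm using hdim
  have hk' : (k : ℂ) ∈ A.charpoly.roots.toFinset := by
    rw [Multiset.mem_toFinset, ← Multiset.count_pos, Polynomial.count_roots,
      ← LinearMap.finrank_maxGenEigenspace_eq, hm, if_pos rfl]
    omega
  rw [Module.End.trace_eq_sum_roots_charpoly_of_splits (IsAlgClosed.splits _),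
    Finset.sum_multiset_count] at htr
  simp only [Polynomial.count_roots, ← LinearMap.finrank_maxGenEigenspace_eq, hm, nsmul_eq_mul,
    Nat.cast_add, Nat.cast_ite, Nat.cast_one, Nat.cast_zero, Nat.cast_mul, add_mul, ite_mul,
    one_mul, zero_mul, Finset.sum_add_distrib, Finset.sum_ite_eq', if_pos hk', mul_assoc,
    ← Finset.mul_sum] at htr
  set z := ∑ μ ∈ A.charpoly.roots.toFinset, (m μ : ℂ) * μ with hz
  have hzint : IsIntegral ℤ (-z) := by
    refine IsIntegral.neg (IsIntegral.sum _ fun μ hμ => IsIntegral.mul ?_ ?_)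
    · exact_mod_cast isIntegral_algebraMap (R := ℤ) (A := ℂ) (x := (m μ : ℤ))
    · exact hint μ (Multiset.mem_toFinset.1 hμ)
  rcases f.eq_zero_or_pos with rfl | hf0
  · simp only [Nat.cast_zero, zero_mul, add_zero, Nat.cast_eq_zero] at htr
    rw [htr]
  · have hf1 : (f : ℂ) ≠ 0 := by exact_mod_cast hf0.ne'
    have h1 : -z = algebraMap ℚ ℂ ((k : ℚ) / f) := by
      simp only [map_div₀, map_natCast]
      field_simp
      linear_combination -htr
    rw [h1, isIntegral_algebraMap_iff (algebraMap ℚ ℂ).injective,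
      IsIntegrallyClosed.isIntegral_iff] at hzint
    obtain ⟨y, hy⟩ := hzint
    have hf2 : (f : ℚ) ≠ 0 := by exact_mod_cast hf0.ne'
    have h2 : (k : ℤ) = f * y := by
      have : (k : ℚ) = f * y := by
        rw [eq_intCast] at hy
        rw [hy]
        field_simp
      exact_mod_cast this
    exact Int.natCast_dvd_natCast.1 ⟨y, h2⟩

end Cfsg.Agent.S0715
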