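import Cfsg.Statements.S0716
import Cfsg.Agent.H1.PermChar
import Cfsg.Agent.S0715

set_option autoImplicit false
open Cfsg

namespace Cfsg.Agent.S0716

open H1.CharDecomp H1.PermChar MulAction

theorem card_eq_sum {H Ω : Type*} [Group H] [Fintype Ω] [MulAction H Ω]
    [Fintype (orbitRel.Quotient H Ω)] :
    Fintype.card Ω = ∑ q : orbitRel.Quotient H Ω, Nat.card q.orbit := by
  rw [← Nat.card_eq_fintype_card, Nat.card_congr (selfEquivSigmaOrbits' H Ω), Nat.card_sigma]

theorem partA {G : Type*} [Group G] [Fintype G] {Ω : Type*} [Fintype Ω] [MulAction G Ω]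
    [IsPretransitive G Ω] (a : Ω) (f : ℕ) (hf : ∀ χ : G → ℂ, IsIrrCharacter G χ →
      χ ≠ (fun _ => 1) → classInner (permRep ℂ G Ω).character χ ≠ 0 → χ 1 = f) :
    (∀ χ : G → ℂ, IsIrrCharacter G χ → classInner (permRep ℂ G Ω).character χ = 0 ∨
      classInner (permRep ℂ G Ω).character χ = 1) ∧
      ∀ b : Ω, b ≠ a → Nat.card (orbit (stabilizer G a) b) = f := by
  classical
  obtain ⟨ι, _, F, χ, h, h1⟩ := exists_isDecomp (ρ := permRep ℂ G Ω) 1 Comm.one (one_mul 1)
  have : Fintype (orbitRel.Quotient (stabilizer G a) Ω) := Fintype.ofFinite _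
  have hπ := character_eq_sum h h1
  let e : ι → ℕ := fun i => (Finset.univ.filter fun j => χ j = χ i).card
  have he : ∀ i, 1 ≤ e i := fun i => Finset.card_pos.2 ⟨i, by simp⟩
  have hr : ∑ i, e i = Fintype.card (orbitRel.Quotient (stabilizer G a) Ω) := by
    have h2 := classInner_self (G := G) a
    rw [hπ, classInner_sum_right] at h2
    simp only [classInner_sum_eq_card h (h.irr _), Nat.card_eq_fintype_card] at h2
    exact_mod_cast h2
  obtain ⟨i₀, hi₀⟩ : ∃ i₀, (Finset.univ.filter fun j => χ j = fun _ => 1) = {i₀} := by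
    have h2 := classInner_one_of_transitive (G := G) a
    rw [hπ, classInner_sum_eq_card h isIrrCharacter_one, Nat.cast_eq_one] at h2
    exact Finset.card_eq_one.1 h2
  have hi₁ : ∀ j, (χ j = fun _ => 1) ↔ j = i₀ := fun j => by
    rw [← Finset.mem_singleton (a := i₀), ← hi₀]
    simp
  have hdeg : ∀ j, j ≠ i₀ → χ j 1 = f := fun j hj =>
    hf _ (h.irr j) (fun h' => hj ((hi₁ j).1 h')) (classInner_ne_zero h j)
  have hn : Fintype.card Ω = 1 + (Fintype.card ι - 1) * f := by
    have h2 := congrFun hπ 1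
    rw [Representation.char_one, Module.finrank_fintype_fun_eq_card, Finset.sum_apply,
      ← Finset.add_sum_erase _ _ (Finset.mem_univ i₀), (hi₁ i₀).2 rfl,
      Finset.sum_congr rfl fun j hj => hdeg j (Finset.ne_of_mem_erase hj), Finset.sum_const,
      Finset.card_erase_of_mem (Finset.mem_univ _), Finset.card_univ, nsmul_eq_mul] at h2
    beta_reduce at h2
    exact_mod_cast h2
  let q₀ : orbitRel.Quotient (stabilizer G a) Ω := Quotient.mk'' a
  have hq₀ : ∀ b : Ω, (Quotient.mk'' b : orbitRel.Quotient (stabilizer G a) Ω) = q₀ ↔ b = a := by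
    intro b
    refine ⟨fun h => ?_, fun h => by rw [h]⟩
    obtain ⟨g, hg⟩ := Quotient.exact' h
    exact hg.symm.trans g.2
  have hge : ∀ q ∈ Finset.univ.erase q₀, f ≤ Nat.card q.orbit := by
    intro q hq
    induction q using Quotient.inductionOn' with
    | h b =>
    have hb : b ≠ a := fun h' => Finset.ne_of_mem_erase hq ((hq₀ b).2 h')
    rw [orbitRel.Quotient.orbit_mk]
    have : Nonempty (orbit (stabilizer G a) b) := ⟨⟨b, mem_orbit_self b⟩⟩
    refine Nat.le_of_dvd Nat.card_pos (S0715.result f (fun ψ h2 h3 h4 => ⟨1, ?_⟩) a b hb)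
    rw [← character_permRep] at h4
    rw [hf ψ h2 h3 h4, Nat.cast_one, mul_one]
  have hn' : Fintype.card Ω = 1 + ∑ q ∈ Finset.univ.erase q₀, Nat.card q.orbit := by
    rw [card_eq_sum (H := stabilizer G a), ← Finset.add_sum_erase _ _ (Finset.mem_univ q₀)]
    congr 1
    rw [orbitRel.Quotient.orbit_mk, Nat.card_eq_one_iff_exists]
    refine ⟨⟨a, mem_orbit_self a⟩, ?_⟩
    rintro ⟨_, g, rfl⟩
    exact Subtype.ext g.2
  have h3 := Finset.sum_le_sum hge
  have h4 := Finset.sum_le_sum fun i (_ : i ∈ Finset.univ) => he i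
  rw [hr] at h4
  simp only [Finset.sum_const, Finset.card_univ, smul_eq_mul, mul_one] at h4
  have h5 : ∑ q ∈ Finset.univ.erase q₀, f =
      (Fintype.card (orbitRel.Quotient (stabilizer G a) Ω) - 1) * f := by
    rw [Finset.sum_const, Finset.card_erase_of_mem (Finset.mem_univ _), Finset.card_univ,
      smul_eq_mul]
  have h6 : (Fintype.card ι - 1) * f ≤
      (Fintype.card (orbitRel.Quotient (stabilizer G a) Ω) - 1) * f :=
    Nat.mul_le_mul_right _ (by omega)
  constructor
  · rw [← injective_iff h h1]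
    by_contra hcon
    obtain ⟨i, j, hij, hne⟩ := Function.not_injective_iff.1 hcon
    have hf0 : 0 < f := by
      obtain ⟨d, hd, hd'⟩ := degree_pos h i
      rw [hdeg i fun h' => hne (h'.trans ((hi₁ j).1 (hij ▸ (hi₁ i).2 h')).symm),
        Nat.cast_inj] at hd'
      omega
    have h7 : ∑ _i : ι, 1 < ∑ i, e i := by
      refine Finset.sum_lt_sum (fun i _ => he i) ⟨j, Finset.mem_univ _, ?_⟩
      exact Finset.one_lt_card.2 ⟨i, by simp [hij], j, by simp, hne⟩
    rw [hr] at h7
    simp only [Finset.sum_const, Finset.card_univ, smul_eq_mul, mul_one] at h7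
    have h8 : 0 < Fintype.card ι := Fintype.card_pos_iff.2 ⟨i⟩
    have h9 : (Fintype.card ι - 1) * f <
        (Fintype.card (orbitRel.Quotient (stabilizer G a) Ω) - 1) * f :=
      Nat.mul_lt_mul_of_pos_right (by omega) hf0
    omega
  · intro b hb
    have h7 := (Finset.sum_eq_sum_iff_of_le hge).1 (by omega) (Quotient.mk'' b)
      (Finset.mem_erase.2 ⟨fun h' => hb ((hq₀ b).1 h'), Finset.mem_univ _⟩)
    rw [orbitRel.Quotient.orbit_mk] at h7
    exact h7.symm

/-- (a) If all non-principal irreducible constituents of the permutation character of a transitive group have the same degree `f`, the character is multiplicity-free and all non-trivial subdegrees equal `f`. (b) A transitive group of rank at most 5 has multiplicity-free permutation character. -/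
theorem result {G : Type*} [Group G] [Fintype G] {Ω : Type*} [Fintype Ω] [MulAction G Ω] [MulAction.IsPretransitive G Ω] (a : Ω) : ((f : ℕ) → (∀ χ : G → ℂ, Cfsg.IsIrrCharacter G χ → χ ≠ (fun _ => 1) → Cfsg.classInner (fun g : G => (Nat.card (MulAction.fixedBy Ω g) : ℂ)) χ ≠ 0 → χ 1 = f) → (∀ χ : G → ℂ, Cfsg.IsIrrCharacter G χ → Cfsg.classInner (fun g : G => (Nat.card (MulAction.fixedBy Ω g) : ℂ)) χ = 0 ∨ Cfsg.classInner (fun g : G => (Nat.card (MulAction.fixedBy Ω g) : ℂ)) χ = 1) ∧ ∀ b : Ω, b ≠ a → Nat.card (MulAction.orbit (MulAction.stabilizer G a) b) = f) ∧ (Nat.card (MulAction.orbitRel.Quotient (MulAction.stabilizer G a) Ω) ≤ 5 → ∀ χ : G → ℂ, Cfsg.IsIrrCharacter G χ → Cfsg.classInner (fun g : G => (Nat.card (MulAction.fixedBy Ω g) : ℂ)) χ = 0 ∨ Cfsg.classInner (fun g : G => (Nat.card (MulAction.fixedBy Ω g) : ℂ)) χ = 1) := by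
  classical
  rw [← character_permRep]
  refine ⟨partA a, fun h5 => ?_⟩
  obtain ⟨ι, _, F, χ, h, h1⟩ := exists_isDecomp (ρ := permRep ℂ G Ω) 1 Comm.one (one_mul 1)
  by_contra hcon
  have hcon' := hcon
  rw [← injective_iff h h1] at hcon'
  obtain ⟨i, j, hij, hne⟩ := Function.not_injective_iff.1 hcon'
  have hπ := character_eq_sum h h1
  let e : ι → ℕ := fun i => (Finset.univ.filter fun j => χ j = χ i).card
  have he : ∀ i, 1 ≤ e i := fun i => Finset.card_pos.2 ⟨i, by simp⟩
  have hr : ∑ i, e i = Nat.card (orbitRel.Quotient (stabilizer G a) Ω) := by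
    have h2 := classInner_self (G := G) a
    rw [hπ, classInner_sum_right] at h2
    simp only [classInner_sum_eq_card h (h.irr _)] at h2
    exact_mod_cast h2
  obtain ⟨i₀, hi₀⟩ : ∃ i₀, (Finset.univ.filter fun j => χ j = fun _ => 1) = {i₀} := by
    have h2 := classInner_one_of_transitive (G := G) a
    rw [hπ, classInner_sum_eq_card h isIrrCharacter_one, Nat.cast_eq_one] at h2
    exact Finset.card_eq_one.1 h2
  have hi₁ : ∀ j, (χ j = fun _ => 1) ↔ j = i₀ := fun j => by
    rw [← Finset.mem_singleton (a := i₀), ← hi₀]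
    simp
  have hi : i ≠ i₀ := fun h' => hne (h'.trans ((hi₁ j).1 (hij ▸ (hi₁ i).2 h')).symm)
  have hj : j ≠ i₀ := fun h' => hi ((hi₁ i).1 (hij.trans ((hi₁ j).2 h')))
  have hei : 2 ≤ e i := Finset.one_lt_card.2 ⟨i, by simp, j, by simp [hij], hne⟩
  have hej : 2 ≤ e j := Finset.one_lt_card.2 ⟨i, by simp [hij], j, by simp, hne⟩
  have hall : ∀ l, l ≠ i₀ → χ l = χ i := by
    intro l hl
    by_contra hl'
    have hli : l ≠ i := fun h' => hl' (by rw [h'])
    have hlj : l ≠ j := fun h' => hl' (by rw [h', hij])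
    have h3 : ∑ x ∈ {i₀, i, j, l}, e x ≤ ∑ x, e x :=
      Finset.sum_le_sum_of_subset (Finset.subset_univ _)
    rw [Finset.sum_insert (by simp [hi.symm, hj.symm, hl.symm]),
      Finset.sum_insert (by simp [hne, hli.symm]), Finset.sum_insert (by simp [hlj.symm]),
      Finset.sum_singleton] at h3
    have := he i₀
    have := he l
    omega
  obtain ⟨d, -, hd⟩ := degree_pos h i
  refine hcon (partA a d fun ψ h2 h3 h4 => ?_).1
  rw [hπ, classInner_sum_eq_card h h2, Nat.cast_ne_zero, Finset.card_ne_zero] at h4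
  obtain ⟨l, hl⟩ := h4
  have h6 := (Finset.mem_filter.1 hl).2
  rw [← h6, hall l fun h' => h3 (h6.symm.trans ((hi₁ l).2 h')), hd]

end Cfsg.Agent.S0716
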