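import Cfsg.Statements.S0717
import Cfsg.Agent.H1.PermChar

set_option autoImplicit false
open Cfsg

namespace Cfsg.Agent.S0717

open H1.CharDecomp H1.PermChar
open scoped Matrix

/-- All suborbits of a transitive group are self-paired (every pair of points is interchanged by some group element) if and only if the permutation character is multiplicity-free and each of its irreducible constituents is real-valued. -/
theorem result {G : Type*} [Group G] [Fintype G] {Ω : Type*} [Fintype Ω] [MulAction G Ω] [MulAction.IsPretransitive G Ω] : (∀ a b : Ω, ∃ g : G, g • a = b ∧ g • b = a) ↔ ∀ χ : G → ℂ, Cfsg.IsIrrCharacter G χ → Cfsg.classInner (fun g : G => (Nat.card (MulAction.fixedBy Ω g) : ℂ)) χ ≠ 0 → Cfsg.classInner (fun g : G => (Nat.card (MulAction.fixedBy Ω g) : ℂ)) χ = 1 ∧ ∀ g : G, (starRingEnd ℂ) (χ g) = χ g := by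
  classical
  obtain ⟨ι, _, F, χ, h, h1⟩ := exists_isDecomp (ρ := permRep ℂ G Ω) 1 Comm.one (one_mul 1)
  rw [← character_permRep]
  constructor
  · intro hs ψ hψ h0
    have hsym : ∀ T, Comm (permRep ℂ G Ω) T → (LinearMap.toMatrix' T)ᵀ = LinearMap.toMatrix' T := by
      intro T hT
      ext x y
      obtain ⟨g, h2, h3⟩ := hs x y
      rw [Matrix.transpose_apply, ← toMatrix'_smul hT g x y, h2, h3]
    have hχ : Function.Injective χ := by
      refine injective_of_commute h fun S T hS hT => ?_
      apply LinearMap.toMatrix'.injective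
      rw [← hsym _ (hS.mul hT), LinearMap.toMatrix'_mul, LinearMap.toMatrix'_mul,
        Matrix.transpose_mul, hsym S hS, hsym T hT]
    refine ⟨((injective_iff h h1).1 hχ ψ hψ).resolve_left h0, fun g => ?_⟩
    rw [character_eq_sum h h1, classInner_sum_eq_card h hψ, Nat.cast_ne_zero,
      Finset.card_ne_zero] at h0
    obtain ⟨i, hi⟩ := h0
    rw [← (Finset.mem_filter.1 hi).2, conj_apply h, h.trace, h.trace,
      ← Matrix.toLin'_toMatrix' (F i), ← trace_transpose_mul, hsym _ (h.comm i)]
  · intro hc a b
    have hχ : Function.Injective χ := (injective_iff h h1).2 fun ψ hψ => by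
      by_cases h0 : classInner (permRep ℂ G Ω).character ψ = 0
      · exact Or.inl h0
      · exact Or.inr (hc ψ hψ h0).1
    let M : Matrix Ω Ω ℂ := fun x y => if ∃ g : G, g • a = x ∧ g • b = y then 1 else 0
    have hM : ∀ (g : G) x y, M (g • x) (g • y) = M x y := by
      intro g x y
      refine if_congr ⟨?_, ?_⟩ rfl rfl
      · rintro ⟨k, h2, h3⟩
        exact ⟨g⁻¹ * k, by rw [mul_smul, h2, inv_smul_smul], by rw [mul_smul, h3, inv_smul_smul]⟩
      · rintro ⟨k, h2, h3⟩
        exact ⟨g * k, by rw [mul_smul, h2], by rw [mul_smul, h3]⟩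
    have hA := comm_toLin' hM
    have hB : Comm (permRep ℂ G Ω) (Matrix.toLin' Mᵀ) := comm_toLin' fun g x y => hM g y x
    have h2 := eq_zero_of_trace h h1 hχ (hB.sub hA) fun g => by
      obtain ⟨c, hc'⟩ := exists_eq_sum_smul h h1 hχ hA
      rw [sub_mul, map_sub, trace_transpose_mul, hc', sub_eq_zero]
      simp only [Finset.sum_mul, smul_mul_assoc, map_sum, map_smul, ← h.trace, ← conj_apply h]
      refine Finset.sum_congr rfl fun i _ => ?_
      rw [(hc _ (h.irr i) (classInner_ne_zero h i)).2]
    rw [sub_eq_zero, Matrix.toLin'.injective.eq_iff] at h2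
    have h3 : M b a = M a b := congrFun (congrFun h2 a) b
    by_contra hcon
    simp only [M] at h3
    rw [if_neg hcon, if_pos ⟨1, one_smul _ _, one_smul _ _⟩] at h3
    exact zero_ne_one h3

end Cfsg.Agent.S0717
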