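import Cfsg.Statements.S0718
import Cfsg.Agent.H1.PermChar

set_option autoImplicit false
open Cfsg

namespace Cfsg.Agent.S0718

open H1.CharDecomp H1.PermChar

theorem comm_iff {G : Type*} [Group G] {V : Type*} [AddCommGroup V] [Module ℂ V]
    (ρ : Representation ℂ G V) (T : V →ₗ[ℂ] V) : T ∈ (ρ.linHom ρ).invariants ↔ Comm ρ T := by
  rw [Representation.mem_invariants]
  refine forall_congr' fun g => ?_
  rw [Representation.linHom_apply]
  change ρ g * (T * ρ g⁻¹) = T ↔ _
  constructor
  · intro h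
    conv_rhs => rw [← h]
    rw [mul_assoc, mul_assoc, ← map_mul, inv_mul_cancel, map_one, mul_one]
  · intro h
    rw [← mul_assoc, h, mul_assoc, ← map_mul, mul_inv_cancel, map_one, mul_one]

/-- Multiplicity-freeness of the permutation character is equivalent to commutativity of the centraliser ring, i.e. of the algebra of `G`-equivariant endomorphisms of the complex permutation module. -/
theorem result {G : Type*} [Group G] [Fintype G] {Ω : Type*} [Fintype Ω] [MulAction G Ω] : (∀ χ : G → ℂ, Cfsg.IsIrrCharacter G χ → Cfsg.classInner (fun g : G => (Nat.card (MulAction.fixedBy Ω g) : ℂ)) χ = 0 ∨ Cfsg.classInner (fun g : G => (Nat.card (MulAction.fixedBy Ω g) : ℂ)) χ = 1) ↔ ∀ S T : (Ω → ℂ) →ₗ[ℂ] (Ω → ℂ), S ∈ ((Cfsg.permRep ℂ G Ω).linHom (Cfsg.permRep ℂ G Ω)).invariants → T ∈ ((Cfsg.permRep ℂ G Ω).linHom (Cfsg.permRep ℂ G Ω)).invariants → S ∘ₗ T = T ∘ₗ S := by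
  obtain ⟨ι, _, F, χ, h, h1⟩ := exists_isDecomp (ρ := permRep ℂ G Ω) 1 Comm.one (one_mul 1)
  rw [← character_permRep, ← injective_iff h h1]
  simp only [comm_iff]
  exact ⟨fun hχ S T hS hT => commute_of_injective h h1 hχ hS hT, injective_of_commute h⟩

end Cfsg.Agent.S0718
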