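import Cfsg.Statements.S0719
import Cfsg.Agent.H1.PermChar
import Cfsg.Agent.H1.TwoPRank

set_option autoImplicit false
open Cfsg

namespace Cfsg.Agent.S0719

open H1.CharDecomp H1.PermChar H1.TwoPRank MulAction

theorem arith {m k l r s : ℤ} (hm : 2 ≤ m) (hk : 2 ≤ k) (hl : 2 ≤ l) (hkl : 1 + k + l = 2 * m)
    (h1 : k + (m - 1) * r + m * s = 0) (h2 : k ^ 2 + (m - 1) * r ^ 2 + m * s ^ 2 = 2 * m * k) :
    m = 2 * s ^ 2 + 2 * s + 1 ∧ k = 2 * s ^ 2 + s := by
  obtain ⟨u, rfl⟩ : ∃ u, r = u - s := ⟨r + s, by ring⟩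
  have hk' : k = u - s - m * u := by linarith
  have h3 : m * (2 * s * (s + 1) + (m - 1) * (u * (u + 2))) = 0 := by
    rw [hk'] at h2
    linear_combination h2
  have h4 : 2 * s * (s + 1) + (m - 1) * (u * (u + 2)) = 0 :=
    (mul_eq_zero.1 h3).resolve_left (by omega)
  have h5 : 0 ≤ s * (s + 1) := by nlinarith [sq_nonneg (2 * s + 1), Int.lt_or_le s 0]
  have h6 : u * (u + 2) ≤ 0 := by nlinarith
  have h7 : u = 0 ∨ u = -1 ∨ u = -2 := by
    have : u ≤ 0 := by nlinarith
    have : -2 ≤ u := by nlinarith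
    omega
  rcases h7 with rfl | rfl | rfl
  · have h8 : s * (s + 1) = 0 := by linarith
    rcases mul_eq_zero.1 h8 with h | h <;> omega
  · constructor <;> linarith
  · have h8 : s * (s + 1) = 0 := by linarith
    rcases mul_eq_zero.1 h8 with h | h <;> omega

variable {G Ω : Type*} [Group G] [MulAction G Ω] [Fintype Ω]

theorem colsum_eq [IsPretransitive G Ω] (a b x : Ω) :
    ∑ y, adj G a b y x = ∑ y, adj G a b x y := by
  have h1 : ∑ _z : Ω, ∑ y, adj G a b y x = ∑ _z : Ω, ∑ y, adj G a b x y := by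
    rw [Finset.sum_congr rfl fun z _ => rowsum_eq (A := fun u v => adj G a b v u)
      (fun g u v => adj_smul a b g v u) x z,
      Finset.sum_congr rfl fun z _ => rowsum_eq (adj_smul a b) x z]
    exact Finset.sum_comm
  simp only [Finset.sum_const, Finset.card_univ, nsmul_eq_mul] at h1
  have : Nonempty Ω := ⟨a⟩
  exact mul_left_cancel₀ (by exact_mod_cast Fintype.card_ne_zero) h1

theorem sum_add_sum {a b c : Ω} (hab : a ≠ b) (hac : a ≠ c) (hbc : ¬ Orb G a b a c)
    (hoo : ∀ x y, x ≠ y → Orb G a b x y ∨ Orb G a c x y) :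
    1 + ∑ y, adj G a b a y + ∑ y, adj G a c a y = Fintype.card Ω := by
  classical
  have h1 : ∀ y, (if y = a then 1 else 0) + adj G a b a y + adj G a c a y = 1 := by
    intro y
    split_ifs with h
    · rw [h, adj_neg fun h' => h'.ne hab rfl, adj_neg fun h' => h'.ne hac rfl]
      rfl
    · rcases hoo a y (Ne.symm h) with h' | h'
      · rw [adj_pos h', adj_neg fun h'' => hbc (h'.trans h''.symm)]
        rfl
      · rw [adj_pos h', adj_neg fun h'' => hbc (h''.trans h'.symm)]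
        rfl
  have h2 := Finset.sum_congr rfl fun y (_ : y ∈ Finset.univ) => h1 y
  simpa [Finset.sum_add_distrib] using h2

theorem symm_of_even [IsPretransitive G Ω] {m : ℕ} (hm : Fintype.card Ω = 2 * m) {a b c : Ω}
    (hab : a ≠ b) (hac : a ≠ c) (hbc : ¬ Orb G a b a c)
    (hoo : ∀ x y, x ≠ y → Orb G a b x y ∨ Orb G a c x y) : Orb G a b b a := by
  by_contra hcon
  have h1 := (hoo b a hab.symm).resolve_left hcon
  have h3 : ∀ x y, adj G a c x y = adj G a b y x := by
    intro x y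
    by_cases h : Orb G a b y x
    · rw [adj_pos h, adj_pos (h1.trans h.swap)]
    · rw [adj_neg h, adj_neg fun h' => h (h1.symm.trans h').swap]
  have h4 := sum_add_sum hab hac hbc hoo
  simp only [h3, colsum_eq, hm] at h4
  omega

theorem params [Fintype G] [IsPreprimitive G Ω] {m : ℕ} (hm : Fintype.card Ω = 2 * m)
    {ι : Type} [Fintype ι] {F : ι → Module.End ℂ (Ω → ℂ)} {χ : ι → G → ℂ}
    (h : IsDecomp (permRep ℂ G Ω) F χ) (h1 : ∑ i, F i = 1) (hχ : Function.Injective χ)
    {i₀ i₁ i₂ : ι} (h01 : i₀ ≠ i₁) (h02 : i₀ ≠ i₂) (h12 : i₁ ≠ i₂)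
    (hι : ∀ i, i = i₀ ∨ i = i₁ ∨ i = i₂) (e0 : χ i₀ = fun _ => 1) (e1 : χ i₁ 1 = (m : ℂ) - 1)
    (e2 : χ i₂ 1 = m) {a b c : Ω} (hab : a ≠ b) (hac : a ≠ c) (hbc : ¬ Orb G a b a c)
    (hoo : ∀ x y, x ≠ y → Orb G a b x y ∨ Orb G a c x y) :
    ∃ s : ℤ, (m : ℤ) = 2 * s ^ 2 + 2 * s + 1 ∧ ∑ y, adj G a b a y = 2 * s ^ 2 + s := by
  classical
  have hsym := symm_of_even hm hab hac hbc hoo
  have hsym' := symm_of_even hm hac hab (fun h' => hbc h'.symm) fun x y hxy => (hoo x y hxy).symm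
  have hk1 := rowsum_ne_one hab hac hbc hsym
  have hl1 := rowsum_ne_one hac hab (fun h' => hbc h'.symm) hsym'
  have hkl := sum_add_sum hab hac hbc hoo
  have hpos : ∀ d : Ω, 1 ≤ ∑ y, adj G a d a y := fun d =>
    (adj_pos (Orb.refl a d)).symm.trans_le
      (Finset.single_le_sum (f := fun y => adj G a d a y) (fun _ _ => adj_nonneg _ _ _ _)
        (Finset.mem_univ d))
  have hk0 := hpos b
  have hl0 := hpos c
  set k := ∑ y, adj G a b a y with hk
  set l := ∑ y, adj G a c a y with hl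
  have huniv : (Finset.univ : Finset ι) = {i₀, i₁, i₂} := by
    ext i
    simpa using hι i
  have hsum : ∀ {X : Type _} [AddCommMonoid X] (φ : ι → X), ∑ i, φ i = φ i₀ + φ i₁ + φ i₂ := by
    intro X _ φ
    rw [huniv, Finset.sum_insert (by simp [h01, h02]), Finset.sum_pair h12, add_assoc]
  have hsum' : ∀ (φ : ι → ℂ), ∑ i, φ i = φ i₀ + φ i₁ + φ i₂ := by
    intro φ
    rw [huniv, Finset.sum_insert (by simp [h01, h02]), Finset.sum_pair h12, add_assoc]
  let M : Matrix Ω Ω ℂ := Matrix.of fun x y => (adj G a b x y : ℂ)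
  let J : Matrix Ω Ω ℂ := Matrix.of fun _ _ => 1
  have hA : Comm (permRep ℂ G Ω) (Matrix.toLin' M) := comm_toLin' fun g x y => by
    simp only [M, Matrix.of_apply, adj_smul]
  have hJ : Comm (permRep ℂ G Ω) (Matrix.toLin' J) := comm_toLin' fun g x y => rfl
  have hF1 : ∀ i, i ≠ i₀ → F i (fun _ => 1) = 0 := fun i hi =>
    h.fixed i _ (fun h' => hi (hχ (h'.trans e0.symm))) fun g => by
      rw [(h.comm i).apply]
      rfl
  have hF0 : F i₀ (fun _ => 1) = fun _ => 1 := by
    have h2 := LinearMap.congr_fun h1 fun _ => 1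
    rw [hsum, LinearMap.add_apply, LinearMap.add_apply, hF1 _ h01.symm, hF1 _ h02.symm, add_zero,
      add_zero] at h2
    exact h2
  have hFJ : ∀ i, i ≠ i₀ → F i * Matrix.toLin' J = 0 := by
    intro i hi
    refine LinearMap.ext fun v => ?_
    have h2 : Matrix.toLin' J v = (∑ y, v y) • fun _ => (1 : ℂ) := by
      funext x
      simp [J, Matrix.mulVec, dotProduct]
    rw [Module.End.mul_apply, h2, map_smul, hF1 i hi, smul_zero, LinearMap.zero_apply]
  obtain ⟨e, he⟩ := exists_eq_sum_smul h h1 hχ hA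
  have he0 : e i₀ = k := by
    have h2 := congrFun (LinearMap.congr_fun he fun _ => 1) a
    rw [hsum] at h2
    simp only [LinearMap.add_apply, LinearMap.smul_apply, hF0, hF1 _ h01.symm, hF1 _ h02.symm,
      smul_zero, add_zero, Pi.smul_apply, smul_eq_mul, mul_one] at h2
    rw [← h2, hk]
    simp [M, Matrix.mulVec, dotProduct]
  have htrF : ∀ i, LinearMap.trace ℂ _ (F i) = χ i 1 := fun i => by
    rw [h.trace, map_one, mul_one]
  have ht1 : (k : ℂ) + (m - 1) * e i₁ + m * e i₂ = 0 := by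
    have h2 := congrArg (LinearMap.trace ℂ _) he
    rw [Matrix.trace_toLin'_eq, Matrix.trace, Finset.sum_eq_zero fun x _ => by
      simp only [M, Matrix.diag_apply, Matrix.of_apply]
      rw [adj_neg fun h' => h'.ne hab rfl, Int.cast_zero]] at h2
    simp only [map_sum, map_smul, htrF, smul_eq_mul] at h2
    rw [hsum', e0, e1, e2, he0] at h2
    linear_combination -h2
  have hAA : Matrix.toLin' (M * M) = ∑ i, (e i ^ 2) • F i := by
    rw [Matrix.toLin'_mul, ← Module.End.mul_eq_comp]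
    conv_lhs => rw [he, Finset.sum_mul]
    refine Finset.sum_congr rfl fun i _ => ?_
    rw [smul_mul_assoc, mul_sum_smul h, smul_smul, sq]
  have hMM : ∀ x y, (M * M) x y = ((∑ z, adj G a b x z * adj G a b z y : ℤ) : ℂ) := by
    intro x y
    simp [M, Matrix.mul_apply]
  have hdiag : ∀ x, ∑ z, adj G a b x z * adj G a b z x = k := by
    intro x
    rw [hk, rowsum_eq (adj_smul a b) a x]
    refine Finset.sum_congr rfl fun z _ => ?_
    by_cases h' : Orb G a b x z
    · rw [adj_pos h', adj_pos (hsym.trans h'.swap), mul_one]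
    · rw [adj_neg h', zero_mul]
  have ht2 : (k : ℂ) ^ 2 + (m - 1) * e i₁ ^ 2 + m * e i₂ ^ 2 = 2 * m * k := by
    have h2 := congrArg (LinearMap.trace ℂ _) hAA
    rw [Matrix.trace_toLin'_eq, Matrix.trace] at h2
    simp only [map_sum, map_smul, htrF, smul_eq_mul, Matrix.diag_apply, hMM, hdiag,
      Finset.sum_const, Finset.card_univ, hm, nsmul_eq_mul] at h2
    rw [hsum', e0, e1, e2, he0] at h2
    push_cast at h2
    linear_combination -h2
  set β := ∑ z, adj G a b a z * adj G a b z b with hβ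
  set γ := ∑ z, adj G a b a z * adj G a b z c with hγ
  have hinv : ∀ (g : G) x y, ∑ z, adj G a b (g • x) z * adj G a b z (g • y) =
      ∑ z, adj G a b x z * adj G a b z y := fun g x y =>
    (Fintype.sum_equiv (MulAction.toPerm g) _ _ fun z => by
      simp only [MulAction.toPerm_apply, adj_smul]).symm
  have hquad : M * M = ((k - γ : ℤ) : ℂ) • (1 : Matrix Ω Ω ℂ) + ((β - γ : ℤ) : ℂ) • M +
      (γ : ℂ) • J := by
    ext x y
    rw [hMM]
    simp only [M, J, Matrix.add_apply, Matrix.smul_apply, Matrix.of_apply, Matrix.one_apply,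
      smul_eq_mul]
    by_cases hxy : x = y
    · subst hxy
      rw [hdiag, if_pos rfl, adj_neg fun h' => h'.ne hab rfl]
      push_cast
      ring
    · rw [if_neg hxy]
      rcases hoo x y hxy with h' | h'
      · rw [adj_pos h']
        obtain ⟨g, rfl, rfl⟩ := h'
        rw [hinv, ← hβ]
        push_cast
        ring
      · rw [adj_neg fun h'' => hbc (h''.trans h'.symm)]
        obtain ⟨g, rfl, rfl⟩ := h'
        rw [hinv, ← hγ]
        push_cast
        ring
  have hq : ∀ i, i ≠ i₀ → e i ^ 2 = ((k - γ : ℤ) : ℂ) + ((β - γ : ℤ) : ℂ) * e i := by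
    intro i hi
    have h2 := congrArg (fun T => F i * Matrix.toLin' T) hquad
    simp only [hAA, map_add, map_smul, Matrix.toLin'_one, mul_add, mul_smul_comm, hFJ i hi,
      mul_sum_smul h, smul_zero, add_zero] at h2
    rw [he, mul_sum_smul h, ← Module.End.one_eq_id, mul_one, smul_smul, ← add_smul] at h2
    exact smul_left_injective ℂ (h.ne_zero i) h2
  have hne : e i₁ ≠ e i₂ := by
    intro h'
    obtain ⟨d, hd⟩ := exists_eq_sum_smul h h1 hχ hJ
    have hd' : ∀ i, i ≠ i₀ → d i = 0 := by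
      intro i hi
      have h2 := hFJ i hi
      rw [hd, mul_sum_smul h] at h2
      exact (smul_eq_zero.1 h2).resolve_right (h.ne_zero i)
    rw [hsum, hd' _ h01.symm, hd' _ h02.symm, zero_smul, zero_smul, add_zero, add_zero] at hd
    have h2 : d i₀ • Matrix.toLin' M = (d i₀ * e i₁) • (1 : Module.End ℂ (Ω → ℂ)) +
        (e i₀ - e i₁) • Matrix.toLin' J := by
      rw [he, hd, ← h1, hsum, hsum, ← h']
      module
    have h3 := congrArg LinearMap.toMatrix' h2
    simp only [map_add, map_smul, LinearMap.toMatrix'_toLin', LinearMap.toMatrix'_one] at h3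
    have h4 := congrFun (congrFun h3 a) b
    have h5 := congrFun (congrFun h3 a) c
    simp only [M, J, Matrix.add_apply, Matrix.smul_apply, Matrix.of_apply, Matrix.one_apply,
      smul_eq_mul, if_neg hab, if_neg hac, adj_pos (Orb.refl a b), adj_neg hbc] at h4 h5
    have h6 : d i₀ = 0 := by
      push_cast at h4 h5
      linear_combination h4 - h5
    rw [h6, zero_smul, LinearEquiv.map_eq_zero_iff] at hd
    exact one_ne_zero (congrFun (congrFun hd a) a)
  have hu : e i₁ + e i₂ = ((β - γ : ℤ) : ℂ) := by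
    apply mul_left_cancel₀ (sub_ne_zero.2 hne)
    linear_combination hq _ h01.symm - hq _ h02.symm
  have hr : e i₁ = ((k + m * (β - γ) : ℤ) : ℂ) := by
    push_cast at hu ⊢
    linear_combination (m : ℂ) * hu - ht1
  have hs : e i₂ = (((β - γ) - (k + m * (β - γ)) : ℤ) : ℂ) := by
    push_cast at hu hr ⊢
    linear_combination hu - hr
  rw [hr, hs] at ht1 ht2
  rw [hm] at hkl
  push_cast at hkl
  exact ⟨_, arith (l := l) (by omega) (by omega) (by omega) hkl (by exact_mod_cast ht1)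
    (by exact_mod_cast ht2)⟩

/-- Groups of Wielandt type: if a primitive group of degree `2m` has rank 3 and permutation character `1 + χ₁ + χ₂` with irreducible `χ₁, χ₂` of degrees `m - 1` and `m`, then `m = 2a² + 2a + 1` for some positive integer `a` and the two non-trivial subdegrees are `a(2a+1)` and `(a+1)(2a+1)`. -/
theorem result {G : Type*} [Group G] [Fintype G] {Ω : Type*} [Fintype Ω] [MulAction G Ω] (hprim : MulAction.IsPreprimitive G Ω) {m : ℕ} (hm : Fintype.card Ω = 2 * m) (a₀ : Ω) (hrank : Nat.card (MulAction.orbitRel.Quotient (MulAction.stabilizer G a₀) Ω) = 3) (χ₁ χ₂ : G → ℂ) (h₁ : Cfsg.IsIrrCharacter G χ₁) (h₂ : Cfsg.IsIrrCharacter G χ₂) (hπ : (fun g : G => (Nat.card (MulAction.fixedBy Ω g) : ℂ)) = fun g => 1 + χ₁ g + χ₂ g) (hd₁ : χ₁ 1 = (m : ℂ) - 1) (hd₂ : χ₂ 1 = m) : ∃ a : ℕ, 0 < a ∧ m = 2 * a ^ 2 + 2 * a + 1 ∧ ∀ b : Ω, b ≠ a₀ → Nat.card (MulAction.orbit (MulAction.stabilizer G a₀) b) = a * (2 * a + 1) ∨ Nat.card (MulAction.orbit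 (MulAction.stabilizer G a₀) b) = (a + 1) * (2 * a + 1) := by
  classical
  obtain ⟨ι, _, F, χ, h, h1⟩ := exists_isDecomp (ρ := permRep ℂ G Ω) 1 Comm.one (one_mul 1)
  rw [← character_permRep] at hπ
  have hin : ∀ ψ, IsIrrCharacter G ψ → classInner (permRep ℂ G Ω).character ψ =
      (if (fun _ => 1) = ψ then 1 else 0) + (if χ₁ = ψ then 1 else 0) +
      (if χ₂ = ψ then 1 else 0) := by
    intro ψ hψ
    rw [← classInner_irr isIrrCharacter_one hψ, ← classInner_irr h₁ hψ, ← classInner_irr h₂ hψ, hπ]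
    simp only [classInner, add_mul, Finset.sum_add_distrib, mul_add]
  have h12 : χ₁ ≠ χ₂ := by
    intro h'
    rw [h', hd₂] at hd₁
    exact one_ne_zero (by linear_combination hd₁ : (1 : ℂ) = 0)
  have h0 : χ₁ ≠ (fun _ => 1) ∧ χ₂ ≠ fun _ => 1 := by
    have h2 := hin _ isIrrCharacter_one
    rw [classInner_one_of_transitive a₀, if_pos rfl] at h2
    constructor
    · intro h'
      rw [if_pos h', if_neg fun h'' => h12 (h'.trans h''.symm)] at h2
      norm_num at h2
    · intro h'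
      rw [if_pos h', if_neg fun h'' => h12 (h''.trans h'.symm)] at h2
      norm_num at h2
  have hχ : Function.Injective χ := by
    rw [injective_iff h h1]
    intro ψ hψ
    rw [hin ψ hψ]
    by_cases c0 : (fun _ => 1) = ψ
    · subst c0
      simp [h0.1, h0.2]
    by_cases c1 : χ₁ = ψ
    · subst c1
      simp [c0, h12.symm]
    by_cases c2 : χ₂ = ψ
    · subst c2
      simp [c0, h12]
    · simp [c0, c1, c2]
  have hex : ∀ ψ, IsIrrCharacter G ψ → classInner (permRep ℂ G Ω).character ψ ≠ 0 →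
      ∃ i, χ i = ψ := by
    intro ψ hψ h4
    rw [character_eq_sum h h1, classInner_sum_eq_card h hψ, Nat.cast_ne_zero,
      Finset.card_ne_zero] at h4
    obtain ⟨l, hl⟩ := h4
    exact ⟨l, (Finset.mem_filter.1 hl).2⟩
  obtain ⟨i₀, e0⟩ := hex _ isIrrCharacter_one (by simp [hin _ isIrrCharacter_one, h0.1, h0.2])
  obtain ⟨i₁, e1⟩ := hex _ h₁ (by simp [hin _ h₁, h0.1.symm, h12.symm])
  obtain ⟨i₂, e2⟩ := hex _ h₂ (by simp [hin _ h₂, h0.2.symm, h12])
  have h01 : i₀ ≠ i₁ := fun h' => h0.1 (by rw [← e1, ← h', e0])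
  have h02 : i₀ ≠ i₂ := fun h' => h0.2 (by rw [← e2, ← h', e0])
  have h12' : i₁ ≠ i₂ := fun h' => h12 (by rw [← e1, h', e2])
  have hι : ∀ i, i = i₀ ∨ i = i₁ ∨ i = i₂ := by
    intro i
    by_contra hcon
    push Not at hcon
    apply classInner_ne_zero h i
    rw [hin _ (h.irr i), if_neg fun h' => hcon.1 (hχ (h'.symm.trans e0.symm)),
      if_neg fun h' => hcon.2.1 (hχ (h'.symm.trans e1.symm)),
      if_neg fun h' => hcon.2.2 (hχ (h'.symm.trans e2.symm))]
    simp
  have hrel : ∀ x y : Ω, (Quotient.mk'' x : orbitRel.Quotient (stabilizer G a₀) Ω) =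
      Quotient.mk'' y ↔ Orb G a₀ y a₀ x := by
    intro x y
    rw [Quotient.eq'']
    constructor
    · rintro ⟨g, h⟩
      exact ⟨g, g.2, h⟩
    · rintro ⟨g, h1, h2⟩
      exact ⟨⟨g, h1⟩, h2⟩
  obtain ⟨b, c, hab, hac, hbc, hoo⟩ : ∃ b c : Ω, a₀ ≠ b ∧ a₀ ≠ c ∧ ¬ Orb G a₀ b a₀ c ∧
      ∀ y, a₀ ≠ y → Orb G a₀ b a₀ y ∨ Orb G a₀ c a₀ y := by
    have : Fintype (orbitRel.Quotient (stabilizer G a₀) Ω) := Fintype.ofFinite _
    have h2 : (Finset.univ.erase (Quotient.mk'' a₀ : orbitRel.Quotient (stabilizer G a₀) Ω)).card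
        = 2 := by
      rw [Finset.card_erase_of_mem (Finset.mem_univ _), Finset.card_univ,
        ← Nat.card_eq_fintype_card, hrank]
    obtain ⟨p, q, hpq, h3⟩ := Finset.card_eq_two.1 h2
    induction p using Quotient.inductionOn' with
    | h b =>
    induction q using Quotient.inductionOn' with
    | h c =>
    refine ⟨b, c, fun h' => ?_, fun h' => ?_, fun h' => hpq ((hrel _ _).2 h').symm, fun y hy => ?_⟩
    · exact Finset.ne_of_mem_erase (h3.ge (Finset.mem_insert_self _ _)) (by rw [h'])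
    · exact Finset.ne_of_mem_erase (h3.ge (Finset.mem_insert_of_mem (Finset.mem_singleton_self _)))
        (by rw [h'])
    · have h4 := h3.le (Finset.mem_erase.2 ⟨fun h' : Quotient.mk'' y = _ =>
        ((hrel _ _).1 h'.symm).ne hy rfl, Finset.mem_univ _⟩)
      rw [Finset.mem_insert, Finset.mem_singleton] at h4
      exact h4.imp (hrel _ _).1 (hrel _ _).1
  have hoo' : ∀ x y, x ≠ y → Orb G a₀ b x y ∨ Orb G a₀ c x y := by
    intro x y hxy
    obtain ⟨g, rfl⟩ := exists_smul_eq G a₀ x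
    obtain ⟨z, rfl⟩ := (MulAction.toPerm g).surjective y
    simp only [MulAction.toPerm_apply, orb_smul] at hxy ⊢
    exact hoo z fun h' => hxy (by rw [h'])
  have key : ∀ x : Ω, x ≠ a₀ → ∃ s : ℤ, (m : ℤ) = 2 * s ^ 2 + 2 * s + 1 ∧
      (Nat.card (orbit (stabilizer G a₀) x) : ℤ) = 2 * s ^ 2 + s := by
    intro x hx
    rw [← sum_adj_eq_card]
    rcases hoo x hx.symm with h' | h'
    · exact params hm h h1 hχ h01 h02 h12' hι e0 (e1 ▸ hd₁) (e2 ▸ hd₂) hx.symm hac
        (fun h'' => hbc (h'.trans h'')) fun u v huv => (hoo' u v huv).imp_left h'.symm.trans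
    · exact params hm h h1 hχ h01 h02 h12' hι e0 (e1 ▸ hd₁) (e2 ▸ hd₂) hx.symm hab
        (fun h'' => hbc (h'.trans h'').symm) fun u v huv =>
          (hoo' u v huv).symm.imp_left h'.symm.trans
  obtain ⟨s, hs, -⟩ := key b hab.symm
  obtain ⟨a, ha⟩ : ∃ a : ℕ, (m : ℤ) = 2 * a ^ 2 + 2 * a + 1 := by
    rcases le_or_gt 0 s with h | h
    · obtain ⟨a, rfl⟩ := Int.eq_ofNat_of_zero_le h
      exact ⟨a, hs⟩
    · obtain ⟨a, ha⟩ := Int.eq_ofNat_of_zero_le (show 0 ≤ -s - 1 by omega)
      refine ⟨a, ?_⟩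
      rw [hs, ← ha]
      ring
  have ha' : m = 2 * a ^ 2 + 2 * a + 1 := by exact_mod_cast ha
  refine ⟨a, ?_, ha', fun x hx => ?_⟩
  · rcases a.eq_zero_or_pos with rfl | h'
    · obtain ⟨d, hd, hd'⟩ := degree_pos h i₁
      rw [e1, hd₁, ha'] at hd'
      norm_num at hd'
      exact absurd (Nat.cast_eq_zero.1 hd'.symm) hd.ne'
    · exact h'
  · obtain ⟨t, ht, ht'⟩ := key x hx
    have h1 : (t - a) * (t + a + 1) = 0 := by linarith
    rcases mul_eq_zero.1 h1 with h | h
    · left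
      rw [show t = a by linarith] at ht'
      zify
      linarith
    · right
      rw [show t = -a - 1 by linarith] at ht'
      zify
      linarith

end Cfsg.Agent.S0719
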