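import Cfsg.Statements.S0720
import Cfsg.Agent.H1.TwoPRank
import Cfsg.Agent.H1.Coord

set_option autoImplicit false
open Cfsg

namespace Cfsg.Agent.S0720

open MulAction H1.Coord H1.TwoPRank

theorem two_transitive_of_isCycle {α : Type*} [Fintype α] [DecidableEq α]
    {G : Subgroup (Equiv.Perm α)} (hG : IsPreprimitive G α) {g : Equiv.Perm α} (hg : g ∈ G)
    (hc : g.IsCycle) (hlt : g.support.card < Fintype.card α) : IsMultiplyPretransitive G α 2 := by
  have h2 := hc.two_le_card_support
  refine hG.is_two_pretransitive (n := Fintype.card α - g.support.card - 1) ?_ ?_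
    (Equiv.Perm.isPretransitive_of_isCycle_mem hc hg)
  · have := Set.ncard_add_ncard_compl (g.support : Set α)
    rw [Set.ncard_coe_finset, Nat.card_eq_fintype_card] at this
    omega
  · rw [Nat.card_eq_fintype_card]
    omega

theorem two_transitive_of_card_four {α : Type*} [Fintype α] [DecidableEq α]
    (hα : Fintype.card α = 4) {G : Subgroup (Equiv.Perm α)} (hG : IsPreprimitive G α) :
    IsMultiplyPretransitive G α 2 := by
  have hne : Nonempty α := Fintype.card_pos_iff.1 (by omega)
  by_cases h3 : 3 ∣ Nat.card G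
  · have : Fact (Nat.Prime 3) := ⟨Nat.prime_three⟩
    obtain ⟨g, hg⟩ := exists_prime_orderOf_dvd_card' 3 h3
    have hg' : orderOf (g : Equiv.Perm α) = 3 := by rw [Subgroup.orderOf_coe, hg]
    have hc : (g : Equiv.Perm α).IsCycle :=
      Equiv.Perm.isCycle_of_prime_order' (hg' ▸ Nat.prime_three) (by omega)
    refine two_transitive_of_isCycle hG g.2 hc ?_
    rw [← hc.orderOf]
    omega
  · exfalso
    have : Fact (Nat.Prime 2) := ⟨Nat.prime_two⟩
    have h24 := card_dvd_factorial (G := G) (α := α)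
    rw [Nat.card_eq_fintype_card (α := α), hα] at h24
    have h8 : Nat.card G ∣ 2 ^ 3 :=
      Nat.Coprime.dvd_of_dvd_mul_right
        ((Nat.Prime.coprime_iff_not_dvd Nat.prime_three).2 h3).symm (show _ ∣ 2 ^ 3 * 3 from h24)
    have hP : IsPGroup 2 G := IsPGroup.of_card_dvd_pow h8
    have h4 := H1.Basic.card_dvd_card_group (G := G) (Ω := α)
    rw [Nat.card_eq_fintype_card (α := α), hα] at h4
    have hnt : Nontrivial G := Finite.one_lt_card_iff_nontrivial.1
      (lt_of_lt_of_le (by norm_num) (Nat.le_of_dvd Nat.card_pos h4))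
    have hZ := hP.center_nontrivial
    have hd : 2 ∣ Nat.card (Subgroup.center G) :=
      (hP.to_subgroup _).card_eq_or_dvd.resolve_left Finite.one_lt_card.ne'
    obtain ⟨z, hz⟩ := exists_prime_orderOf_dvd_card' 2 hd
    have hz' : orderOf (z : G) = 2 := by rw [Subgroup.orderOf_coe, hz]
    have hN : (Subgroup.zpowers (z : G)).Normal := by
      constructor
      intro n hn g
      have hn' : n ∈ Subgroup.center G := (Subgroup.zpowers_le.2 z.2) hn
      rw [Subgroup.mem_center_iff.1 hn' g, mul_inv_cancel_right]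
      exact hn
    have hfix : fixedPoints (Subgroup.zpowers (z : G)) α ≠ Set.univ := by
      intro h
      have h1 : (z : G) = 1 := by
        apply FaithfulSMul.eq_of_smul_eq_smul (α := α)
        intro x
        have : x ∈ fixedPoints (Subgroup.zpowers (z : G)) α := h ▸ Set.mem_univ x
        rw [one_smul]
        exact this ⟨z, Subgroup.mem_zpowers _⟩
      rw [h1, orderOf_one] at hz'
      omega
    have htr := IsQuasiPreprimitive.isPretransitive_of_normal hfix
    have h5 := H1.Basic.card_dvd_card_group (G := Subgroup.zpowers (z : G)) (Ω := α)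
    rw [Nat.card_eq_fintype_card (α := α), hα, Nat.card_zpowers, hz'] at h5
    omega

theorem exists_coord_two {G α : Type*} [Group G] [MulAction G α] [Fintype α] {p : ℕ}
    [hp : Fact p.Prime] (hα : Fintype.card α = 2 * p) {σ : G} (hσ : σ ^ p = 1)
    (hfix : ∀ x : α, σ • x ≠ x) :
    ∃ E : Bool × ZMod p ≃ α, ∀ b j, σ • E (b, j) = E (b, j + 1) := by
  have hpos := hp.out.pos
  obtain ⟨a⟩ : Nonempty α := Fintype.card_pos_iff.1 (by omega)
  obtain ⟨b, hb⟩ : ∃ b : α, ∀ j : ZMod p, zp σ j • a ≠ b := by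
    by_contra hcon
    push Not at hcon
    have := Fintype.card_le_of_surjective (fun j : ZMod p => zp σ j • a) hcon
    rw [ZMod.card] at this
    omega
  let f : Bool × ZMod p → α := fun z => zp σ z.2 • (cond z.1 a b)
  have key : ∀ i j : ZMod p, zp σ i • a ≠ zp σ j • b := by
    intro i j h
    apply hb (-j + i)
    rw [zp_add hσ, mul_smul, h, ← mul_smul, ← zp_add hσ, neg_add_cancel, zp_zero, one_smul]
  have hinj : Function.Injective f := by
    rintro ⟨b₁, i⟩ ⟨b₂, j⟩ h
    cases b₁ <;> cases b₂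
    · exact congrArg _ (zp_smul_injective hσ (hfix b) h)
    · exact absurd h.symm (key _ _)
    · exact absurd h (key _ _)
    · exact congrArg _ (zp_smul_injective hσ (hfix a) h)
  have hbij : Function.Bijective f := (Fintype.bijective_iff_injective_and_card f).2
    ⟨hinj, by simp [hα]⟩
  refine ⟨Equiv.ofBijective f hbij, fun b j => ?_⟩
  simp only [Equiv.ofBijective_apply, f]
  rw [add_comm, zp_add hσ, zp_one, mul_smul]

/-- Wielandt's Theorem on primitive groups of degree `2p`: such a group is doubly transitive, or it has rank 3, `p = 2a² + 2a + 1`, and subdegrees `a(2a+1)` and `(a+1)(2a+1)`. -/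
theorem result {α : Type*} [Fintype α] [DecidableEq α] {p : ℕ} (hp : p.Prime) (hα : Fintype.card α = 2 * p) (G : Subgroup (Equiv.Perm α)) (hG : MulAction.IsPreprimitive G α) (a₀ : α) : MulAction.IsMultiplyPretransitive G α 2 ∨ (Nat.card (MulAction.orbitRel.Quotient (MulAction.stabilizer G a₀) α) = 3 ∧ ∃ a : ℕ, 0 < a ∧ p = 2 * a ^ 2 + 2 * a + 1 ∧ ∀ b : α, b ≠ a₀ → Nat.card (MulAction.orbit (MulAction.stabilizer G a₀) b) = a * (2 * a + 1) ∨ Nat.card (MulAction.orbit (MulAction.stabilizer G a₀) b) = (a + 1) * (2 * a + 1)) := by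
  by_cases htwo : IsMultiplyPretransitive G α 2
  · exact Or.inl htwo
  right
  have h2 : p ≠ 2 := by
    rintro rfl
    exact htwo (two_transitive_of_card_four hα hG)
  have : Fact p.Prime := ⟨hp⟩
  have hne : Nonempty α := ⟨a₀⟩
  have hd := H1.Basic.card_dvd_card_group (G := G) (Ω := α)
  rw [Nat.card_eq_fintype_card (α := α), hα] at hd
  obtain ⟨σ, hσ⟩ := exists_prime_orderOf_dvd_card' p ((dvd_mul_left p 2).trans hd)
  have hfix : ∀ x : α, σ • x ≠ x := by
    intro x hx
    have hσ' : orderOf (σ : Equiv.Perm α) = p := by rw [Subgroup.orderOf_coe, hσ]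
    have hlt : (σ : Equiv.Perm α).support.card < Fintype.card α :=
      Finset.card_lt_univ_of_notMem (x := x) (Equiv.Perm.notMem_support.2 hx)
    exact htwo (two_transitive_of_isCycle hG σ.2
      (Equiv.Perm.isCycle_of_prime_order (hσ' ▸ hp) (by omega)) hlt)
  obtain ⟨E, hE⟩ := exists_coord_two hα (orderOf_dvd_iff_pow_eq_one.1 hσ.dvd) hfix
  obtain ⟨b, c, hab, hac, hbc⟩ : ∃ b c : α, a₀ ≠ b ∧ a₀ ≠ c ∧ ¬ Orb G a₀ b a₀ c := by
    by_contra hcon
    push Not at hcon
    apply htwo
    rw [is_two_pretransitive_iff]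
    intro x y z w hxy hzw
    obtain ⟨g, hg⟩ := exists_smul_eq G x a₀
    obtain ⟨k, hk⟩ := exists_smul_eq G z a₀
    have h1 := hcon (g • y) (k • w) (by rw [← hg]; simpa using hxy) (by rw [← hk]; simpa using hzw)
    have h3 : Orb G x y a₀ (g • y) := ⟨g, hg, rfl⟩
    have h4 : Orb G z w a₀ (k • w) := ⟨k, hk, rfl⟩
    exact (h3.trans h1).trans h4.symm
  have hrel : ∀ x y : α, (Quotient.mk'' x : orbitRel.Quotient (stabilizer G a₀) α) =
      Quotient.mk'' y ↔ Orb G a₀ y a₀ x := by
    intro x y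
    rw [Quotient.eq'']
    constructor
    · rintro ⟨g, h⟩
      exact ⟨g, g.2, h⟩
    · rintro ⟨g, h1, h2⟩
      exact ⟨⟨g, h1⟩, h2⟩
  constructor
  · rw [← Set.ncard_univ, Set.ncard_eq_three]
    refine ⟨Quotient.mk'' a₀, Quotient.mk'' b, Quotient.mk'' c, ?_, ?_, ?_, ?_⟩
    · rw [Ne, hrel]
      exact fun h => h.ne hab rfl
    · rw [Ne, hrel]
      exact fun h => h.ne hac rfl
    · rw [Ne, hrel]
      exact fun h => hbc h.symm
    · symm
      rw [Set.eq_univ_iff_forall]
      intro q
      induction q using Quotient.inductionOn' with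
      | h x =>
      simp only [Set.mem_insert_iff, Set.mem_singleton_iff]
      by_cases hx : a₀ = x
      · exact Or.inl (by rw [hx])
      · exact Or.inr ((orb_or_orb hE h2 hab hac hbc hx).imp (hrel _ _).2 (hrel _ _).2)
  have key : ∀ x : α, x ≠ a₀ → ∃ s : ℤ, (p : ℤ) = 2 * s ^ 2 + 2 * s + 1 ∧
      (Nat.card (orbit (stabilizer G a₀) x) : ℤ) = 2 * s ^ 2 + s := by
    intro x hx
    rw [← sum_adj_eq_card]
    rcases orb_or_orb hE h2 hab hac hbc hx.symm with h | h
    · exact params hE h2 hx.symm hac fun h' => hbc (h.trans h')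
    · exact params hE h2 hx.symm hab fun h' => hbc (h.trans h').symm
  obtain ⟨s, hs, -⟩ := key b hab.symm
  obtain ⟨a, ha⟩ : ∃ a : ℕ, (p : ℤ) = 2 * a ^ 2 + 2 * a + 1 := by
    rcases le_or_gt 0 s with h | h
    · obtain ⟨a, rfl⟩ := Int.eq_ofNat_of_zero_le h
      exact ⟨a, hs⟩
    · obtain ⟨a, ha⟩ := Int.eq_ofNat_of_zero_le (show 0 ≤ -s - 1 by omega)
      refine ⟨a, ?_⟩
      rw [hs, ← ha]
      ring
  have ha' : p = 2 * a ^ 2 + 2 * a + 1 := by exact_mod_cast ha
  refine ⟨a, ?_, ha', fun x hx => ?_⟩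
  · rcases a.eq_zero_or_pos with rfl | h
    · exact absurd ha' hp.one_lt.ne'
    · exact h
  · obtain ⟨t, ht, ht'⟩ := key x hx
    have h1 : (t - a) * (t + a + 1) = 0 := by linarith
    rcases mul_eq_zero.1 h1 with h | h
    · left
      rw [show t = a by linarith] at ht'
      zify
      linarith
    · right
      rw [show t = -a - 1 by linarith] at ht'
      zify
      linarith

end Cfsg.Agent.S0720
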