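import Cfsg.Statements.S0724
import Mathlib

set_option autoImplicit false
open Cfsg

namespace Cfsg.Agent.S0724

theorem dvd_sum_pow {G α : Type*} [Group G] [Fintype G] [MulAction G α] [Fintype α] (j : ℕ) :
    Fintype.card G ∣ ∑ g : G, Nat.card (MulAction.fixedBy α g) ^ j := by
  classical
  have h := MulAction.sum_card_fixedBy_eq_card_orbits_mul_card_group G (Fin j → α)
  refine Dvd.intro_left _ (h.symm.trans (Finset.sum_congr rfl fun g _ => ?_))
  rw [← Nat.card_eq_fintype_card]
  have e : MulAction.fixedBy (Fin j → α) g ≃ (Fin j → MulAction.fixedBy α g) :=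
    { toFun := fun x i => ⟨x.1 i, congrFun x.2 i⟩
      invFun := fun y => ⟨fun i => (y i).1, funext fun i => (y i).2⟩
      left_inv := fun _ => rfl
      right_inv := fun _ => rfl }
  rw [Nat.card_congr e, Nat.card_fun]
  simp

theorem dvd_sum_eval {G α : Type*} [Group G] [Fintype G] [MulAction G α] [Fintype α]
    (q : Polynomial ℤ) :
    (Fintype.card G : ℤ) ∣ ∑ g : G, q.eval (Nat.card (MulAction.fixedBy α g) : ℤ) := by
  induction q using Polynomial.induction_on' with
  | add p q hp hq =>
    simp only [Polynomial.eval_add, Finset.sum_add_distrib]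
    exact dvd_add hp hq
  | monomial n a =>
    simp only [Polynomial.eval_monomial, ← Finset.mul_sum]
    apply Dvd.dvd.mul_left
    exact_mod_cast dvd_sum_pow (G := G) (α := α) n

/-- Blichfeldt's Theorem: if a finite set `L` of natural numbers contains the number of fixed points of every non-identity element of a permutation group `G` of degree `n`, then the order of `G` divides `∏ (n - l)` over `l ∈ L`. -/
theorem result {α : Type*} [Fintype α] [DecidableEq α] (G : Subgroup (Equiv.Perm α)) (L : Finset ℕ) (hL : ∀ g ∈ G, g ≠ 1 → Nat.card (MulAction.fixedBy α g) ∈ L) : Nat.card G ∣ ∏ l ∈ L, (Fintype.card α - l) := by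
  classical
  by_cases hle : ∀ l ∈ L, l ≤ Fintype.card α
  · have h := dvd_sum_eval (G := G) (α := α) (∏ l ∈ L, (Polynomial.X - Polynomial.C (l : ℤ)))
    rw [Finset.sum_eq_single (1 : G)] at h
    · rw [Nat.card_eq_fintype_card, ← Int.natCast_dvd_natCast]
      convert h using 1
      rw [Polynomial.eval_prod, Nat.cast_prod]
      refine Finset.prod_congr rfl fun l hl => ?_
      rw [Nat.cast_sub (hle l hl)]
      simp
    · intro g _ hg
      rw [Polynomial.eval_prod]
      refine Finset.prod_eq_zero (hL g g.2 (fun h => hg (Subtype.ext h))) ?_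
      simp only [Polynomial.eval_sub, Polynomial.eval_X, Polynomial.eval_C]
      exact sub_eq_zero.2 rfl
    · simp
  · push Not at hle
    obtain ⟨l, hl, hlt⟩ := hle
    rw [Finset.prod_eq_zero hl (by omega)]
    exact dvd_zero _

end Cfsg.Agent.S0724
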