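import Cfsg.Statements.S0725
import Cfsg.Agent.P4.M
import Cfsg.Agent.P4.J
import Cfsg.Agent.P4.I0
import Cfsg.Agent.P4.NT
import Cfsg.Agent.P4.NU1
import Cfsg.Agent.P4.NU2
import Cfsg.Agent.P4.NI1
import Cfsg.Agent.P4.NI2
-- import your own Cfsg.Agent.* helpers here

set_option autoImplicit false
open Cfsg

namespace Cfsg.Agent.S0725

/-- The Praeger–Saxl bound: a primitive permutation group of degree `n` not containing the alternating group has order at most `4 ^ n`. -/
theorem result {α : Type*} [Fintype α] [DecidableEq α] (G : Subgroup (Equiv.Perm α)) (hG : MulAction.IsPreprimitive G α) (hA : ¬ alternatingGroup α ≤ G) : Nat.card G ≤ 4 ^ Fintype.card α := by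
  refine P4.fin_of (fun G Ω _ _ _ _ _ _ _ h => P4.uni' h) (fun G Ω _ _ _ _ _ _ _ a h => P4.imp a h)
    (fun n hn => P4.nt hn) (fun n m g h9 h1 h2 h => ?_) (fun n m g h9 h1 h2 h => ?_) G hG hA
  · rcases le_or_gt n 30000 with h3 | h3
    · exact P4.nu1 h3 h1 h2 h
    · exact P4.nu2 h3 h1 h2 h
  · rcases le_or_gt n 30000 with h3 | h3
    · exact P4.ni1 h9 h3 h1 h2 h
    · exact P4.ni2 h3 h1 h2 h

end Cfsg.Agent.S0725
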