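import Cfsg.Statements.S0726
import Cfsg.Agent.H3.Centralizer

set_option autoImplicit false
open Cfsg

namespace Cfsg.Agent.S0726

/-- The left and right regular permutation representations of a group are each other's centralisers in the symmetric group: the centraliser of the left regular image is the right regular image, and a transitive subgroup centralising the left regular image is the whole right regular image. -/
theorem result {G : Type*} [Group G] : Subgroup.centralizer ((MulAction.toPermHom G G).range : Set (Equiv.Perm G)) = (MulAction.toPermHom Gᵐᵒᵖ G).range ∧ ∀ H : Subgroup (Equiv.Perm G), H ≤ Subgroup.centralizer ((MulAction.toPermHom G G).range : Set (Equiv.Perm G)) → MulAction.IsPretransitive H G → H = (MulAction.toPermHom Gᵐᵒᵖ G).range := by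
  open Cfsg.Agent.H3.Centralizer in
  have hL : MulAction.IsPretransitive (MulAction.toPermHom G G).range G :=
    isPretransitive_of_exists _ fun a b => ⟨_, ⟨b * a⁻¹, rfl⟩, by simp⟩
  have hR : MulAction.IsPretransitive (MulAction.toPermHom Gᵐᵒᵖ G).range G :=
    isPretransitive_of_exists _ fun a b => ⟨_, ⟨MulOpposite.op (a⁻¹ * b), rfl⟩, by simp⟩
  have hle : (MulAction.toPermHom Gᵐᵒᵖ G).range ≤
      Subgroup.centralizer ((MulAction.toPermHom G G).range : Set (Equiv.Perm G)) := by
    rintro _ ⟨r, rfl⟩
    rw [Subgroup.mem_centralizer_iff]
    rintro _ ⟨l, rfl⟩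
    ext x
    simp [MulOpposite.smul_eq_mul_unop, mul_assoc]
  have hC := eq_centralizer_of_transitive _ _ hL hR hle
  exact ⟨hC, fun H hH ht => (eq_centralizer_of_transitive _ _ hL ht hH).symm.trans hC⟩

end Cfsg.Agent.S0726
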