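import Cfsg.Statements.S0727
import Cfsg.Agent.H4.Sharp

set_option autoImplicit false
open Cfsg

namespace Cfsg.Agent.S0727

open Cfsg.Agent.H4.Basic Cfsg.Agent.H4.Zass Cfsg.Agent.H4.Ident Cfsg.Agent.H4.Sharp

/-- A sharply triply transitive permutation group of degree `2^f + 1` is isomorphic to the projective general linear group of degree 2 over the field with `2^f` elements. -/
theorem result {α : Type*} [Fintype α] [DecidableEq α] {f : ℕ} (hf : 1 ≤ f) (hα : Fintype.card α = 2 ^ f + 1) (G : Subgroup (Equiv.Perm α)) (h3 : MulAction.IsMultiplyPretransitive G α 3) (hsharp : ∀ x : Fin 3 ↪ α, MulAction.stabilizer G x = ⊥) : ∃ (F : Type) (_ : Field F) (_ : Fintype F), Fintype.card F = 2 ^ f ∧ Nonempty (G ≃* Matrix.ProjGenLinGroup (Fin 2) F) := by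
  have h2f : 2 ≤ 2 ^ f := by
    calc 2 = 2 ^ 1 := rfl
      _ ≤ 2 ^ f := Nat.pow_le_pow_right (by norm_num) hf
  have hc : 3 ≤ Fintype.card α := by omega
  obtain ⟨a, b, c, hab, hac, hbc⟩ := exists_three hc
  have hs := sharp3_of_stabilizer hsharp
  have h2 := two_of_three h3 hc
  obtain ⟨K, hK⟩ := exists_isKer h2 hs hab
  obtain ⟨F, _, _, hF, -⟩ := exists_field Nat.prime_two (show f ≠ 0 by omega)
  have h4 := hK.card_add_one hab
  have h5 := card_stab2_of_sharp h3 hs hab hac hbc
  rw [Nat.card_eq_fintype_card (α := α)] at h4 h5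
  obtain ⟨s, hs1, hs2⟩ := two_trans h2 hab hab.symm
  refine ⟨F, inferInstance, inferInstance, hF, equiv_pgl hs hab hK (by omega) hs1 hs2
    (inverted_of_all_invol (all_invol_of_odd h3 hs ?_ hab hac hbc) hs1 hs2) F (by omega)⟩
  rw [Nat.card_eq_fintype_card, hα]
  exact Even.add_one ((Nat.even_pow' (by omega)).2 even_two)

end Cfsg.Agent.S0727
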