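import Cfsg.Statements.S0731
import Cfsg.Agent.H4.Feit

set_option autoImplicit false
open Cfsg

namespace Cfsg.Agent.S0731

open Cfsg.Agent.H4.Basic Cfsg.Agent.H4.Zass Cfsg.Agent.H4.Ident Cfsg.Agent.H4.Sharp
open Cfsg.Agent.H4.Feit MulAction

/-- A finite Zassenhaus group whose point stabiliser has an abelian regular normal subgroup on the remaining points is sharply triply transitive or isomorphic to `PSL(2, F)` for a finite field `F` of odd characteristic. -/
theorem result {G Ω : Type*} [Group G] [Finite G] [MulAction G Ω] [Finite Ω] (hZ : Cfsg.IsZassenhausGroup G Ω) (x : Ω) (F : Subgroup G) (hFle : F ≤ MulAction.stabilizer G x) (hFn : (F.subgroupOf (MulAction.stabilizer G x)).Normal) (hFab : IsMulCommutative F) (hreg : ∀ y z : Ω, y ≠ x → z ≠ x → ∃! u : F, (u : G) • y = z) : (MulAction.IsMultiplyPretransitive G Ω 3 ∧ ∀ t : Fin 3 ↪ Ω, MulAction.stabilizer G t = ⊥) ∨ ∃ (K : Type) (_ : Field K) (_ : Fintype K), ringChar K ≠ 2 ∧ Nonempty (G ≃* Matrix.ProjectiveSpecialLinearGroup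 (Fin 2) K) := by
  have hZ' := hZ
  obtain ⟨hf, h2, h3, ⟨g, hg, c, d, hcd, hc, hd⟩, -⟩ := hZ'
  have h3' : Sharp3 G Ω := h3
  have hK : IsKer x F := IsKer.of_normal hFle hFn hreg
  obtain ⟨b, hb⟩ : ∃ b : Ω, x ≠ b := by
    by_cases h : x = c
    · exact ⟨d, h ▸ hcd⟩
    · exact ⟨c, h⟩
  have hcomm : ∀ u ∈ F, ∀ v ∈ F, u * v = v * u := fun u hu v hv =>
    congrArg Subtype.val (hFab.is_comm.comm (⟨u, hu⟩ : F) ⟨v, hv⟩)
  have h4 := hK.card_add_one hb
  have h5 := three_le_card hg hcd hc hd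
  rcases feit hZ hb hK hcomm with h | ⟨h, hall⟩
  · exact Or.inl ⟨three_trans_of_card h2 h3' hb (by omega), stabilizer_of_sharp3 h3'⟩
  · right
    obtain ⟨p, f, hp, -, hKc⟩ := hK.elementary_of_large h3' hb (by omega) (by omega)
    have hf0 : f ≠ 0 := by
      rintro rfl
      rw [pow_zero] at hKc
      omega
    obtain ⟨L, _, _, hL, hch⟩ := exists_field hp hf0
    obtain ⟨s, hs1, hs2⟩ := two_trans h2 hb hb.symm
    refine ⟨L, inferInstance, inferInstance, ?_, equiv_psl h3' hb hK h (hall s hs1 hs2) hs1 hs2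
      (inverted_of_all_invol hall hs1 hs2) L (by omega)⟩
    rw [ringChar.eq L p]
    rintro rfl
    have : Even (2 ^ f) := (Nat.even_pow' hf0).2 even_two
    rw [Nat.even_iff] at this
    omega

end Cfsg.Agent.S0731
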