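import Cfsg.Statements.S0733
import Mathlib

set_option autoImplicit false
open Cfsg

namespace Cfsg.Agent.S0733

/-- A permutation group of affine type — generated by the translations of a finite vector space `V` over `ZMod p` together with a group `G₀` of linear automorphisms — is primitive on `V` if and only if `G₀` is irreducible on `V`. -/
theorem result {p : ℕ} [Fact p.Prime] {V : Type*} [AddCommGroup V] [Module (ZMod p) V] [Finite V] [Nontrivial V] (G₀ : Subgroup (V ≃ₗ[ZMod p] V)) (G : Subgroup (Equiv.Perm V)) (hG : ∀ σ : Equiv.Perm V, σ ∈ G ↔ ∃ g ∈ G₀, ∃ b : V, ∀ x : V, σ x = (g : V ≃ₗ[ZMod p] V) x + b) : MulAction.IsPreprimitive G V ↔ ∀ W : Submodule (ZMod p) V, (∀ g ∈ G₀, ∀ v ∈ W, (g : V ≃ₗ[ZMod p] V) v ∈ W) → W = ⊥ ∨ W = ⊤ := by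
  have htr : ∀ b : V, Equiv.addRight b ∈ G := fun b =>
    (hG _).mpr ⟨1, G₀.one_mem, b, fun x => by simp⟩
  constructor
  · intro hprim W hW
    have hB : MulAction.IsBlock G (W : Set V) := by
      rw [MulAction.isBlock_iff_smul_eq_of_mem]
      rintro ⟨σ, hσ⟩ a ha hσa
      obtain ⟨g, hg, b, hgb⟩ := (hG σ).mp hσ
      have hσa' : σ a ∈ W := hσa
      have hb : b ∈ W := by
        rw [hgb] at hσa'
        exact (Submodule.add_mem_iff_right W (hW g hg a ha)).mp hσa'
      apply Set.eq_of_subset_of_ncard_le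
      · rintro _ ⟨x, hx, rfl⟩
        change σ x ∈ W
        rw [hgb]
        exact W.add_mem (hW g hg x hx) hb
      · rw [Set.ncard_smul_set]
      · exact Set.toFinite _
    rcases hB.subsingleton_or_eq_univ with h | h
    · left
      rw [Submodule.eq_bot_iff]
      intro x hx
      exact h hx W.zero_mem
    · right
      rw [Submodule.eq_top_iff']
      intro x
      have : x ∈ (W : Set V) := by rw [h]; trivial
      exact this
  · intro hirr
    haveI : MulAction.IsPretransitive G V := ⟨fun x y => ⟨⟨_, htr (y - x)⟩, by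
      change x + (y - x) = y
      abel⟩⟩
    apply MulAction.IsPreprimitive.of_isTrivialBlock_base (0 : V)
    intro B h0 hB
    rw [MulAction.isBlock_iff_smul_eq_of_mem] at hB
    have hadd : ∀ a ∈ B, ∀ b ∈ B, a + b ∈ B := by
      intro a ha b hb
      have := hB (g := ⟨_, htr b⟩) h0 (by change 0 + b ∈ B; simpa using hb)
      rw [← this]
      exact ⟨a, ha, rfl⟩
    have hneg : ∀ a ∈ B, -a ∈ B := by
      intro a ha
      have := hB (g := ⟨_, htr (-a)⟩) ha (by change a + -a ∈ B; simpa using h0)
      rw [← this]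
      exact ⟨0, h0, by change 0 + -a = -a; simp⟩
    let A : AddSubgroup V :=
      { carrier := B
        zero_mem' := h0
        add_mem' := fun ha hb => hadd _ ha _ hb
        neg_mem' := fun ha => hneg _ ha }
    have hinv : ∀ g ∈ G₀, ∀ v ∈ AddSubgroup.toZModSubmodule p A,
        (g : V ≃ₗ[ZMod p] V) v ∈ AddSubgroup.toZModSubmodule p A := by
      intro g hg v hv
      have hgG : (g : V ≃ₗ[ZMod p] V).toEquiv ∈ G := (hG _).mpr ⟨g, hg, 0, fun x => by simp⟩
      have := hB (g := ⟨_, hgG⟩) h0 (by change g 0 ∈ B; simpa using h0)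
      change g v ∈ B
      rw [← this]
      exact ⟨v, hv, rfl⟩
    rcases hirr _ hinv with h | h
    · left
      rw [Submodule.eq_bot_iff] at h
      intro x hx y hy
      rw [h x hx, h y hy]
    · right
      rw [Submodule.eq_top_iff'] at h
      exact Set.eq_univ_of_forall h

end Cfsg.Agent.S0733
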