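import Cfsg.Statements.S0734
import Cfsg.Agent.H3.Multi

set_option autoImplicit false
open Cfsg

namespace Cfsg.Agent.S0734

/-- Higman's criterion for primitivity: a transitive action on a finite set is primitive if and only if every non-trivial orbital graph (edges = images of a fixed pair of distinct points) is connected. -/
theorem result {G : Type*} [Group G] {Ω : Type*} [Finite Ω] [MulAction G Ω] [MulAction.IsPretransitive G Ω] [Nontrivial Ω] : MulAction.IsPreprimitive G Ω ↔ ∀ a b : Ω, a ≠ b → (SimpleGraph.fromRel fun x y : Ω => ∃ g : G, g • a = x ∧ g • b = y).Connected := by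
  constructor
  · intro hG a b hab
    set Γ := SimpleGraph.fromRel fun x y : Ω => ∃ g : G, g • a = x ∧ g • b = y with hΓ
    have hadj : ∀ (g : G) (x y : Ω), Γ.Adj x y → Γ.Adj (g • x) (g • y) := by
      intro g x y h
      rw [hΓ, SimpleGraph.fromRel_adj] at h ⊢
      refine ⟨by simpa using h.1, ?_⟩
      rcases h.2 with ⟨u, rfl, rfl⟩ | ⟨u, rfl, rfl⟩
      · exact Or.inl ⟨g * u, mul_smul _ _ _, mul_smul _ _ _⟩
      · exact Or.inr ⟨g * u, mul_smul _ _ _, mul_smul _ _ _⟩
    have hab' : Γ.Adj a b := by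
      rw [hΓ, SimpleGraph.fromRel_adj]
      exact ⟨hab, Or.inl ⟨1, one_smul _ _, one_smul _ _⟩⟩
    refine ⟨(Cfsg.Agent.H3.Multi.prim_rel hG Γ.Reachable
      ⟨SimpleGraph.Reachable.refl, SimpleGraph.Reachable.symm, SimpleGraph.Reachable.trans⟩
      fun g x y h => ?_).resolve_left fun h => hab (h a b hab'.reachable)⟩
    exact h.map (⟨fun x => g • x, fun {x y} h => hadj g x y h⟩ : Γ →g Γ)
  · intro h
    refine ⟨fun {B} hB => ?_⟩
    rcases B.subsingleton_or_nontrivial with h1 | ⟨a, ha, b, hb, hab⟩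
    · exact Or.inl h1
    right
    rw [MulAction.isBlock_iff_smul_eq_of_mem] at hB
    have hcl : ∀ x y : Ω, (SimpleGraph.fromRel fun x y : Ω => ∃ g : G, g • a = x ∧ g • b = y).Adj
        x y → x ∈ B → y ∈ B := by
      intro x y hxy hx
      rw [SimpleGraph.fromRel_adj] at hxy
      rcases hxy.2 with ⟨u, rfl, rfl⟩ | ⟨u, rfl, rfl⟩
      · rw [← hB ha hx]; exact Set.smul_mem_smul_set hb
      · rw [← hB hb hx]; exact Set.smul_mem_smul_set ha
    rw [Set.eq_univ_iff_forall]
    intro x
    obtain ⟨p⟩ := (h a b hab).preconnected a x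
    have key : ∀ (u v : Ω)
        (_ : (SimpleGraph.fromRel fun x y : Ω => ∃ g : G, g • a = x ∧ g • b = y).Walk u v),
        u ∈ B → v ∈ B := by
      intro u v q
      induction q with
      | nil => exact id
      | cons h _ ih => exact fun hu => ih (hcl _ _ h hu)
    exact key a x p ha

end Cfsg.Agent.S0734
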