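import Cfsg.Statements.S0735
import Cfsg.Agent.H3.Multi

set_option autoImplicit false
open Cfsg

namespace Cfsg.Agent.S0735

/-- A 2-homogeneous permutation group (transitive on 2-subsets) of even order is doubly transitive; a non-trivial 2-homogeneous group is primitive. -/
theorem result {α : Type*} [Fintype α] [DecidableEq α] (G : Subgroup (Equiv.Perm α)) (h2 : MulAction.IsPretransitive G (Set.powersetCard α 2)) (hα : 3 ≤ Fintype.card α) : (Even (Nat.card G) → MulAction.IsMultiplyPretransitive G α 2) ∧ (G ≠ ⊥ → MulAction.IsPreprimitive G α) := by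
  open scoped Pointwise in
  have hpair : ∀ a b c d : α, a ≠ b → c ≠ d →
      ∃ g : G, (g • a = c ∧ g • b = d) ∨ (g • a = d ∧ g • b = c) := by
    intro a b c d hab hcd
    obtain ⟨g, hg⟩ := h2.exists_smul_eq
      (⟨{a, b}, Finset.card_pair hab⟩ : Set.powersetCard α 2) ⟨{c, d}, Finset.card_pair hcd⟩
    have h1 : g • ({a, b} : Finset α) = {c, d} :=
      (Set.powersetCard.coe_smul (g := g)
        (s := (⟨{a, b}, Finset.card_pair hab⟩ : Set.powersetCard α 2))).symm.trans
        (congrArg Subtype.val hg)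
    have h3 : ({g • a, g • b} : Finset α) = {c, d} := by
      rw [← h1, Finset.smul_finset_insert, Finset.smul_finset_singleton]
    refine ⟨g, ?_⟩
    have h4 : ({g • a, g • b} : Set α) = {c, d} := by
      simpa using congrArg (fun s : Finset α => (s : Set α)) h3
    exact Set.pair_eq_pair_iff.mp h4
  constructor
  · intro heven
    have : Fact (Nat.Prime 2) := ⟨Nat.prime_two⟩
    obtain ⟨t, ht⟩ := exists_prime_orderOf_dvd_card' 2 (even_iff_two_dvd.mp heven)
    have ht1 : t ≠ 1 := by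
      intro h; rw [h, orderOf_one] at ht; omega
    obtain ⟨u, hu⟩ : ∃ u : α, t • u ≠ u := by
      by_contra h
      push Not at h
      exact ht1 (Subtype.ext (Equiv.ext h))
    have htt : t • t • u = u := by
      rw [← mul_smul, ← pow_two, ← ht, pow_orderOf_eq_one, one_smul]
    have hswap : ∀ a b : α, a ≠ b → ∃ g : G, g • a = b ∧ g • b = a := by
      intro a b hab
      obtain ⟨g, ⟨h1, h2⟩ | ⟨h1, h2⟩⟩ := hpair u (t • u) a b hu.symm hab
      · refine ⟨g * t * g⁻¹, ?_, ?_⟩
        · rw [← h1, ← h2, mul_smul, mul_smul, inv_smul_smul]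
        · rw [← h1, ← h2, mul_smul, mul_smul, inv_smul_smul, htt]
      · refine ⟨g * t * g⁻¹, ?_, ?_⟩
        · rw [← h1, ← h2, mul_smul, mul_smul, inv_smul_smul, htt]
        · rw [← h1, ← h2, mul_smul, mul_smul, inv_smul_smul]
    rw [MulAction.is_two_pretransitive_iff]
    intro a b c d hab hcd
    obtain ⟨g, h | ⟨h1, h2⟩⟩ := hpair a b c d hab hcd
    · exact ⟨g, h⟩
    · obtain ⟨k, k1, k2⟩ := hswap c d hcd
      exact ⟨k * g, by rw [mul_smul, h1, k2], by rw [mul_smul, h2, k1]⟩
  · intro hG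
    obtain ⟨t, ht, ht1⟩ : ∃ t ∈ G, t ≠ 1 := by
      by_contra h
      push Not at h
      exact hG (eq_bot_iff.mpr fun x hx => h x hx)
    obtain ⟨u, hu⟩ : ∃ u : α, t u ≠ u := by
      by_contra h
      push Not at h
      exact ht1 (Equiv.ext h)
    have htr : MulAction.IsPretransitive G α := by
      refine ⟨fun a b => ?_⟩
      by_cases hab : a = b
      · exact ⟨1, by simp [hab]⟩
      obtain ⟨g, ⟨h1, h2⟩ | ⟨h1, h2⟩⟩ := hpair u (t u) a b hu.symm hab
      · refine ⟨g * ⟨t, ht⟩ * g⁻¹, ?_⟩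
        rw [← h1, ← h2, mul_smul, mul_smul, inv_smul_smul]; rfl
      · refine ⟨(g * ⟨t, ht⟩ * g⁻¹)⁻¹, ?_⟩
        rw [inv_smul_eq_iff, ← h1, ← h2, mul_smul, mul_smul, inv_smul_smul]; rfl
    refine ⟨fun {B} hB => ?_⟩
    rcases B.subsingleton_or_nontrivial with h1 | ⟨a, ha, b, hb, hab⟩
    · exact Or.inl h1
    right
    rw [MulAction.isBlock_iff_smul_eq_of_mem] at hB
    rw [Set.eq_univ_iff_forall]
    intro c
    by_cases hca : a = c
    · exact hca ▸ ha
    obtain ⟨g, ⟨h1, h2⟩ | ⟨h1, h2⟩⟩ := hpair a b a c hab hca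
    · rw [← hB (g := g) ha (by rw [h1]; exact ha), ← h2]; exact Set.smul_mem_smul_set hb
    · rw [← hB (g := g) hb (by rw [h2]; exact ha), ← h1]; exact Set.smul_mem_smul_set ha

end Cfsg.Agent.S0735
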