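import Cfsg.Statements.S0738
import Cfsg.Agent.H4.Zass

set_option autoImplicit false
open Cfsg

namespace Cfsg.Agent.S0738

open Cfsg.Agent.H4.Zass

/-- Let a finite Zassenhaus group of degree `n + 1` have two-point stabilisers of order `d` with `2d ≥ n - 1`. Then a normal subgroup of a point stabiliser acting regularly on the remaining points is elementary abelian, and the degree is a prime power plus one. -/
theorem result {G Ω : Type*} [Group G] [Finite G] [MulAction G Ω] [Fintype Ω] (hZ : Cfsg.IsZassenhausGroup G Ω) {a b : Ω} (hab : a ≠ b) (hd : Fintype.card Ω - 2 ≤ 2 * Nat.card ↥(MulAction.stabilizer G a ⊓ MulAction.stabilizer G b)) (F : Subgroup G) (hFle : F ≤ MulAction.stabilizer G a) (hFn : (F.subgroupOf (MulAction.stabilizer G a)).Normal) (hreg : ∀ y z : Ω, y ≠ a → z ≠ a → ∃! u : F, (u : G) • y = z) : IsMulCommutative F ∧ ∃ p f : ℕ, p.Prime ∧ (∀ u ∈ F, u ^ p = 1) ∧ Fintype.card Ω = p ^ f + 1 := by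
  obtain ⟨hf, h2, h3, ⟨g, hg, c, d, hcd, hc, hd'⟩, -⟩ := hZ
  have hK := IsKer.of_normal hFle hFn hreg
  have h1 := hK.card_add_one hab
  have h3' := three_le_card hg hcd hc hd'
  rw [Nat.card_eq_fintype_card (α := Ω)] at h1 h3'
  have hd2 : Nat.card F - 1 ≤
      2 * Nat.card ↥(MulAction.stabilizer G a ⊓ MulAction.stabilizer G b) := by omega
  refine ⟨⟨⟨fun u v => Subtype.ext (hK.comm_of_large h3 hab hd2 u u.2 v v.2)⟩⟩, ?_⟩
  obtain ⟨p, f, hp, h4, h5⟩ := hK.elementary_of_large h3 hab hd2 (by omega)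
  exact ⟨p, f, hp, h4, by omega⟩

end Cfsg.Agent.S0738
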