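import Cfsg.Statements.S0739
import Cfsg.Agent.H4.OddStab

set_option autoImplicit false
open Cfsg

namespace Cfsg.Agent.S0739

open Cfsg.Agent.H4.Basic Cfsg.Agent.H4.Zass Cfsg.Agent.H4.OddStab MulAction

/-- In a finite Zassenhaus group whose two-point stabiliser `H = G_{a,b}` has odd order `d`, and which has no normal `q`-complement for any prime `q ∣ d`, `H` is cyclic, `C_G(H) = H`, and every element swapping `a` and `b` inverts each element of `H`. -/
theorem result {G Ω : Type*} [Group G] [Finite G] [MulAction G Ω] [Fintype Ω] (hZ : Cfsg.IsZassenhausGroup G Ω) {a b : Ω} (hab : a ≠ b) (hodd : Odd (Nat.card ↥(MulAction.stabilizer G a ⊓ MulAction.stabilizer G b))) (hnil : ∀ q : ℕ, q.Prime → q ∣ Nat.card ↥(MulAction.stabilizer G a ⊓ MulAction.stabilizer G b) → ¬ ∃ N : Subgroup G, N.Normal ∧ N.index = q ^ (Nat.card G).factorization q) : IsCyclic ↥(MulAction.stabilizer G a ⊓ MulAction.stabilizer G b) ∧ Subgroup.centralizer ((MulAction.stabilizer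 G a ⊓ MulAction.stabilizer G b : Subgroup G) : Set G) = MulAction.stabilizer G a ⊓ MulAction.stabilizer G b ∧ ∀ s : G, s • a = b → s • b = a → ∀ h ∈ MulAction.stabilizer G a ⊓ MulAction.stabilizer G b, s * h * s⁻¹ = h⁻¹ := by
  obtain ⟨hf, h2, h3, hex, -⟩ := hZ
  have h3' : Sharp3 G Ω := h3
  obtain ⟨K, hK⟩ := exists_isKer h2 h3' hab
  have hlt := one_lt_card_stab2 h2 hex hab
  obtain ⟨g, hg, c, d, hcd, hc, hd'⟩ := hex
  have h4 := hK.card_add_one hab
  have h5 := three_le_card hg hcd hc hd'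
  have hK1 : K ≠ ⊥ := by
    rintro rfl
    rw [Subgroup.card_bot] at h4
    omega
  obtain ⟨s₀, hs1, hs2⟩ := two_trans h2 hab hab.symm
  have hcyc := (odd_stab h2 h3' hab hK hK1 hodd hnil hs1 hs2).1
  have hinv : ∀ s : G, s • a = b → s • b = a →
      ∀ h ∈ stabilizer G a ⊓ stabilizer G b, s * h * s⁻¹ = h⁻¹ :=
    fun s h1 h2' => (odd_stab h2 h3' hab hK hK1 hodd hnil h1 h2').2
  refine ⟨hcyc, le_antisymm ?_ ?_, hinv⟩
  · intro x hx
    haveI := Finite.one_lt_card_iff_nontrivial.1 hlt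
    obtain ⟨y, hy⟩ := exists_ne (1 : ↥(stabilizer G a ⊓ stabilizer G b))
    have hy1 : (y : G) ≠ 1 := fun h => hy (Subtype.ext h)
    have hxy := hx y y.2
    rcases fix_or_swap h3' hab hy1 y.2 y.2 hxy with h | h
    · exact h
    · exfalso
      have h6 := hinv x h.1 h.2 y y.2
      rw [← hxy, mul_inv_cancel_right, eq_inv_iff_mul_eq_one] at h6
      apply hy
      exact Subgroup.mem_bot.1 (eq_one_of_sq_of_odd hodd ⊥ (Subgroup.mem_bot.2 (Subtype.ext h6)))
  · intro x hx y hy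
    exact congrArg Subtype.val (hcyc.isMulCommutative.is_comm.comm
      (⟨y, hy⟩ : ↥(stabilizer G a ⊓ stabilizer G b)) ⟨x, hx⟩)

end Cfsg.Agent.S0739
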