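import Cfsg.Statements.S0740
import Cfsg.Agent.H4.Basic

set_option autoImplicit false
open Cfsg

namespace Cfsg.Agent.S0740

open Cfsg.Agent.H4.Basic MulAction

/-- In a finite Zassenhaus group any two points `a ≠ b` are swapped by an involution; every such involution has exactly one fixed point when the degree is odd and 0 or 2 fixed points when the degree is even; and if the two-point stabiliser has even order, some such involution has exactly 2 fixed points. -/
theorem result {G Ω : Type*} [Group G] [Finite G] [MulAction G Ω] [Fintype Ω] (hZ : Cfsg.IsZassenhausGroup G Ω) {a b : Ω} (hab : a ≠ b) : (∃ s : G, orderOf s = 2 ∧ s • a = b ∧ s • b = a) ∧ (∀ s : G, orderOf s = 2 → s • a = b → s • b = a → (Odd (Fintype.card Ω) → Nat.card (MulAction.fixedBy Ω s) = 1) ∧ (Even (Fintype.card Ω) → Nat.card (MulAction.fixedBy Ω s) = 0 ∨ Nat.card (MulAction.fixedBy Ω s) = 2)) ∧ (Even (Fintype.card Ω) → Even (Nat.card ↥(MulAction.stabilizer G a ⊓ MulAction.stabilizer G b)) → ∃ s : G, orderOf s =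 2 ∧ s • a = b ∧ s • b = a ∧ Nat.card (MulAction.fixedBy Ω s) = 2) := by
  obtain ⟨hf, h2, h3, -, -⟩ := hZ
  have h3' : Sharp3 G Ω := h3
  refine ⟨?_, ?_, ?_⟩
  · obtain ⟨s, hs, hsa, hsb⟩ := exists_swap_involution (G := G) h2 hab
    refine ⟨s, orderOf_eq_two_iff.2 ⟨hs, ?_⟩, hsa, hsb⟩
    rintro rfl
    exact hab (by simpa using hsa)
  · intro s hs _ _
    obtain ⟨hs1, hs2⟩ := orderOf_eq_two_iff.1 hs
    have hmod := card_modEq_fixedBy (Ω := Ω) (k := 1) (g := s) Nat.prime_two
      (by rw [pow_one, pow_two, hs1])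
    have hle := h3'.ncard_fixedBy_le hs2
    rw [← Nat.card_coe_set_eq] at hle
    rw [Nat.card_eq_fintype_card] at hmod
    unfold Nat.ModEq at hmod
    constructor
    · intro ho
      rw [Nat.odd_iff] at ho
      omega
    · intro he
      rw [Nat.even_iff] at he
      omega
  · intro _ he
    obtain ⟨t, ht, ht1, ht2⟩ := exists_involution_of_even _ he
    obtain ⟨g, hg1, hg2⟩ := exists_conj_swap h2 ht1 ht2 hab
    refine ⟨g * t * g⁻¹, orderOf_eq_two_iff.2 ⟨?_, ?_⟩, hg1, hg2, ?_⟩
    · calc g * t * g⁻¹ * (g * t * g⁻¹) = g * (t * t) * g⁻¹ := by group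
        _ = 1 := by rw [ht1]; group
    · intro h
      rw [h] at hg1
      exact hab (by simpa using hg1)
    · rw [Nat.card_coe_set_eq, ncard_fixedBy_conj, h3'.fixedBy_eq ht2 hab ht.1 ht.2,
        Set.ncard_pair hab]

end Cfsg.Agent.S0740
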