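import Cfsg.Statements.S0742
import Cfsg.Agent.H4.Sharp

set_option autoImplicit false
open Cfsg

namespace Cfsg.Agent.S0742

open Cfsg.Agent.H4.Basic Cfsg.Agent.H4.Zass Cfsg.Agent.H4.Ident Cfsg.Agent.H4.Sharp

/-- A finite Zassenhaus group of degree `n + 1` with two-point stabilisers of even order `d` satisfying `2d ≤ n - 1` has `n = p^f` for an odd prime `p` and is isomorphic to `PSL(2, p^f)`. -/
theorem result {G Ω : Type*} [Group G] [Finite G] [MulAction G Ω] [Fintype Ω] (hZ : Cfsg.IsZassenhausGroup G Ω) {a b : Ω} (hab : a ≠ b) (heven : Even (Nat.card ↥(MulAction.stabilizer G a ⊓ MulAction.stabilizer G b))) (hd : 2 * Nat.card ↥(MulAction.stabilizer G a ⊓ MulAction.stabilizer G b) ≤ Fintype.card Ω - 2) : ∃ (p f : ℕ) (K : Type) (_ : Field K) (_ : Fintype K), p.Prime ∧ p ≠ 2 ∧ Fintype.card K = p ^ f ∧ Fintype.card Ω = p ^ f + 1 ∧ Nonempty (G ≃* Matrix.ProjectiveSpecialLinearGroup (Fin 2) K) := by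
  obtain ⟨hf, h2, h3, ⟨g, hg, c, d, hcd, hc, hd'⟩, -⟩ := hZ
  have h3' : Sharp3 G Ω := h3
  obtain ⟨K, hK⟩ := exists_isKer h2 h3' hab
  have h4 := hK.card_add_one hab
  have h5 := three_le_card hg hcd hc hd'
  have h6 := Cfsg.Agent.H4.Count.card_le_two_mul_stab h2 h3' hab heven
  rw [Nat.card_eq_fintype_card (α := Ω)] at h4 h5
  obtain ⟨p, f, hp, -, hKc⟩ := hK.elementary_of_large h3' hab (by omega) (by omega)
  have hf0 : f ≠ 0 := by
    rintro rfl
    rw [pow_zero] at hKc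
    omega
  obtain ⟨F, _, _, hF, -⟩ := exists_field hp hf0
  obtain ⟨s, hs1, hs2⟩ := two_trans h2 hab hab.symm
  have hall := all_invol_of_small h2 h3' hab heven hd
  refine ⟨p, f, F, inferInstance, inferInstance, hp, ?_, hF, by omega,
    equiv_psl h3' hab hK (by omega) (hall s hs1 hs2) hs1 hs2
      (inverted_of_all_invol hall hs1 hs2) F (by omega)⟩
  rintro rfl
  have : Even (2 ^ f) := (Nat.even_pow' hf0).2 even_two
  rw [Nat.even_iff] at this
  omega

end Cfsg.Agent.S0742
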