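import Cfsg.Statements.S0745
import Cfsg.Agent.H4.LW5

set_option autoImplicit false
open Cfsg

namespace Cfsg.Agent.S0745

open Cfsg.Agent.H4.LW Cfsg.Agent.H4.Gleason Cfsg.Agent.H4.Homog

/-- Let `G` have degree `n` and `3 ≤ k ≤ n`; suppose `G` is `(k-2)`-transitive but not `(k-1)`-transitive, and is `(k-1)`-homogeneous and `k`-homogeneous. Then `k = n` and `G` is the alternating group, or `n = 5, k = 4, |G| = 20`, or `n = 6, k = 5, |G| = 120`, or `n = 9, k = 5, |G| ∈ {504, 1512}`. -/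
theorem result {α : Type*} [Fintype α] [DecidableEq α] (G : Subgroup (Equiv.Perm α)) {k : ℕ} (hk : 3 ≤ k) (hkn : k ≤ Fintype.card α) (ht : MulAction.IsMultiplyPretransitive G α (k - 2)) (hnt : ¬ MulAction.IsMultiplyPretransitive G α (k - 1)) (hh1 : MulAction.IsPretransitive G (Set.powersetCard α (k - 1))) (hh : MulAction.IsPretransitive G (Set.powersetCard α k)) : (k = Fintype.card α ∧ G = alternatingGroup α) ∨ (Fintype.card α = 5 ∧ k = 4 ∧ Nat.card G = 20) ∨ (Fintype.card α = 6 ∧ k = 5 ∧ Nat.card G = 120) ∨ (Fintype.card α = 9 ∧ k = 5 ∧ (Nat.card G = 504 ∨ Nat.card G = 1512)) := by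
  obtain ⟨k, rfl⟩ : ∃ j, k = j + 1 + 1 := ⟨k - 2, by omega⟩
  have h1 : KT G α k := KT.of_multi ht (by rw [Nat.card_eq_fintype_card]; omega)
  rcases lw_cases (by omega) hkn h1 (fun h => hnt h.multi) ((hg_iff_subgroup G).2 hh1)
    ((hg_iff_subgroup G).2 hh) with h | h | h | h
  · refine Or.inl ⟨h.symm, Equiv.Perm.eq_alternatingGroup_of_index_eq_two ?_⟩
    have : Nontrivial α := Fintype.one_lt_card_iff_nontrivial.1 (by omega)
    have h2 := Subgroup.index_dvd_of_le (IsMultiplyPretransitive.alternatingGroup_le α G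
      (h1.mono (by rw [Nat.card_eq_fintype_card]; omega)).multi)
    rw [alternatingGroup.index_eq_two] at h2
    refine (Nat.prime_two.eq_one_or_self_of_dvd _ h2).resolve_left fun e => hnt (KT.multi ?_)
    exact fun s _ τ => ⟨⟨τ, (Subgroup.index_eq_one.1 e).ge trivial⟩, fun _ _ => rfl⟩
  · exact Or.inr (Or.inl ⟨h.1, by omega, h.2.2⟩)
  · exact Or.inr (Or.inr (Or.inl ⟨h.1, by omega, h.2.2⟩))
  · exact Or.inr (Or.inr (Or.inr ⟨h.1, by omega, h.2.2⟩))

end Cfsg.Agent.S0745
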