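import Cfsg.Statements.S0746
import Cfsg.Agent.H4.LW5

set_option autoImplicit false
open Cfsg

namespace Cfsg.Agent.S0746

open Cfsg.Agent.H4.LW Cfsg.Agent.H4.Gleason Cfsg.Agent.H4.Homog

/-- The Livingstone–Wagner Theorem, first form: a `k`-homogeneous group of degree `n` with `4 ≤ 2k ≤ n` is `(k-1)`-transitive. -/
theorem result {α : Type*} [Fintype α] [DecidableEq α] (G : Subgroup (Equiv.Perm α)) {k : ℕ} (hk : 2 ≤ k) (hkn : 2 * k ≤ Fintype.card α) (hh : MulAction.IsPretransitive G (Set.powersetCard α k)) : MulAction.IsMultiplyPretransitive G α (k - 1) := by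
  obtain ⟨k, rfl⟩ : ∃ j, k = j + 1 := ⟨k - 1, by omega⟩
  exact (kt_pred_of_hg hkn ((hg_iff_subgroup G).2 hh)).multi

end Cfsg.Agent.S0746
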