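import Cfsg.Statements.S1122
import Cfsg.Agent.H5.RankOne

set_option autoImplicit false
open Cfsg

namespace Cfsg.Agent.S1122

open Cfsg.Agent.H5.Invol Cfsg.Agent.H5.RankOne MulAction

/-- In the rank-one set-up (`G` finite and doubly transitive on `Ω`, `t` an involution moving `a`, `Q` normal in `G_a` with `G_a = Q D`, `Q ⊓ D = 1` for the two-point stabiliser `D = G_a ⊓ G_{t • a}`, `|Q|` even, `|D|` odd), with `K` the set of elements of `D` inverted by `t`: `|K|` is the number of involutions of `G_a`, and for each involution `s` of `G_a` the `K`-conjugates of `s` are all the involutions of `G_a`. -/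
theorem result {G Ω : Type*} [Group G] [Finite G] [MulAction G Ω] {a : Ω} {t : G} {Q : Subgroup G}
    (hS : Cfsg.IsRankOneSetup G Ω a t Q) :
    Nat.card (Cfsg.invertedBy (MulAction.stabilizer G a ⊓ MulAction.stabilizer G (t • a)) t) = Nat.card (Cfsg.involutionsIn (MulAction.stabilizer G a : Set G)) ∧
      ∀ s ∈ Cfsg.involutionsIn (MulAction.stabilizer G a : Set G), ∀ s' ∈ Cfsg.involutionsIn (MulAction.stabilizer G a : Set G),
        ∃ k ∈ Cfsg.invertedBy (MulAction.stabilizer G a ⊓ MulAction.stabilizer G (t • a)) t, k⁻¹ * s * k = s' := by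
  refine ⟨?_, fun s hs s' hs' => K_surj hS hs.1 hs.2.1 hs.2.2 hs'.1 hs'.2.1 hs'.2.2⟩
  obtain ⟨s, hsQ, hs1, hs⟩ := exists_invol hS
  have hsa := Q_fix_a hS hsQ
  refine Nat.card_congr (Equiv.ofBijective
    (fun k : invertedBy (DD G a t) t => (⟨k.1⁻¹ * s * k.1, Q_fix_a hS (conj_Q' hS k.2.1.1 hsQ), ?_, ?_⟩ :
      involutionsIn (MulAction.stabilizer G a : Set G))) ⟨?_, ?_⟩)
  · intro h
    apply hs1
    calc s = k.1 * (k.1⁻¹ * s * k.1) * k.1⁻¹ := by group
      _ = 1 := by rw [h]; group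
  · calc k.1⁻¹ * s * k.1 * (k.1⁻¹ * s * k.1) = k.1⁻¹ * (s * s) * k.1 := by group
      _ = 1 := by rw [hs]; group
  · intro k l h
    exact Subtype.ext (K_inj hS hsa hs1 hs k.2 l.2 (congrArg Subtype.val h))
  · rintro ⟨s', hs'⟩
    obtain ⟨k, hk, e⟩ := K_surj hS hsa hs1 hs hs'.1 hs'.2.1 hs'.2.2
    exact ⟨⟨k, hk⟩, Subtype.ext e⟩

end Cfsg.Agent.S1122
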