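import Cfsg.Statements.S1124
import Cfsg.Agent.H5.Invol

set_option autoImplicit false
open scoped Pointwise
open Cfsg

namespace Cfsg.Agent.S1124

open Cfsg.Agent.H5.Invol

/-- Let `t` be an element of order 2 of a finite group normalising a subgroup `X` of odd order, `Y = C_X(t)` and `Z` the set of elements of `X` inverted by `t`. Then `(y, z) ↦ y z` is a bijection `Y × Z → X`, so `|X| = |Y| |Z|`, and the subgroup generated by `Z` is normal in `X`. -/
theorem result {M : Type*} [Group M] [Finite M]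
    (t : M) (ht : orderOf t = 2) (X : Subgroup M) (hodd : Odd (Nat.card X))
    (hnorm : ∀ x ∈ X, t * x * t⁻¹ ∈ X) :
    (∀ x ∈ X, ∃! p : M × M, p.1 ∈ X ⊓ Subgroup.centralizer {t} ∧ p.2 ∈ Cfsg.invertedBy X t ∧ x = p.1 * p.2) ∧
      Nat.card X = Nat.card ↥(X ⊓ Subgroup.centralizer {t}) * Nat.card (Cfsg.invertedBy X t) ∧
      ∀ x ∈ X, MulAut.conj x • Subgroup.closure (Cfsg.invertedBy X t) = Subgroup.closure (Cfsg.invertedBy X t) := by
  have ht2 : t * t = 1 := mul_self_of_orderOf_eq_two ht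
  have hc : ∀ y : M, y ∈ Subgroup.centralizer ({t} : Set M) ↔ y * t = t * y := by
    intro y
    rw [Subgroup.mem_centralizer_singleton_iff]
  refine ⟨?_, ?_, ?_⟩
  · intro x hx
    obtain ⟨y, z, hy, hyt, hz, e⟩ := exists_factor ht2 hodd hnorm hx
    refine ⟨(y, z), ⟨⟨hy, (hc y).2 hyt⟩, hz, e⟩, ?_⟩
    rintro ⟨y', z'⟩ ⟨⟨-, hy'⟩, hz', e'⟩
    obtain ⟨e1, e2⟩ := factor_unique hodd hyt hz ((hc y').1 hy') hz' (e.symm.trans e')
    exact Prod.ext e1.symm e2.symm
  · rw [← Nat.card_prod]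
    symm
    refine Nat.card_congr (Equiv.ofBijective
      (fun p : ↥(X ⊓ Subgroup.centralizer {t}) × invertedBy X t =>
        (⟨p.1.1 * p.2.1, X.mul_mem p.1.2.1 p.2.2.1⟩ : X)) ⟨?_, ?_⟩)
    · rintro ⟨y, z⟩ ⟨y', z'⟩ h
      obtain ⟨e1, e2⟩ := factor_unique hodd ((hc _).1 y.2.2) z.2 ((hc _).1 y'.2.2) z'.2
        (congrArg Subtype.val h)
      exact Prod.ext (Subtype.ext e1) (Subtype.ext e2)
    · rintro ⟨x, hx⟩
      obtain ⟨y, z, hy, hyt, hz, e⟩ := exists_factor ht2 hodd hnorm hx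
      exact ⟨(⟨y, hy, (hc y).2 hyt⟩, ⟨z, hz⟩), Subtype.ext e.symm⟩
  · have key : X ≤ Subgroup.normalizer (Subgroup.closure (invertedBy X t) : Set M) := by
      rw [Subgroup.le_normalizer_closure_iff]
      intro x hx w hw
      obtain ⟨y, z, hy, hyt, hz, rfl⟩ := exists_factor ht2 hodd hnorm hx
      have e : y * z * w * (y * z)⁻¹ = (y * z * y⁻¹) * (y * w * y⁻¹) * (y * z * y⁻¹)⁻¹ := by group
      rw [e]
      have h1 := Subgroup.subset_closure (inverted_conj hz hy hyt)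
      have h2 := Subgroup.subset_closure (inverted_conj hw hy hyt)
      exact Subgroup.mul_mem _ (Subgroup.mul_mem _ h1 h2) (Subgroup.inv_mem _ h1)
    intro x hx
    exact Subgroup.mem_normalizer_iff_map_conj_eq.1 (key hx)

end Cfsg.Agent.S1124
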