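import Cfsg.Statements.S1127
import Cfsg.Agent.H5.RankOne

set_option autoImplicit false
open Cfsg

namespace Cfsg.Agent.S1127

open Cfsg.Agent.H5.Invol Cfsg.Agent.H5.RankOne MulAction

/-- In the rank-one set-up (`G` finite and doubly transitive on `Ω`, `t` an involution moving `a`, `Q` normal in `G_a` with `G_a = Q D`, `Q ⊓ D = 1` for the two-point stabiliser `D = G_a ⊓ G_{t • a}`, `|Q|` even, `|D|` odd): if `s` is an involution of `G_a` and `r ∈ Q` satisfy `t s t = r⁻¹ t r`, then `C_D(t) = C_D(s)`; moreover `C_D(t) ⊓ C_D(K) = C_D(I ∩ G_a)`, where `K` is the set of elements of `D` inverted by `t` and `I ∩ G_a` the set of involutions of `G_a`. -/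
theorem result {G Ω : Type*} [Group G] [Finite G] [MulAction G Ω] {a : Ω} {t : G} {Q : Subgroup G}
    (hS : Cfsg.IsRankOneSetup G Ω a t Q) :
    (∀ s r : G, s ∈ Cfsg.involutionsIn (MulAction.stabilizer G a : Set G) → r ∈ Q → t * s * t = r⁻¹ * t * r →
        (MulAction.stabilizer G a ⊓ MulAction.stabilizer G (t • a)) ⊓ Subgroup.centralizer {t} = (MulAction.stabilizer G a ⊓ MulAction.stabilizer G (t • a)) ⊓ Subgroup.centralizer {s}) ∧
      (MulAction.stabilizer G a ⊓ MulAction.stabilizer G (t • a)) ⊓ Subgroup.centralizer {t} ⊓ Subgroup.centralizer (Cfsg.invertedBy (MulAction.stabilizer G a ⊓ MulAction.stabilizer G (t • a)) t) =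
        (MulAction.stabilizer G a ⊓ MulAction.stabilizer G (t • a)) ⊓ Subgroup.centralizer (Cfsg.involutionsIn (MulAction.stabilizer G a : Set G)) := by
  constructor
  · rintro s r ⟨hsa, hs1, hs⟩ hr e
    ext d
    simp only [Subgroup.mem_inf, Subgroup.mem_centralizer_singleton_iff]
    constructor
    · rintro ⟨hd, h⟩
      exact ⟨hd, (V_iff hS hsa hs1 hs hr e hd).1 h⟩
    · rintro ⟨hd, h⟩
      exact ⟨hd, (V_iff hS hsa hs1 hs hr e hd).2 h⟩
  · obtain ⟨s, r, hsa, hs1, hs, hr, e⟩ := structure_exists hS (exists_invol hS)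
    ext d
    simp only [Subgroup.mem_inf, Subgroup.mem_centralizer_singleton_iff]
    simp only [Subgroup.mem_centralizer_iff]
    constructor
    · rintro ⟨⟨hd, h⟩, hK⟩
      refine ⟨hd, ?_⟩
      rintro s' ⟨hsa', hs1', hs'⟩
      obtain ⟨k, hk, rfl⟩ := K_surj hS hsa hs1 hs hsa' hs1' hs'
      have h1 : Commute d s := (V_iff hS hsa hs1 hs hr e hd).1 h
      have h2 : Commute d k := (hK k hk).symm
      exact ((h2.inv_right.mul_right h1).mul_right h2).symm
    · rintro ⟨hd, hI⟩
      have h1 : d * s = s * d := (hI s ⟨hsa, hs1, hs⟩).symm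
      have h2 : d * t = t * d := (V_iff hS hsa hs1 hs hr e hd).2 h1
      refine ⟨⟨hd, h2⟩, ?_⟩
      intro k hk
      have hk' := inverted_conj hk hd h2
      have hsQ := invol_mem_Q hS hsa hs
      have h3 : (k⁻¹ * s * k) * d = d * (k⁻¹ * s * k) := by
        apply hI
        refine ⟨Q_fix_a hS (conj_Q' hS hk.1.1 hsQ), ?_, ?_⟩
        · intro h
          apply hs1
          calc s = k * (k⁻¹ * s * k) * k⁻¹ := by group
            _ = 1 := by rw [h]; group
        · calc k⁻¹ * s * k * (k⁻¹ * s * k) = k⁻¹ * (s * s) * k := by group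
            _ = 1 := by rw [hs]; group
      have h4 : d * k * d⁻¹ = k := by
        apply K_inj hS hsa hs1 hs hk' hk
        calc (d * k * d⁻¹)⁻¹ * s * (d * k * d⁻¹) = d * k⁻¹ * d⁻¹ * (s * d) * k * d⁻¹ := by group
          _ = (d * (k⁻¹ * s * k)) * d⁻¹ := by rw [← h1]; group
          _ = _ := by rw [← h3]; group
      calc k * d = (d * k * d⁻¹) * d := by rw [h4]
        _ = d * k := by group

end Cfsg.Agent.S1127
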