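import Cfsg.Statements.S1134
import Cfsg.Agent.H5.RankOne

set_option autoImplicit false
open Cfsg

namespace Cfsg.Agent.S1134

open Cfsg.Agent.H5.Invol Cfsg.Agent.H5.RankOne MulAction

/-- In the rank-one set-up (`G` finite and doubly transitive on `Ω`, `t` an involution moving `a`, `Q` normal in `G_a` with `G_a = Q D`, `Q ⊓ D = 1` for the two-point stabiliser `D = G_a ⊓ G_{t • a}`, `|Q|` even, `|D|` odd), with the action faithful and `G` containing two distinct commuting involutions, with `V = C_D(t)`: subsets of `V` conjugate in `G` are conjugate in `V`. -/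
theorem result {G Ω : Type*} [Group G] [Finite G] [MulAction G Ω] [FaithfulSMul G Ω] {a : Ω} {t : G} {Q : Subgroup G}
    (hS : Cfsg.IsRankOneSetup G Ω a t Q)
    (h2 : ∃ x y : G, x ≠ 1 ∧ y ≠ 1 ∧ x ≠ y ∧ x * x = 1 ∧ y * y = 1 ∧ x * y = y * x)
    (X : Set G) (hX : X ⊆ (((MulAction.stabilizer G a ⊓ MulAction.stabilizer G (t • a)) ⊓ Subgroup.centralizer {t} : Subgroup G) : Set G)) (g : G)
    (hY : (fun x => g * x * g⁻¹) '' X ⊆ (((MulAction.stabilizer G a ⊓ MulAction.stabilizer G (t • a)) ⊓ Subgroup.centralizer {t} : Subgroup G) : Set G)) :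
    ∃ v ∈ (MulAction.stabilizer G a ⊓ MulAction.stabilizer G (t • a)) ⊓ Subgroup.centralizer {t}, (fun x => v * x * v⁻¹) '' X = (fun x => g * x * g⁻¹) '' X := by
  obtain ⟨s, r, hsa, hs1, hs, hr, e⟩ := structure_exists hS (exists_invol hS)
  have hsQ := invol_mem_Q hS hsa hs
  set Y := (fun x => g * x * g⁻¹) '' X with hYdef
  have hV : ∀ x : G, x ∈ ((MulAction.stabilizer G a ⊓ MulAction.stabilizer G (t • a)) ⊓
      Subgroup.centralizer {t} : Subgroup G) → x ∈ DD G a t ∧ x * t = t * x := fun x hx =>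
    ⟨hx.1, Subgroup.mem_centralizer_singleton_iff.1 hx.2⟩
  have h3 : ∃ b c d : Ω, b ≠ c ∧ b ≠ d ∧ c ≠ d ∧ ∀ x ∈ Y, x • b = b ∧ x • c = c ∧ x • d = d := by
    refine ⟨a, t • a, s • t • a, (ta_ne hS).symm, (smul_ne_a hS hsa (ta_ne hS)).symm, ?_, ?_⟩
    · intro h
      exact hs1 (eq_one_of_Q_fix_ta hS hsQ h.symm)
    · intro y hy
      obtain ⟨h1, h2⟩ := hV y (hY hy)
      refine ⟨h1.1, h1.2, ?_⟩
      rw [← mul_smul, (V_iff hS hsa hs1 hs hr e h1).1 h2, mul_smul, (mem_DD.1 h1).2]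
  have hfix : ∀ b : Ω, (∀ x ∈ X, x • b = b) → ∀ y ∈ Y, y • g • b = g • b := by
    rintro b hb _ ⟨x, hx, rfl⟩
    show (g * x * g⁻¹) • g • b = g • b
    rw [mul_smul, mul_smul, inv_smul_smul, hb x hx]
  obtain ⟨c, hc, e1, e2⟩ := cent_two_trans hS h3
    (hfix a (fun x hx => (hV x (hX hx)).1.1)) (hfix (t • a) (fun x hx => (hV x (hX hx)).1.2))
    (fun y hy => (hV y (hY hy)).1.1) (fun y hy => (hV y (hY hy)).1.2)
    (fun h => ta_ne hS (smul_left_cancel g h).symm) (ta_ne hS).symm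
  have hd : c * g ∈ DD G a t := by
    rw [mem_DD, mul_smul, mul_smul]
    exact ⟨e1, e2⟩
  obtain ⟨v, k, hv, hvt, hk, e3⟩ := D_factor hS hd
  refine ⟨v, ⟨hv, Subgroup.mem_centralizer_singleton_iff.2 hvt⟩, ?_⟩
  apply Set.image_congr
  intro x hx
  have hy : g * x * g⁻¹ ∈ Y := ⟨x, hx, rfl⟩
  have e4 : (c * g) * x * (c * g)⁻¹ = g * x * g⁻¹ := by
    have := Subgroup.mem_centralizer_iff.1 hc _ hy
    calc (c * g) * x * (c * g)⁻¹ = (c * (g * x * g⁻¹)) * c⁻¹ := by group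
      _ = _ := by rw [← this]; group
  have e5 : (k * x * k⁻¹) * t = t * (k * x * k⁻¹) := by
    have e6 : k * x * k⁻¹ = v⁻¹ * (g * x * g⁻¹) * v := by
      rw [← e4, e3]; group
    have c1 : Commute v t := hvt
    have c2 : Commute (g * x * g⁻¹) t := (hV _ (hY hy)).2
    rw [e6]
    exact (c1.inv_left.mul_left c2).mul_left c1
  have hxt : x * t = t * x := (hV x (hX hx)).2
  have e7 : k * x * k⁻¹ = k⁻¹ * x * k := by
    calc k * x * k⁻¹ = t * (t * (k * x * k⁻¹)) := by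
          rw [← mul_assoc, hS.mul_self, one_mul]
      _ = t * (k * x * k⁻¹ * t) := by rw [e5]
      _ = t * k * (t * t) * x * (t * t) * k⁻¹ * t := by rw [hS.mul_self]; group
      _ = (t * k * t) * (t * (x * t)) * (t * k⁻¹ * t) := by group
      _ = _ := by rw [K_t hS hk, hxt, ← mul_assoc t t x, hS.mul_self, one_mul, K_t' hS hk]
  have e8 : Commute (k * k) x := by
    show k * k * x = x * (k * k)
    calc k * k * x = k * (k * x * k⁻¹) * k := by simp only [mul_assoc, inv_mul_cancel, mul_one]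
      _ = _ := by rw [e7]; simp only [mul_assoc, mul_inv_cancel_left]
  have e9 : Commute k x := commute_of_sq_commute (odd_D hS) hk.1 e8
  rw [← e4, e3]
  calc v * x * v⁻¹ = v * (x * k) * k⁻¹ * v⁻¹ := by group
    _ = _ := by rw [← e9.eq]; group

end Cfsg.Agent.S1134
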