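import Cfsg.Statements.S1135
import Cfsg.Agent.H5.RankOne

set_option autoImplicit false
open Cfsg

namespace Cfsg.Agent.S1135

open Cfsg.Agent.H5.Invol Cfsg.Agent.H5.RankOne MulAction

/-- In the rank-one set-up (`G` finite and doubly transitive on `Ω`, `t` an involution moving `a`, `Q` normal in `G_a` with `G_a = Q D`, `Q ⊓ D = 1` for the two-point stabiliser `D = G_a ⊓ G_{t • a}`, `|Q|` even, `|D|` odd), with the action faithful and `G` containing two distinct commuting involutions: if `x = u v` with `u, v` involutions and `x² ≠ 1`, then `x` is conjugate to `u' t` for some involution `u'` of `G_a`, and `|C_G(x)|` is odd. -/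
theorem result {G Ω : Type*} [Group G] [Finite G] [MulAction G Ω] [FaithfulSMul G Ω] {a : Ω} {t : G} {Q : Subgroup G}
    (hS : Cfsg.IsRankOneSetup G Ω a t Q)
    (h2 : ∃ x y : G, x ≠ 1 ∧ y ≠ 1 ∧ x ≠ y ∧ x * x = 1 ∧ y * y = 1 ∧ x * y = y * x)
    (u v : G) (hu1 : u ≠ 1) (hu2 : u * u = 1) (hv1 : v ≠ 1) (hv2 : v * v = 1) (hx : (u * v) * (u * v) ≠ 1) :
    (∃ g : G, ∃ u' ∈ Cfsg.involutionsIn (MulAction.stabilizer G a : Set G), g * (u * v) * g⁻¹ = u' * t) ∧
      Odd (Nat.card ↥(Subgroup.centralizer {u * v})) := by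
  have hnot : ∀ p : Ω, u • p = p → v • p = p → False := by
    intro p hup hvp
    apply hx
    have := invol_commute hS hu2 hv2 hup hvp
    calc u * v * (u * v) = u * (v * u) * v := by group
      _ = (u * u) * (v * v) := by rw [← this]; simp only [mul_assoc]
      _ = 1 := by rw [hu2, hv2, mul_one]
  constructor
  · obtain ⟨g, hg⟩ := invol_conj_t hS hv1 hv2
    obtain ⟨b, hb⟩ := invol_exists_fix hS hu2
    obtain ⟨c, hc⟩ := invol_exists_fix hS hS.mul_self
    have hbc : g • b ≠ c := by
      intro h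
      apply hnot b hb
      rw [← h, ← hg, mul_smul, mul_smul, inv_smul_smul] at hc
      exact smul_left_cancel g hc
    have hac : a ≠ c := by
      rintro rfl
      exact ta_ne hS hc
    obtain ⟨t', Q', hS'⟩ := setup_at' hS c
    obtain ⟨y, hy, e⟩ := Q_trans hS' hbc hac
    have hyt := invol_central hS' hc hS.mul_self hy
    refine ⟨y * g, (y * g) * u * (y * g)⁻¹, ⟨?_, ?_, ?_⟩, ?_⟩
    · show ((y * g) * u * (y * g)⁻¹) • a = a
      rw [← e, ← mul_smul y g, mul_smul, mul_smul, inv_smul_smul, hb]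
    · intro h
      apply hu1
      calc u = (y * g)⁻¹ * ((y * g) * u * (y * g)⁻¹) * (y * g) := by group
        _ = 1 := by rw [h]; group
    · calc (y * g) * u * (y * g)⁻¹ * ((y * g) * u * (y * g)⁻¹) = (y * g) * (u * u) * (y * g)⁻¹ := by
            group
        _ = 1 := by rw [hu2]; group
    · calc y * g * (u * v) * (y * g)⁻¹ = (y * g) * u * (y * g)⁻¹ * (y * (g * v * g⁻¹) * y⁻¹) := by
            group
        _ = _ := by rw [hg, ← hyt]; group
  · apply odd_card_of_no_involution
    intro w hw hw2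
    by_contra hw1
    have hc : w * (u * v) = (u * v) * w := Subgroup.mem_centralizer_singleton_iff.1 hw
    obtain ⟨p, hp⟩ := invol_exists_fix hS hw2
    have hxp : (u * v) • p = p := fix_of_commute hS hw1 hw2 hp hc.symm
    have huu : ∀ b : Ω, u • u • b = b := fun b => by rw [← mul_smul, hu2, one_smul]
    by_cases hup : u • p = p
    · apply hnot p hup
      rw [mul_smul] at hxp
      rw [← huu (v • p), hxp, hup]
    obtain ⟨Q', hS'⟩ := setup_at hS p hu2 hup
    have hinv : u * (u * v) * u⁻¹ = (u * v)⁻¹ := by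
      rw [mul_inv_rev, inv_eq_of_mul_self hu2, inv_eq_of_mul_self hv2, ← mul_assoc, hu2, one_mul]
    have hK : u * v ∈ invertedBy (DD G p u) u := by
      refine ⟨⟨hxp, ?_⟩, hinv⟩
      show (u * v) • u • p = u • p
      have h1 : (u * v)⁻¹ • p = p := by rw [inv_smul_eq_iff, hxp]
      rw [← hinv, inv_eq_of_mul_self hu2, mul_smul, mul_smul] at h1
      rw [← huu ((u * v) • u • p), h1]
    have hx1 : u * v ≠ 1 := by
      intro h
      apply hx
      rw [h, one_mul]
    exact hw1 (K_fpf hS' hK hx1 (invol_mem_Q hS' hp hw2) hc.symm)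

end Cfsg.Agent.S1135
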