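import Cfsg.Statements.S1141
import Cfsg.Agent.H5.U3Syl

set_option autoImplicit false
open Cfsg

namespace Cfsg.Agent.S1141

/-- Let `q = 2^n ≥ 4` and `|F| = q²`. A Sylow 2-subgroup `S` of `PSU₃(q)` has order `q³`, its centre has order `q`, and `S` is a Suzuki 2-group. -/
theorem result {F : Type*} [Field F] [Fintype F] {n : ℕ} (hn : 2 ≤ n)
    (hF : Fintype.card F = (2 ^ n) ^ 2) (S : Sylow 2 (Cfsg.PSU 3 F (2 ^ n))) :
    Nat.card S = (2 ^ n) ^ 3 ∧ Nat.card (Subgroup.center ↥(S : Subgroup (Cfsg.PSU 3 F (2 ^ n)))) = 2 ^ n ∧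
      Cfsg.IsSuzukiTwoGroup ↥(S : Subgroup (Cfsg.PSU 3 F (2 ^ n))) := by
  haveI : CharP F 2 := by
    obtain ⟨p, hp⟩ := CharP.exists F
    obtain ⟨k, h1, h2⟩ := FiniteField.card F p
    have : p ∣ 2 ^ (n * 2) := by
      rw [pow_mul, ← hF, h2]
      exact dvd_pow_self p k.ne_zero
    rwa [(Nat.prime_dvd_prime_iff_eq h1 Nat.prime_two).1 (h1.dvd_of_dvd_pow this)] at hp
  have hq : ∀ x, iterateFrobenius F 2 n x = x ^ 2 ^ n := fun x => rfl
  haveI : Fact (∀ x, iterateFrobenius F 2 n (iterateFrobenius F 2 n x) = x) := ⟨fun x => by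
    rw [hq, hq, ← pow_mul, ← sq, ← hF, FiniteField.pow_card]⟩
  have h2 : 2 < 2 ^ n := lt_of_lt_of_le (by norm_num) (Nat.pow_le_pow_right (by norm_num) hn)
  obtain ⟨e⟩ := H5.U3Syl.exists_equiv hq hF h2 S
  exact ⟨(Nat.card_congr e.toEquiv).trans (H5.U3Syl.card_PP hq hF h2),
    (Nat.card_congr (Subgroup.centerCongr e).toEquiv).trans (H5.U3Syl.card_center hq hF h2),
    H5.U3Syl.suzuki_congr e (H5.U3Syl.suzuki hq hF h2)⟩

end Cfsg.Agent.S1141
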