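import Cfsg.Statements.S1142
import Cfsg.Agent.H1.BN
import Cfsg.Agent.H1.FHNum

set_option autoImplicit false
open Cfsg

namespace Cfsg.Agent.S1142

open H1.BN H1.FHAlg

/-- Feit–Higman: if a finite group has a (B,N)-pair of rank 2, its Weyl group `N/(B ⊓ N)` has order 4, 6, 8, 12 or 16. -/
theorem result {G : Type*} [Group G] [Finite G] (P : Cfsg.BNPair G)
    (h2 : P.rank = 2) :
    ((P.B ⊓ P.N).subgroupOf P.N).index ∈ ({4, 6, 8, 12, 16} : Set ℕ) := by
  classical
  obtain ⟨s, t, hst, hS⟩ := Set.ncard_eq_two.1 h2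
  have hs : s ∈ P.S := by simp [hS]
  have ht : t ∈ P.S := by simp [hS]
  have hnormal : ((P.B ⊓ P.N).subgroupOf P.N).Normal := ⟨fun x hx n => by
    rw [Subgroup.mem_subgroupOf] at hx ⊢
    exact ⟨P.conj_mem n n.2 x hx, (n * x * n⁻¹).2⟩⟩
  let π := QuotientGroup.mk' ((P.B ⊓ P.N).subgroupOf P.N)
  have hπ : ∀ n : P.N, π n = 1 ↔ (n : G) ∈ P.B := fun n => by
    rw [QuotientGroup.mk'_apply, QuotientGroup.eq_one_iff, Subgroup.mem_subgroupOf]
    exact ⟨fun h => h.1, fun h => ⟨h, n.2⟩⟩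
  let s' : P.N := ⟨s, P.subset hs⟩
  let t' : P.N := ⟨t, P.subset ht⟩
  have hss : π s' * π s' = 1 := by
    rw [← map_mul, hπ]
    exact P.sq_mem s hs
  have htt : π t' * π t' = 1 := by
    rw [← map_mul, hπ]
    exact P.sq_mem t ht
  have hgen : Subgroup.closure {π s', π t'} = ⊤ := by
    rw [eq_top_iff]
    intro w _
    obtain ⟨n, rfl⟩ := QuotientGroup.mk'_surjective _ w
    have h1 : P.N ≤ ((Subgroup.closure {π s', π t'}).comap π).map P.N.subtype := by
      conv_lhs => rw [← P.closure_sup]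
      refine sup_le ((Subgroup.closure_le _).2 ?_) fun x hx => ⟨⟨x, hx.2⟩, ?_, rfl⟩
      · rw [hS]
        rintro x (rfl | rfl)
        · exact ⟨s', Subgroup.subset_closure (by simp), rfl⟩
        · exact ⟨t', Subgroup.subset_closure (by simp), rfl⟩
      · change π _ ∈ Subgroup.closure _
        rw [(hπ ⟨x, hx.2⟩).2 hx.1]
        exact one_mem _
    obtain ⟨n', hn', h3⟩ := h1 n.2
    rw [← Subtype.ext h3]
    exact hn'
  have hcard := card_dihedral hss htt (fun h => notMem hs ((hπ s').1 h))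
    (fun h => notMem ht ((hπ t').1 h)) hgen
  rw [Subgroup.index, hcard]
  set m := orderOf (π s' * π t') with hm
  have hm1 : ∀ k, (alt s t k)⁻¹ * alt t s k ∈ P.B ↔ m ∣ k := by
    intro k
    have h1 : (alt s t k)⁻¹ * alt t s k = ((alt s' t' k)⁻¹ * alt t' s' k : P.N) := by
      rw [← P.N.coe_subtype, map_mul, map_inv, map_alt, map_alt]
      rfl
    rw [h1, ← hπ, map_mul, map_inv, map_alt, map_alt, inv_mul_eq_one, alt_eq_pow_mul hss htt,
      mul_eq_right, orderOf_dvd_iff_pow_eq_one]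
  have hm2 : ∀ k, (s * t) ^ k ∈ P.B → m ∣ k := by
    intro k hk
    rw [orderOf_dvd_iff_pow_eq_one, ← map_mul, ← map_pow, hπ]
    exact hk
  have hm0 : 0 < m := orderOf_pos _
  have hm1' : m ≠ 1 := by
    intro h
    have := (hm1 1).2 (by rw [h])
    simp only [alt_succ, alt_zero, mul_one] at this
    exact hst (P.inj s hs t ht this)
  by_cases h5 : m < 5
  · have : m = 2 ∨ m = 3 ∨ m = 4 := by omega
    rcases this with h | h | h <;> simp [h]
  have : Fintype (G ⧸ P.B) := Fintype.ofFinite _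
  obtain ⟨a, ha, hX⟩ := quad hs
  obtain ⟨b, hb, hY⟩ := quad ht
  let φ := Matrix.toLinAlgEquiv' (R := ℂ) (n := G ⧸ P.B)
  have htr : ∀ M, LinearMap.trace ℂ _ (φ M) = M.trace := fun M => Matrix.trace_toLin'_eq M
  have hbr : alt (mat P.B s) (mat P.B t) m = alt (mat P.B t) (mat P.B s) m := by
    rw [alt_mat hs ht (fun k => (hm1 k).1) le_rfl,
      alt_mat ht hs (fun k hk => (hm1 k).1 (by simpa using inv_mem hk)) le_rfl]
    exact (mat_congr (DC.of_mem ((hm1 m).2 dvd_rfl))).symm
  have := H1.FHNum.feit_higman (X := φ (mat P.B s)) (Y := φ (mat P.B t)) (a := a) (b := b) (m := m)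
    (by rw [Quad, ← map_mul, hX, map_add, map_smul, map_smul, map_one])
    (by rw [Quad, ← map_mul, hY, map_add, map_smul, map_smul, map_one]) ha hb
    (by rw [Module.finrank_fintype_fun_eq_card]; exact Fintype.card_pos) (by omega)
    (by rw [htr, trace_mat (notMem hs)]) (by rw [htr, trace_mat (notMem ht)])
    (fun k hk hk' => by
      rw [← map_mul, ← map_pow, htr, trace_pow hs ht (fun k => (hm1 k).1) hk'.le fun h =>
        absurd (Nat.le_of_dvd hk (hm2 k h)) (by omega)])
    (fun n hn => by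
      rw [← alt_two_mul, ← alt_two_mul, ← hn, ← map_alt, ← map_alt, hbr])
    (fun n hn => by
      rw [← alt_two_mul_add_one, ← alt_two_mul_add_one, ← hn, ← map_alt, ← map_alt, hbr])
  rcases this with h | h <;> simp [h]

end Cfsg.Agent.S1142
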