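import Cfsg.Statements.S1148
import Cfsg.Agent.ON.G
import Cfsg.Agent.ON.H
import Cfsg.Agent.H1.BN

set_option autoImplicit false
open Cfsg

namespace Cfsg.Agent.S1148

set_option maxHeartbeats 400000

open MulAction Subgroup Cfsg.Agent.ON Cfsg.Agent.H4.Basic Cfsg.Agent.H4.Zass Cfsg.Agent.H1.BN

theorem fi {G Ω : Type*} [Group G] [MulAction G Ω] {a b : Ω} {U H : Subgroup G} {p n d m : ℕ}
    {j s : G} {E : Type*} [Field E] [Fintype E] {σ : E →+* E} {A lam : G → E} [Finite G] [Finite Ω]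
    [FaithfulSMul G Ω] [IsSimpleGroup G] (C : Co a b U H p n d m j s σ A lam) :
    ∃ A B : G → E, Fi a b U s σ A B := by
  obtain ⟨c, c0, cσ, hc⟩ := C.ex_c
  have nm : ∀ t, σ t = t → ∃ ξ, ξ * σ ξ = t := fun t ht => by
    by_cases h : t = 0
    · exact ⟨0, by simp [h]⟩
    · exact (C.norm' h ht).elim fun _ h => ⟨_, h.2⟩
  obtain ⟨κ, hκ⟩ := nm (2 / c) (by rw [map_div₀, cσ, map_ofNat])
  have κ0 := left_ne_zero_of_mul (hκ ▸ div_ne_zero C.two0 c0)
  rw [eq_div_iff c0] at hκ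
  refine ⟨fun x => κ * A x, C.B, C.ker, C.ab, C.sa, C.sb, C.σσ, C.two0, C.ex_eps, nm,
    by simp [C.A_Z (one_mem _)], C.B_one, fun hu hv => by rw [C.A_mul hu hv, mul_add],
    fun {u v} hu hv => mul_left_cancel₀ c0 ?_, fun {u} hu => mul_left_cancel₀ c0 ?_,
    fun hu hv e => C.AB_inj c0 cσ hc hu hv (mul_left_cancel₀ κ0 e), fun {ξ y} h => ?_,
    fun hu h1 => ?_, fun K hU hs => ?_⟩
  · rw [C.B_mul c0 cσ hc hu hv, map_mul]; linear_combination -σ (A u) * A v * hκ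
  · rw [C.B_tr c0 cσ hc hu, map_mul]; linear_combination -σ (A u) * A u * hκ
  · obtain ⟨u, hu, h1, h2⟩ := C.AB_surj c0 cσ hc (ξ := ξ / κ) (y := y) (by
      have := (map_ne_zero σ).2 κ0
      rw [h, map_div₀, ← hκ]; field_simp)
    exact ⟨u, hu, by rw [h1, mul_div_cancel₀ _ κ0], h2⟩
  · obtain ⟨h2, h3, h4⟩ := C.B_f c0 cσ hc hu h1
    exact ⟨h2, _, C.fU hu h1, C.fb hu h1, by rw [h3, mul_div_assoc], h4⟩
  · obtain ⟨z, hz, z1⟩ := C.exZ
    have h1 : normalClosure (U : Set G) = ⊤ :=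
      (IsSimpleGroup.eq_bot_or_eq_top_of_normal (normalClosure (U : Set G))
        inferInstance).resolve_left fun e =>
        z1 (mem_bot.1 (e.le (le_normalClosure hz.1)))
    refine top_le_iff.1 (h1.ge.trans ((closure_le K).2 fun x hx => ?_))
    obtain ⟨u, hu, e⟩ := Group.mem_conjugatesOfSet_iff.1 hx
    obtain ⟨g, rfl⟩ := isConj_iff.1 e
    rcases C.pt (g • a) with e | ⟨v, hv, e⟩
    · exact hU (C.ker.norm g e u hu)
    · have := mul_mem (mul_mem (mul_mem (hU hv) hs) (hU (C.ker.norm ((v * s)⁻¹ * g) (by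
        rw [mul_smul, ← e, inv_smul_eq_iff, mul_smul, C.sa]) u hu))) (inv_mem (mul_mem (hU hv) hs))
      simpa [mul_assoc] using this


/-- Let `G` be finite simple with a (B,N)-pair of rank 1, `B = U H` with `U` nilpotent normal in `B`, `H = B ⊓ N`, `U ⊓ H = 1`, where `[G : B] = p^(3n) + 1` for an odd prime `p`, `|U| = p^(3n)` and `H` is cyclic of order `(p^(2n) - 1)/gcd(3, p^n + 1)`. Then `G ≅ PSU₃(p^n)`. -/
theorem result {G : Type*} [Group G] [Finite G] [IsSimpleGroup G]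
    (P : Cfsg.BNPair G) (h1 : P.rank = 1) {p n : ℕ} (hp : p.Prime) (hp2 : p ≠ 2) (hn : 1 ≤ n)
    (U : Subgroup G) (hUB : U ≤ P.B) (hUn : ∀ b ∈ P.B, ∀ u ∈ U, b * u * b⁻¹ ∈ U)
    (hUnil : Group.IsNilpotent U) (hsplit : U ⊔ (P.B ⊓ P.N) = P.B) (hdisj : U ⊓ (P.B ⊓ P.N) = ⊥)
    (hind : P.B.index = p ^ (3 * n) + 1) (hU : Nat.card U = p ^ (3 * n))
    (hHc : IsCyclic ↥(P.B ⊓ P.N))
    (hH : Nat.gcd 3 (p ^ n + 1) * Nat.card ↥(P.B ⊓ P.N) = p ^ (2 * n) - 1) :
    ∃ (F : Type) (_ : Field F) (_ : Fintype F), Fintype.card F = (p ^ n) ^ 2 ∧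
      Nonempty (G ≃* Cfsg.PSU 3 F (p ^ n)) := by
  obtain ⟨s, hS⟩ := Set.ncard_eq_one.1 h1
  have hs : s ∈ P.S := by simp [hS]
  have hsN : s ∈ P.N := P.subset hs
  have br : ∀ g, g ∈ P.B ∨ DC P.B g s := fun g => by
    let K : Subgroup G :=
      { carrier := {g | g ∈ P.B ∨ DC P.B g s}
        one_mem' := .inl (one_mem _)
        mul_mem' := by
          rintro x y (hx | hx) (hy | hy)
          · exact .inl (mul_mem hx hy)
          · exact .inr (DC.trans ⟨x, hx, 1, one_mem _, (mul_one _).symm⟩ hy)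
          · exact .inr (DC.trans ⟨1, one_mem _, y, hy, by rw [one_mul]⟩ hx)
          · exact (left hs hsN hx hy).imp_left fun h =>
              dc_one.1 (h.trans (dc_one.2 (P.sq_mem s hs)))
        inv_mem' := fun h => h.imp inv_mem fun h => h.inv.trans (dc_inv hs) }
    have hB : P.B ≤ K := fun _ h => .inl h
    exact (show K = ⊤ from top_le_iff.1 (P.sup_eq_top ▸ sup_le hB (P.closure_sup ▸ sup_le
      ((closure_le _).2 (hS ▸ Set.singleton_subset_iff.2 (.inr (DC.refl _ _))))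
      (inf_le_left.trans hB)))).ge (mem_top g)
  let a : G ⧸ P.B := ((1 : G) : G ⧸ P.B)
  have st : ∀ {g : G}, g • a = a ↔ g ∈ P.B := fun {g} => by
    rw [← mem_stabilizer_iff, stabilizer_quotient]
  have ab : a ≠ s • a := fun e => notMem hs (st.1 e.symm)
  have Hb : ∀ h ∈ P.B ⊓ P.N, h • s • a = s • a := fun h hh => by
    rw [← inv_smul_eq_iff, ← mul_smul, ← mul_smul, st]
    simpa using P.conj_mem s⁻¹ (inv_mem hsN) h hh
  have dec : ∀ g ∈ P.B, ∃ u ∈ U, ∃ h ∈ P.B ⊓ P.N, g = u * h := fun g hg => by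
    have : g ∈ ((U ⊔ (P.B ⊓ P.N) : Subgroup G) : Set G) := hsplit.ge hg
    rw [coe_mul_of_right_le_normalizer_left U (P.B ⊓ P.N) fun h hh => mem_normalizer_iff.2 fun u =>
      ⟨hUn h hh.1 u, fun e => by simpa [mul_assoc] using hUn _ (inv_mem hh.1) _ e⟩] at this
    obtain ⟨u, hu, h, hh, rfl⟩ := this
    exact ⟨u, hu, h, hh, rfl⟩
  have tr : ∀ x, x ≠ a → ∃ u ∈ U, u • s • a = x := fun x hx => by
    obtain ⟨g, rfl⟩ := exists_smul_eq G a x
    obtain ⟨c, hc, c', hc', rfl⟩ := (br g).resolve_left fun e => hx (st.2 e)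
    obtain ⟨u, hu, h, hh, rfl⟩ := dec c hc
    exact ⟨u, hu, by rw [mul_smul, mul_smul, mul_smul, st.2 hc', Hb h hh]⟩
  have ne : ∀ u ∈ U, u • s • a ≠ a := fun u hu e =>
    ab (smul_left_cancel u ((st.2 (hUB hu)).trans e.symm))
  have inj : ∀ u ∈ U, u • s • a = s • a → u = 1 := fun u hu e => by
    have := Function.Surjective.bijective_of_nat_card_le
      (f := fun u : U => (⟨u.1 • s • a, ne u u.2⟩ : {x // x ≠ a}))
      (fun x => (tr x x.2).elim fun u h => ⟨⟨u, h.1⟩, Subtype.ext h.2⟩) (by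
        have := Set.ncard_add_ncard_compl ({a} : Set (G ⧸ P.B))
        rw [Set.ncard_singleton, ← index_eq_card, hind] at this
        change _ ≤ ({a}ᶜ : Set (G ⧸ P.B)).ncard
        omega)
    exact congrArg Subtype.val (this.1 (a₁ := ⟨u, hu⟩) (a₂ := 1) (Subtype.ext (by simpa using e)))
  have ker : IsKer a U := ⟨fun u hu => st.2 (hUB hu), fun g hg => hUn g (st.1 hg), fun y z hy hz => by
    obtain ⟨u, hu, rfl⟩ := tr y hy
    obtain ⟨v, hv, rfl⟩ := tr z hz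
    refine ⟨⟨v * u⁻¹, mul_mem hv (inv_mem hu)⟩, by simp [mul_smul], fun w hw => Subtype.ext ?_⟩
    rw [eq_mul_inv_iff_mul_eq, eq_comm, ← inv_mul_eq_one]
    exact inj _ (mul_mem (inv_mem hv) (mul_mem w.2 hu)) (by
      rw [mul_smul, mul_smul, hw, inv_smul_smul])⟩
  have two : IsMultiplyPretransitive G (G ⧸ P.B) 2 := by
    have key : ∀ x y : G ⧸ P.B, x ≠ y → ∃ g : G, g • a = x ∧ g • s • a = y := fun x y h => by
      obtain ⟨g, rfl⟩ := exists_smul_eq G a x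
      obtain ⟨u, hu, e⟩ := tr (g⁻¹ • y) fun e => h (by rw [← e, smul_inv_smul])
      exact ⟨g * u, by rw [mul_smul, ker.fix u hu], by rw [mul_smul, e, smul_inv_smul]⟩
    refine is_two_pretransitive_iff.2 fun {x y z w} h h' => ?_
    obtain ⟨g, rfl, rfl⟩ := key x y h
    obtain ⟨g', rfl, rfl⟩ := key z w h'
    exact ⟨g' * g⁻¹, by simp [mul_smul], by simp [mul_smul]⟩
  haveI : FaithfulSMul G (G ⧸ P.B) := ⟨fun e => (MonoidHom.ker_eq_bot_iff (toPermHom G (G ⧸ P.B))).1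
    ((MonoidHom.normal_ker _).eq_bot_or_eq_top.resolve_right fun e =>
      ab (congrArg (· a) (MonoidHom.mem_ker.1 (e.ge (mem_top s)))).symm) (Equiv.ext e)⟩
  have q1 := Nat.odd_iff.1 ((hp.odd_of_ne_two hp2).pow (n := n))
  have p3 : 3 ≤ p := by have := hp.two_le; omega
  have q3 : 3 ≤ p ^ n := p3.trans (Nat.le_self_pow (by omega) p)
  obtain ⟨m, hm⟩ := Nat.gcd_dvd_right 3 (p ^ n + 1)
  have hd := (Nat.dvd_prime Nat.prime_three).1 (Nat.gcd_dvd_left 3 (p ^ n + 1))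
  generalize Nat.gcd 3 (p ^ n + 1) = d at *
  have cH : Nat.card ↥(P.B ⊓ P.N) = (p ^ n - 1) * m := by
    apply Nat.eq_of_mul_eq_mul_left (show 0 < d by omega)
    rw [hH, mul_left_comm, ← hm, mul_comm 2, pow_mul, mul_comm, ← Nat.sq_sub_sq]
  obtain ⟨j, hj, j2, j1⟩ := exists_involution_of_even (P.B ⊓ P.N) (by
    rw [cH]; exact (Nat.even_iff.2 (by omega)).mul_right _)
  obtain ⟨g, g1, g2⟩ := exists_conj_swap two j2 j1 ab
  have S : Su a (s • a) U (P.B ⊓ P.N) p n d m j (g * j * g⁻¹) :=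
    ⟨ker, ab, two, fun {x} => ⟨fun h => ⟨st.2 h.1, Hb x h⟩, fun h => by
      obtain ⟨u, hu, k, hk, rfl⟩ := dec x (st.1 h.1)
      rwa [inj u hu (by simpa only [mul_smul, Hb k hk] using h.2), one_mul]⟩,
      hHc, hp, p3, by omega, by rw [hU, mul_comm, pow_mul], hm, hd, cH, hj, j2, j1,
      isConj_iff.2 ⟨g, rfl⟩, g1, g2⟩
  haveI := Fact.mk hp
  haveI := Fintype.ofFinite (GaloisField p (2 * n))
  have cE : Fintype.card (GaloisField p (2 * n)) = (p ^ n) ^ 2 := by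
    rw [← Nat.card_eq_fintype_card, GaloisField.card p _ (by omega), mul_comm, pow_mul]
  obtain ⟨A, lam, C⟩ := S.exists_co (σ := iterateFrobenius _ p n) cE fun _ => rfl
  obtain ⟨A, B, z⟩ := fi C
  exact ⟨_, inferInstance, inferInstance, cE, z.psu fun _ => rfl⟩

end Cfsg.Agent.S1148
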