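import Cfsg.Statements.S1151
import Cfsg.Agent.H9.ReeFacts1

set_option autoImplicit false
open Cfsg

namespace Cfsg.Agent.S1151

/-- In the small Ree group ²G₂(q), q = 3^(2m+1), realised as G¹ inside the Chevalley group G₂ over the field with q elements (θ the 3^m-th power map), with H¹ = G¹ ∩ H and U¹ = G¹ ∩ U the intersections with the ambient diagonal and positive unipotent subgroups: `H¹` has exactly `(q - 1)/2` elements of odd order, and each non-identity one centralises no non-identity element of `U¹`. -/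
theorem result {K : Type*} [Field K] [Fintype K] {m : ℕ} (hK : Fintype.card K = 3 ^ (2 * m + 1)) :
    2 * Nat.card {h : ↥(Cfsg.Lie.chevG2.diagonalSubgroup K ⊓ Cfsg.Lie.twistedG2 K (3 ^ m)) // Odd (orderOf h)} = 3 ^ (2 * m + 1) - 1 ∧
      ∀ h ∈ (Cfsg.Lie.chevG2.diagonalSubgroup K ⊓ Cfsg.Lie.twistedG2 K (3 ^ m)), h ≠ 1 → Odd (orderOf h) →
        (Cfsg.Lie.chevG2.posUnipotent K ⊓ Cfsg.Lie.twistedG2 K (3 ^ m)) ⊓ Subgroup.centralizer {h} = ⊥ := by
  letI := H9.Ree.twF hK
  haveI := H9.Ree.charP_three hK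
  haveI := (H9.Ree.model hK).isCyclic_H
  have e := H9.Ree.infEquiv _ (H9.Ree.model_H hK)
  constructor
  · haveI : IsCyclic ↥(Cfsg.Lie.chevG2.diagonalSubgroup K ⊓ Cfsg.Lie.twistedG2 K (3 ^ m)) :=
      isCyclic_of_surjective _ e.surjective
    have h1 : Nat.card ↥(Cfsg.Lie.chevG2.diagonalSubgroup K ⊓ Cfsg.Lie.twistedG2 K (3 ^ m)) = 3 ^ (2 * m + 1) - 1 := by
      rw [← Nat.card_congr e.toEquiv, (H9.Ree.model hK).card_H, Nat.card_eq_fintype_card, hK]
    have h8 := H9.Ree.three_pow_mod_eight m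
    generalize 3 ^ (2 * m + 1) = q at h1 h8 ⊢
    rw [H9.Ree.card_odd_order (n := (q - 1) / 2) (by rw [Nat.odd_iff]; omega) (by rw [h1]; omega)]
    omega
  · rintro h ⟨hh, hG⟩ h1 hodd
    rw [eq_bot_iff]
    rintro u ⟨⟨hu, huG⟩, hc⟩
    have hc' : h * u = u * h := (Subgroup.mem_centralizer_singleton_iff.mp hc).symm
    have := (H9.Ree.model hK).comm_H_U (h := ⟨h, hG⟩) (u := ⟨u, huG⟩) ((H9.Ree.model_H hK _).mpr hh)
      (fun e => h1 (congrArg Subtype.val e)) ?_ ((H9.Ree.model_U hK _).mpr hu) (Subtype.ext hc')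
    · exact congrArg Subtype.val this
    · intro ha
      have h2 := (H9.Ree.model hK).orderOf_a
      rw [← ha, ← Subgroup.orderOf_coe] at h2
      rw [h2] at hodd
      exact absurd hodd (by decide)

end Cfsg.Agent.S1151
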