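import Cfsg.Statements.S1163
import Cfsg.Agent.H9.SzApi

set_option autoImplicit false
open Cfsg

namespace Cfsg.Agent.S1163

/-- For the Suzuki group Sz(q), q = 2^(2m+1) ≥ 8, realised as the elements g of Sp₄(F) with g* = g^θ (θ the 2^(m+1)-th power map, so that θ² is squaring): `|Sz(q)| = q² (q - 1) (q² + 1)`, and there is a Sylow 2-subgroup `S` whose normaliser `H` has order `q²(q-1)` and index `q² + 1`, the action of `Sz(q)` on the cosets of `H` is doubly transitive, and `S` acts regularly on the cosets other than `H` itself. -/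
theorem result {F : Type*} [Field F] [Fintype F] {m : ℕ} (hm : 1 ≤ m) (hF : Fintype.card F = 2 ^ (2 * m + 1)) :
    Nat.card ↥(Cfsg.Lie.Sz F (2 ^ (m + 1))) = (2 ^ (2 * m + 1)) ^ 2 * (2 ^ (2 * m + 1) - 1) * ((2 ^ (2 * m + 1)) ^ 2 + 1) ∧
    ∃ S : Sylow 2 ↥(Cfsg.Lie.Sz F (2 ^ (m + 1))),
      Nat.card (Subgroup.normalizer ((S : Subgroup ↥(Cfsg.Lie.Sz F (2 ^ (m + 1)))) : Set ↥(Cfsg.Lie.Sz F (2 ^ (m + 1))))) = (2 ^ (2 * m + 1)) ^ 2 * (2 ^ (2 * m + 1) - 1) ∧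
      (Subgroup.normalizer ((S : Subgroup ↥(Cfsg.Lie.Sz F (2 ^ (m + 1)))) : Set ↥(Cfsg.Lie.Sz F (2 ^ (m + 1))))).index = (2 ^ (2 * m + 1)) ^ 2 + 1 ∧
      MulAction.IsMultiplyPretransitive ↥(Cfsg.Lie.Sz F (2 ^ (m + 1))) (↥(Cfsg.Lie.Sz F (2 ^ (m + 1))) ⧸ Subgroup.normalizer ((S : Subgroup ↥(Cfsg.Lie.Sz F (2 ^ (m + 1)))) : Set ↥(Cfsg.Lie.Sz F (2 ^ (m + 1))))) 2 ∧
      ∀ x y : ↥(Cfsg.Lie.Sz F (2 ^ (m + 1))) ⧸ Subgroup.normalizer ((S : Subgroup ↥(Cfsg.Lie.Sz F (2 ^ (m + 1)))) : Set ↥(Cfsg.Lie.Sz F (2 ^ (m + 1)))),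
        x ≠ (QuotientGroup.mk 1) → y ≠ (QuotientGroup.mk 1) → ∃! s : ↥(S : Subgroup ↥(Cfsg.Lie.Sz F (2 ^ (m + 1)))), (s : ↥(Cfsg.Lie.Sz F (2 ^ (m + 1)))) • x = y := by
  letI := H9.Suz.tw2 hF
  haveI := H9.Suz.charP_two hF
  have hK' : Nat.card F = 2 ^ (2 * m + 1) := by rw [Nat.card_eq_fintype_card, hF]
  let M := H9.Suz.model hF
  rw [← hK']
  obtain ⟨S, hS⟩ : ∃ S : Sylow 2 ↥(Cfsg.Lie.Sz F (2 ^ (m + 1))), (S : Subgroup _) = M.R.U :=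
    ⟨M.R.sylowU M.isPGroup_U M.U_ne_bot M.not_two_dvd_card_H, rfl⟩
  refine ⟨by rw [M.card_G]; ring, S, ?_⟩
  rw [hS, M.R.normalizer_U M.U_ne_bot]
  refine ⟨by rw [M.R.card_B, M.R_U, M.R_H, M.card_U, M.card_H], by rw [M.R.index_B, M.R_U, M.card_U],
    M.R.isMultiplyPretransitive_two, fun x y hx hy => ?_⟩
  obtain ⟨u, hu, rfl⟩ := M.R.exists_U hx
  obtain ⟨v, hv, rfl⟩ := M.R.exists_U hy
  refine ⟨⟨v * u⁻¹, mul_mem hv (inv_mem hu)⟩, ?_, ?_⟩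
  · show (v * u⁻¹) • u • M.R.zero = v • M.R.zero
    rw [mul_smul, inv_smul_smul]
  rintro ⟨s, hs⟩ h
  apply Subtype.ext
  have h1 : (s * u) • M.R.zero = v • M.R.zero := by rw [mul_smul]; exact h
  exact eq_mul_inv_of_mul_eq (M.R.U_smul_zero_inj (mul_mem hs hu) hv h1)

end Cfsg.Agent.S1163
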