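import Cfsg.Statements.S1167
import Cfsg.Agent.H4.Feit

set_option autoImplicit false
open Cfsg

namespace Cfsg.Agent.S1167

open Cfsg.Agent.H4.Basic Cfsg.Agent.H4.Zass Cfsg.Agent.H4.Feit MulAction

/-- Let `G` be a finite simple Zassenhaus group on `Ω`, `U` a normal subgroup of `G_a` regular on `Ω` minus `a` which is an abelian 2-group, and `v` an involution with `v • a ≠ a`. Then there is a unique `u₀ ∈ U`, `u₀ ≠ 1`, with `v u₀ v = u₀ v u₀`. -/
theorem result {G Ω : Type*} [Group G] [Finite G] [MulAction G Ω] [Finite Ω]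
    (hZ : Cfsg.IsZassenhausGroup G Ω) [IsSimpleGroup G] {a : Ω}
    (U : Subgroup G) (hUle : U ≤ MulAction.stabilizer G a)
    (hUn : ∀ h ∈ MulAction.stabilizer G a, ∀ u ∈ U, h * u * h⁻¹ ∈ U)
    (hreg : ∀ c d : Ω, c ≠ a → d ≠ a → ∃! u : U, (u : G) • c = d)
    (hU2 : IsPGroup 2 U) (hUab : ∀ u ∈ U, ∀ u' ∈ U, u * u' = u' * u)
    (v : G) (hv1 : v ≠ 1) (hv2 : v * v = 1) (hva : v • a ≠ a) :
    ∃! u₀ : G, u₀ ∈ U ∧ u₀ ≠ 1 ∧ v * u₀ * v = u₀ * v * u₀ := by
  have hZ' := hZ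
  obtain ⟨hf, h2, h3, ⟨g, hg, c, d, hcd, hc, hd⟩, -⟩ := hZ'
  have h3' : Sharp3 G Ω := h3
  have hK : IsKer a U := ⟨fun u hu => hUle hu, hUn, hreg⟩
  have hab : a ≠ v • a := hva.symm
  have h4 := hK.card_add_one hab
  have h5 := three_le_card hg hcd hc hd
  obtain ⟨m, hm⟩ := (IsPGroup.iff_card (p := 2)).1 hU2
  have hm0 : m ≠ 0 := by
    rintro rfl
    rw [pow_zero] at hm
    omega
  have hev : Even (Nat.card U) := hm ▸ (Nat.even_pow' hm0).2 even_two
  have hsq : ∀ u ∈ U, u * u = 1 := by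
    obtain ⟨p, f, hp, hpe, hKc⟩ := hK.elementary_of_large h3' hab
      (by rcases feit hZ hab hK hUab with h | ⟨h, -⟩ <;> omega) (by omega)
    have : p = 2 := by
      have h6 : 2 ∣ p ^ f := hKc ▸ even_iff_two_dvd.1 hev
      exact ((Nat.prime_dvd_prime_iff_eq Nat.prime_two hp).1 (Nat.prime_two.dvd_of_dvd_pow h6)).symm
    subst this
    intro u hu
    rw [← sq]
    exact hpe u hu
  have hvv : ∀ y : Ω, v • v • y = y := fun y => by rw [← mul_smul, hv2, one_smul]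
  have hmod := card_modEq_fixedBy (Ω := Ω) (k := 1) Nat.prime_two (g := v) (by rw [pow_one, sq, hv2])
  have hle := h3'.ncard_fixedBy_le hv1
  have h1 : (fixedBy Ω v).ncard = 1 := by
    rw [← h4, Nat.card_coe_set_eq] at hmod
    rw [Nat.even_iff] at hev
    unfold Nat.ModEq at hmod
    omega
  obtain ⟨z, hz⟩ := Set.ncard_eq_one.1 h1
  have hzv : v • z = z := by
    have : z ∈ fixedBy Ω v := by simp [hz]
    exact this
  have hza : z ≠ a := fun e => hva (e ▸ hzv)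
  have hzb : z ≠ v • a := fun e => hza (by rw [← hvv a, ← e, hzv])
  obtain ⟨u, hu, hub⟩ := hK.exists_smul hva hza
  have huu : ∀ y : Ω, u • u • y = y := fun y => by rw [← mul_smul, hsq u hu, one_smul]
  refine ⟨u, ⟨hu, ?_, ?_⟩, ?_⟩
  · rintro rfl
    exact hzb (by simpa using hub.symm)
  · refine h3'.eq_of_agree hab hzb.symm hza.symm ?_ ?_ ?_
    · rw [mul_smul, mul_smul, mul_smul, mul_smul, hub, hzv, hK.fix u hu, hub]
    · rw [mul_smul, mul_smul, mul_smul, mul_smul, hub, hzv, hvv, hK.fix u hu, ← hub, huu]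
    · rw [mul_smul, mul_smul, mul_smul, mul_smul, hzv, ← hub, huu, hvv, hK.fix u hu]
  · rintro w ⟨hw, -, h⟩
    refine hK.eq_of_smul_eq hw hu hva ?_
    have h6 : (v * w * v) • v • a = (w * v * w) • v • a := by rw [h]
    rw [mul_smul, mul_smul, mul_smul, mul_smul, hvv, hK.fix w hw] at h6
    have h7 : w • v • a ∈ fixedBy Ω v := by
      change v • w • v • a = w • v • a
      conv_rhs => rw [h6, ← mul_smul w w, hsq w hw, one_smul]
    rw [hz] at h7
    rw [hub]
    exact h7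

end Cfsg.Agent.S1167
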