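import Cfsg.Statements.S5635
import Cfsg.Agent.H8.NonMax

set_option autoImplicit false
open Cfsg

namespace Cfsg.Agent.S5635

open Cfsg.Agent.H8

/-- For a finite field F with q elements and n ≥ 13, let D be a decomposition of F^n into t ≥ 2 independent subspaces of equal dimension m spanning F^n, where m = 1 and q ≤ 4, or m = 2 and q = 2. Then the elements of SL_n(F) permuting the members of D form a subgroup that is not maximal: some subgroup lies strictly between it and SL_n(F). -/
theorem result {F : Type*} [Field F] [Fintype F] (n : ℕ) (hn : 13 ≤ n) {t : ℕ} (m : ℕ) (D : Fin t → Submodule F (Fin n → F)) (hD : Cfsg.Geo.IsMDecomposition m D) (h : (m = 1 ∧ Fintype.card F ≤ 4) ∨ (m = 2 ∧ Fintype.card F = 2)) : ∃ K : Subgroup (Matrix.GeneralLinearGroup (Fin n) F), Cfsg.Geo.decompositionStabilizer D ⊓ Cfsg.Geo.specialLinear (Fin n) F < K ∧ K < Cfsg.Geo.specialLinear (Fin n) F := by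
  have hm := IsMDecomposition.mul_eq hD
  simp only [Fintype.card_fin] at hm
  have ht : 3 ≤ t := by
    rcases h with ⟨rfl, -⟩ | ⟨rfl, -⟩ <;> omega
  refine between_sl_dec (by simp; omega) ht hD fun hI => ?_
  rcases h with ⟨rfl, h⟩ | ⟨rfl, h⟩
  · have h1 := Fintype.one_lt_card (α := F)
    obtain h | h | h : Fintype.card F = 2 ∨ Fintype.card F = 3 ∨ Fintype.card F = 4 := by omega
    · exact absurd hI (H5.SL.not_irred_lines_two h hD inf_le_left)
    · exact H5.SL.linC8_lines_three h hD hI (by simp; omega) inf_le_left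
    · exact H5.SL.linC8_lines_four h hD inf_le_left
  · exact H5.SL.linC8_planes_two h hD inf_le_left

end Cfsg.Agent.S5635
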