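import Cfsg.Statements.S5639
import Cfsg.Agent.H7.SubInst

set_option autoImplicit false
open Cfsg

namespace Cfsg.Agent.S5639

/-- For a finite field F, a subfield F₀ with |F| = |F₀| ^ r for a prime r, and n ≥ 13, the subfield group (the conjugate by any P of the product of GL_n(F₀) with the non-zero scalars of F, intersected with SL_n(F)) is a maximal subgroup of SL_n(F). -/
theorem result {F : Type*} [Field F] [Fintype F] (n : ℕ) (hn : 13 ≤ n) (F₀ : Subfield F) (r : ℕ) (hr : r.Prime) (hcard : Fintype.card F = Nat.card F₀ ^ r) (P : Matrix.GeneralLinearGroup (Fin n) F) : Cfsg.Geo.IsMaximalIn (Cfsg.Geo.specialLinear (Fin n) F) (Cfsg.Geo.subfieldSubgroup F₀ P ⊓ Cfsg.Geo.specialLinear (Fin n) F) := by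
  have : Nonempty (Fin n) := ⟨⟨0, by omega⟩⟩
  refine H7.isMaximalIn_of_equiv H7.toLE H7.mem_specialLinear_iff (fun g => ?_)
    (H7.RatStr.N_maximal_SLV (R := H7.stdRat F₀ P) (by simp; omega)
      (H7.exists_notMem_subfield hr hcard) (H7.subring_eq_top hr hcard))
  rw [Subgroup.mem_inf, H7.mem_specialLinear_iff, H7.mem_subfieldSubgroup_iff_N, Subgroup.mem_inf]

end Cfsg.Agent.S5639
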