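import Cfsg.Statements.S5643
import Cfsg.Agent.H7.FormInSL
import Cfsg.Agent.H7.Inst

set_option autoImplicit false
open Cfsg

namespace Cfsg.Agent.S5643

/-- For a finite field F and n ≥ 13, let σ be a field automorphism of F of order two and f a non-degenerate unitary form on F^n with respect to σ. Then the elements of SL_n(F) that are similarities of f form a maximal subgroup of SL_n(F). -/
theorem result {F : Type*} [Field F] [Fintype F] (n : ℕ) (hn : 13 ≤ n) (σ : F ≃+* F) (f : (Fin n → F) → (Fin n → F) → F) (hf : Cfsg.Geo.IsUnitaryForm σ f) : Cfsg.Geo.IsMaximalIn (Cfsg.Geo.specialLinear (Fin n) F) (Cfsg.Geo.similarityGroup f ⊓ Cfsg.Geo.specialLinear (Fin n) F) := by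
  refine H7.isMaximalIn_of_equiv H7.toLE (H7.mem_specialLinear_iff) (fun g => ?_)
    (H7.Polar.Sim_maximal (P := H7.unitPolar hf)
      (H7.Polar.wild_two_of_unitary (H7.unitPolar_ne hf) rfl) (by simp; omega))
  simp only [Subgroup.mem_inf, H7.mem_specialLinear_iff]
  exact Iff.rfl

end Cfsg.Agent.S5643
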