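import Cfsg.Statements.S5644
import Cfsg.Agent.H7.FormInSL
import Cfsg.Agent.H7.Inst

set_option autoImplicit false
open Cfsg

namespace Cfsg.Agent.S5644

/-- For a finite field F of odd order and n ≥ 13, let Q be a non-degenerate quadratic form on F^n (its polar form is non-degenerate). Then the elements of SL_n(F) that are similarities of Q (Q(gv) = c Q(v) for a non-zero scalar c depending on g) form a maximal subgroup of SL_n(F). -/
theorem result {F : Type*} [Field F] [Fintype F] (n : ℕ) (hn : 13 ≤ n) (hodd : Odd (Fintype.card F)) (Q : (Fin n → F) → F) (hQ : Cfsg.Geo.IsNondegenerateQuadraticForm Q) : Cfsg.Geo.IsMaximalIn (Cfsg.Geo.specialLinear (Fin n) F) (Cfsg.Geo.quadSimilarityGroup Q ⊓ Cfsg.Geo.specialLinear (Fin n) F) := by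
  refine H7.isMaximalIn_of_equiv H7.toLE (H7.mem_specialLinear_iff) (fun g => ?_)
    (H7.Polar.Sim_maximal (P := H7.oPolar hQ) (H7.oPolar_wild hQ) (by simp; omega))
  simp only [Subgroup.mem_inf, H7.mem_specialLinear_iff]
  refine and_congr_left fun _ => ⟨fun ⟨c, hc⟩ => ⟨c, fun x y => ?_⟩, fun ⟨c, hc⟩ => ⟨c, fun x => ?_⟩⟩
  · simp only [H7.oPolar_B, QuadraticMap.polar, H7.toLE_apply, ← Matrix.mulVec_add, hc]
    ring
  · have h2 := H7.two_ne_zero_of_odd_card hodd
    have h := hc x x
    simp only [H7.oPolar_B, QuadraticMap.polar, ← two_smul F, hQ.smul, H7.toLE_apply] at h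
    apply mul_left_cancel₀ h2
    linear_combination h

end Cfsg.Agent.S5644
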