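import Cfsg.Statements.S5646
import Cfsg.Agent.H7.NondegO

set_option autoImplicit false
open Cfsg

namespace Cfsg.Agent.S5646

/-- For a finite field F and m ≥ 7, in the symplectic group Sp_2m(F) of the standard alternating form on F^(2m), the stabiliser of any non-zero subspace W on which the form is non-degenerate and with dim W < m is a maximal subgroup. -/
theorem result {F : Type*} [Field F] [Fintype F] (m : ℕ) (hm : 7 ≤ m) (W : Submodule F (Fin m ⊕ Fin m → F)) (hW0 : W ≠ ⊥) (hW : Cfsg.Geo.IsNondegenerateOn (Cfsg.sympForm m F) W) (hdim : Module.finrank F W < m) : Cfsg.Geo.IsMaximalIn (Cfsg.spGL m F) (Cfsg.Geo.subspaceStabilizer W ⊓ Cfsg.spGL m F) := by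
  have hn := H7.finrank_sum_fun (F := F) m
  have hd := (H7.spStd m F).finrank_perp W
  refine H7.isMaximalIn_of_equiv H7.toLE (H7.mem_spGL_iff m) (fun g => ?_)
    (H7.Polar.nondeg_maximal (P := H7.spStd m F) (H7.spPolar_wild _) (by omega)
      ((H7.inf_perp_iff_nondegenerateOn _ (fun _ _ => rfl)).2 hW) hW0 ?_ (fun g _ h => ?_)
      fun _ _ => Or.inl ⟨1, one_ne_zero, trivial⟩)
  · simp only [Subgroup.mem_inf, H7.mem_spGL_iff, H7.mem_subspaceStabilizer_iff]
  · rintro rfl
    rw [finrank_top] at hdim
    omega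
  · have := LinearEquiv.finrank_map_eq g ((H7.spStd m F).perp W)
    rw [h] at this
    omega

end Cfsg.Agent.S5646
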