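import Cfsg.Statements.S5649
import Cfsg.Agent.H7.TsPair
import Cfsg.Agent.H7.Inst

set_option autoImplicit false
open Cfsg

namespace Cfsg.Agent.S5649

/-- For a finite field F of odd order and m ≥ 7, let D be a decomposition of F^(2m) into two complementary subspaces of dimension m on each of which the standard alternating form vanishes identically. Then the elements of Sp_2m(F) preserving or interchanging the two subspaces form a maximal subgroup of Sp_2m(F). -/
theorem result {F : Type*} [Field F] [Fintype F] (m : ℕ) (hm : 7 ≤ m) (hodd : Odd (Fintype.card F)) (D : Fin 2 → Submodule F (Fin m ⊕ Fin m → F)) (hD : Cfsg.Geo.IsMDecomposition m D) (hts : ∀ i, Cfsg.Geo.IsTotallySingularFor (Cfsg.sympForm m F) (D i)) : Cfsg.Geo.IsMaximalIn (Cfsg.spGL m F) (Cfsg.Geo.decompositionStabilizer D ⊓ Cfsg.spGL m F) := by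
  have hn := H7.finrank_sum_fun (F := F) m
  refine H7.isMaximalIn_of_equiv H7.toLE (H7.mem_spGL_iff m) (fun g => ?_)
    (H7.Polar.tsPair_maximal (P := H7.spStd m F) (H7.spPolar_wild _) (by omega) (by omega)
      (D := D) ⟨fun _ _ => trivial, fun _ _ => trivial, fun x hx y hy => hts 0 x hx y hy,
        fun x hx y hy => hts 1 x hx y hy, H7.isCompl_of_two hD.indep hD.iSup_eq_top⟩
      (fun c _ => ⟨c / 2, ?_⟩) (Or.inl ⟨1, one_ne_zero, trivial⟩))
  · simp only [Subgroup.mem_inf, H7.mem_spGL_iff, H7.mem_decompositionStabilizer_iff]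
  · have := H7.two_ne_zero_of_odd_card hodd
    rw [H7.spPolar_σ, H7.spPolar_ε]
    field_simp
    ring

end Cfsg.Agent.S5649
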