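import Cfsg.Statements.S5650
import Cfsg.Agent.H7.SubInst
import Cfsg.Agent.Asch.Forms

set_option autoImplicit false
open Cfsg

namespace Cfsg.Agent.S5650

/-- For a finite field F, a subfield F₀ with |F| = |F₀| ^ r for a prime r, and m ≥ 7, let P be an invertible matrix and ζ a non-zero scalar such that ζ times the standard alternating form takes values in F₀ on the F₀-span of the columns of P. Then the elements of Sp_2m(F) lying in the subfield group of P (the conjugate by P of the product of GL_2m(F₀) with the scalars) form a maximal subgroup of Sp_2m(F). -/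
theorem result {F : Type*} [Field F] [Fintype F] (m : ℕ) (hm : 7 ≤ m) (F₀ : Subfield F) (r : ℕ) (hr : r.Prime) (hcard : Fintype.card F = Nat.card F₀ ^ r) (P : Matrix.GeneralLinearGroup (Fin m ⊕ Fin m) F) (ζ : F) (hζ : ζ ≠ 0) (hP : Cfsg.Geo.IsFormRationalStructure (Cfsg.sympForm m F) F₀ ζ P) : Cfsg.Geo.IsMaximalIn (Cfsg.spGL m F) (Cfsg.Geo.subfieldSubgroup F₀ P ⊓ Cfsg.spGL m F) := by
  have : Nonempty (Fin m ⊕ Fin m) := ⟨.inl ⟨0, by omega⟩⟩
  have hn := H7.finrank_sum_fun (F := F) m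
  have hσ : (H7.spStd m F).σ ζ = 1 * ζ := (one_mul ζ).symm
  have h : ((H7.spStd m F).scale hζ (Or.inl rfl) hσ).RatOK (H7.stdRat F₀ P) :=
    ⟨fun _ => rfl, fun x y hx hy => by
      obtain ⟨u, hu, rfl⟩ := H7.stdRat_fix hx
      obtain ⟨v, hv, rfl⟩ := H7.stdRat_fix hy
      exact hP u v hu hv, fun x _ => ⟨0, F₀.zero_mem, trivial⟩⟩
  have := h.N_maximal (h.wild_three (Or.inr fun _ _ => rfl)) (by omega) (by omega)
    (H7.exists_notMem_subfield hr hcard) (H7.subring_eq_top hr hcard) (fun c _ => ?_)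
    (Or.inl ⟨1, F₀.one_mem, one_ne_zero, trivial⟩)
  · rw [H7.Polar.scale_E] at this
    refine H7.isMaximalIn_of_equiv H7.toLE (H7.mem_spGL_iff m) (fun g => ?_) this
    rw [Subgroup.mem_inf, H7.mem_spGL_iff, H7.mem_subfieldSubgroup_iff_N, Subgroup.mem_inf]
  · simp only [H7.Polar.scale_σ, H7.Polar.scale_ε, H7.spPolar_σ, H7.spPolar_ε]
    by_cases h2 : (2 : F) = 0
    · obtain ⟨l, hl⟩ := Asch.exists_sq_of_two_eq_zero h2 c
      exact ⟨0, l, 1, F₀.one_mem, trivial, by simp [hl]⟩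
    · exact ⟨c / 2, 0, 0, F₀.zero_mem, trivial, by field_simp; ring⟩

end Cfsg.Agent.S5650
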