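import Cfsg.Statements.S5652
import Cfsg.Agent.H7.OInSp
import Cfsg.Agent.H7.Inst

set_option autoImplicit false
open Cfsg

namespace Cfsg.Agent.S5652

/-- For a finite field F of characteristic two and m ≥ 7, let Q be a non-degenerate quadratic form on F^(2m) whose polar form is the standard alternating form. Then the elements of Sp_2m(F) that are similarities of Q (they are exactly the isometries of Q) form a maximal subgroup of Sp_2m(F). -/
theorem result {F : Type*} [Field F] [Fintype F] (m : ℕ) (hm : 7 ≤ m) (heven : ¬ Odd (Fintype.card F)) (Q : (Fin m ⊕ Fin m → F) → F) (hQ : Cfsg.Geo.IsNondegenerateQuadraticForm Q) (hpol : ∀ u v, QuadraticMap.polar Q u v = Cfsg.sympForm m F u v) : Cfsg.Geo.IsMaximalIn (Cfsg.spGL m F) (Cfsg.Geo.quadSimilarityGroup Q ⊓ Cfsg.spGL m F) := by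
  refine H7.isMaximalIn_of_equiv H7.toLE (H7.mem_spGL_iff m) (fun g => ?_)
    (H7.Polar.Iso_maximal_sp (P := H7.oPolar hQ) (S := H7.spStd m F)
      (H7.two_eq_zero_of_not_odd_card heven) hpol (fun _ => rfl) (fun _ => rfl)
      (fun _ _ => trivial) (H7.oPolar_lam hQ) (by rw [H7.finrank_sum_fun]; omega))
  rw [Subgroup.mem_inf, H7.mem_spGL_iff_Iso, H7.mem_oPolar_Iso]
  refine ⟨fun ⟨⟨c, hc⟩, h⟩ x => ?_, fun h => ⟨⟨1, by simpa using h⟩, ?_⟩⟩
  · obtain ⟨a, ha⟩ : ∃ a : Fin m ⊕ Fin m → F, a ≠ 0 :=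
      ⟨Pi.single (.inl ⟨0, by omega⟩) 1, by simp⟩
    obtain ⟨b, hb⟩ := (H7.oPolar hQ).exists_B_ne ha
    have h1 := h.1 a b
    simp only [H7.spPolar_B, ← hpol, QuadraticMap.polar, H7.toLE_apply, ← Matrix.mulVec_add,
      hc] at h1
    simp only [H7.oPolar_B, QuadraticMap.polar] at hb
    have : (c : F) = 1 := by
      apply mul_right_cancel₀ hb
      linear_combination h1
    rw [H7.toLE_apply, hc, this, one_mul]
  · rw [H7.mem_spPolar_Iso]
    intro x y
    simp only [← hpol, QuadraticMap.polar, ← map_add, h]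

end Cfsg.Agent.S5652
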