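import Cfsg.Statements.S5653
import Cfsg.Agent.H7.Parabolic

set_option autoImplicit false
open Cfsg

namespace Cfsg.Agent.S5653

/-- Let F be the field with q² elements and n ≥ 13, and let SU_n(q) be the group of matrices of determinant one preserving the standard unitary form Σ u_i v_i^q on F^n (the intersection of the unitary group GU_n with the kernel of the determinant). The elements of SU_n(q) stabilising a non-zero subspace on which the form vanishes identically form a maximal subgroup of SU_n(q). -/
theorem result {F : Type*} [Field F] [Fintype F] (n q : ℕ) (hF : Fintype.card F = q ^ 2) (hn : 13 ≤ n) (W : Submodule F (Fin n → F)) (hW0 : W ≠ ⊥) (hW : Cfsg.Geo.IsTotallySingularFor (Cfsg.hermForm n F q) W) : Cfsg.Geo.IsMaximalIn (Cfsg.GU n F q ⊓ Cfsg.Geo.specialLinear (Fin n) F) (Cfsg.Geo.subspaceStabilizer W ⊓ (Cfsg.GU n F q ⊓ Cfsg.Geo.specialLinear (Fin n) F)) := by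
  have h1 := H7.Polar.exists_lam_ne_of_unitary (P := H7.uStd hF n) (H7.unitPowPolar_ne _ _) rfl
  refine H7.isMaximalIn_of_equiv H7.toLE (H7.mem_SU_iff hF (by omega)) (fun g => ?_)
    (H7.Polar.parabolic_maximal (P := H7.uStd hF n) hW0
      (fun x hx => (H7.Polar.sing_iff_of_unitary (H7.unitPowPolar_ne _ _) rfl).2 (hW x hx x hx))
      (fun x hx y hy => hW x hx y hy) (Or.inl h1) (Or.inl h1))
  rw [Subgroup.mem_inf, H7.mem_SU_iff hF (by omega), H7.mem_subspaceStabilizer_iff, Subgroup.mem_inf]

end Cfsg.Agent.S5653
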