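import Cfsg.Statements.S5654
import Cfsg.Agent.H7.NondegO

set_option autoImplicit false
open Cfsg

namespace Cfsg.Agent.S5654

/-- Let F be the field with q² elements and n ≥ 13. In SU_n(q) (determinant-one isometries of the standard unitary form on F^n) the stabiliser of a non-zero subspace W on which the form is non-degenerate and with 2 dim W < n is a maximal subgroup. -/
theorem result {F : Type*} [Field F] [Fintype F] (n q : ℕ) (hF : Fintype.card F = q ^ 2) (hn : 13 ≤ n) (W : Submodule F (Fin n → F)) (hW0 : W ≠ ⊥) (hW : Cfsg.Geo.IsNondegenerateOn (Cfsg.hermForm n F q) W) (hdim : 2 * Module.finrank F W < n) : Cfsg.Geo.IsMaximalIn (Cfsg.GU n F q ⊓ Cfsg.Geo.specialLinear (Fin n) F) (Cfsg.Geo.subspaceStabilizer W ⊓ (Cfsg.GU n F q ⊓ Cfsg.Geo.specialLinear (Fin n) F)) := by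
  have hn' : Module.finrank F (Fin n → F) = n := by simp
  have hd := (H7.uStd hF n).finrank_perp W
  refine H7.isMaximalIn_of_equiv H7.toLE (H7.mem_SU_iff hF (by omega)) (fun g => ?_)
    (H7.Polar.nondeg_maximal (P := H7.uStd hF n)
      (H7.Polar.wild_two_of_unitary (H7.unitPowPolar_ne _ _) rfl) (by omega)
      ((H7.inf_perp_iff_nondegenerateOn _ (fun _ _ => rfl)).2 hW) hW0 ?_ (fun g _ h => ?_)
      fun _ _ => Or.inl (H7.Polar.exists_lam_ne_of_unitary (H7.unitPowPolar_ne _ _) rfl))
  · rw [Subgroup.mem_inf, H7.mem_SU_iff hF (by omega), H7.mem_subspaceStabilizer_iff,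
      Subgroup.mem_inf]
  · rintro rfl
    rw [finrank_top] at hdim
    omega
  · have := LinearEquiv.finrank_map_eq g ((H7.uStd hF n).perp W)
    rw [h] at this
    omega

end Cfsg.Agent.S5654
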