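import Cfsg.Statements.S5657
import Cfsg.Agent.H7.TsPair
import Cfsg.Agent.H7.Inst

set_option autoImplicit false
open Cfsg

namespace Cfsg.Agent.S5657

/-- Let F be the field with q² elements and n = 2k ≥ 13. Let D be a decomposition of F^n into two complementary subspaces of dimension k on each of which the standard unitary form vanishes identically. Then the elements of SU_n(q) preserving or interchanging the two subspaces form a maximal subgroup of SU_n(q). -/
theorem result {F : Type*} [Field F] [Fintype F] (n q : ℕ) (hF : Fintype.card F = q ^ 2) (hn : 13 ≤ n) (k : ℕ) (hk : 2 * k = n) (D : Fin 2 → Submodule F (Fin n → F)) (hD : Cfsg.Geo.IsMDecomposition k D) (hts : ∀ i, Cfsg.Geo.IsTotallySingularFor (Cfsg.hermForm n F q) (D i)) : Cfsg.Geo.IsMaximalIn (Cfsg.GU n F q ⊓ Cfsg.Geo.specialLinear (Fin n) F) (Cfsg.Geo.decompositionStabilizer D ⊓ (Cfsg.GU n F q ⊓ Cfsg.Geo.specialLinear (Fin n) F)) := by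
  have hn' : Module.finrank F (Fin n → F) = n := by simp
  have hσ := H7.unitPowPolar_ne hF (H7.isUnitaryFormPow_hermForm hF n)
  refine H7.isMaximalIn_of_equiv H7.toLE (H7.mem_SU_iff hF (by omega)) (fun g => ?_)
    (H7.Polar.tsPair_maximal (P := H7.uStd hF n)
      (H7.Polar.wild_two_of_unitary hσ rfl) (by omega) (by omega)
      (D := D) ⟨fun x hx => (H7.Polar.sing_iff_of_unitary hσ rfl).2 (hts 0 x hx x hx),
        fun x hx => (H7.Polar.sing_iff_of_unitary hσ rfl).2 (hts 1 x hx x hx),
        fun x hx y hy => hts 0 x hx y hy,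
        fun x hx y hy => hts 1 x hx y hy, H7.isCompl_of_two hD.indep hD.iSup_eq_top⟩
      (fun c hc => ?_) (Or.inl (H7.Polar.exists_lam_ne_of_unitary hσ rfl)))
  · rw [Subgroup.mem_inf, H7.mem_SU_iff hF (by omega), H7.mem_decompositionStabilizer_iff,
      Subgroup.mem_inf]
  · rw [H7.Polar.val_iff_of_unitary hσ rfl, map_zero] at hc
    obtain ⟨a, ha⟩ := H7.exists_sub_conj _ (H7.uStd hF n).σσ hσ hc.symm
    exact ⟨a, by rw [← ha, H7.unitPowPolar_ε, one_mul]⟩

end Cfsg.Agent.S5657
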