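import Cfsg.Statements.S5658
import Cfsg.Agent.H7.SubInst

set_option autoImplicit false
open Cfsg

namespace Cfsg.Agent.S5658

/-- Let F be the field with q² elements, n ≥ 13, and F₀ a subfield with |F| = |F₀| ^ r for an odd prime r. Let P be an invertible matrix such that the standard unitary form takes values in F₀ on the F₀-span of the columns of P. Then the elements of SU_n(q) lying in the subfield group of P (the conjugate by P of the product of GL_n(F₀) with the scalars) form a maximal subgroup of SU_n(q). -/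
theorem result {F : Type*} [Field F] [Fintype F] (n q : ℕ) (hF : Fintype.card F = q ^ 2) (hn : 13 ≤ n) (F₀ : Subfield F) (r : ℕ) (hr : r.Prime) (hro : Odd r) (hcard : Fintype.card F = Nat.card F₀ ^ r) (P : Matrix.GeneralLinearGroup (Fin n) F) (hP : Cfsg.Geo.IsFormRationalStructure (Cfsg.hermForm n F q) F₀ 1 P) : Cfsg.Geo.IsMaximalIn (Cfsg.GU n F q ⊓ Cfsg.Geo.specialLinear (Fin n) F) (Cfsg.Geo.subfieldSubgroup F₀ P ⊓ (Cfsg.GU n F q ⊓ Cfsg.Geo.specialLinear (Fin n) F)) := by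
  have : Nonempty (Fin n) := ⟨⟨0, by omega⟩⟩
  have hn' : Module.finrank F (Fin n → F) = n := by simp
  have hσ := H7.unitPowPolar_ne hF (H7.isUnitaryFormPow_hermForm hF n)
  have hq := H7.one_lt_q hF
  have hθσ : ∀ a, (H7.stdRat F₀ P).θ ((H7.uStd hF n).σ a) =
      (H7.uStd hF n).σ ((H7.stdRat F₀ P).θ a) := fun a => by
    simp only [H7.stdRat_θ, H7.unitPowPolar_σ, ← pow_mul, mul_comm]
  have hσ0 : ∀ a ∈ F₀, H7.qFrob hF a ∈ F₀ := fun a ha => F₀.pow_mem ha q
  have hne : ∃ a : F₀, ((H7.qFrob hF).restrict F₀ F₀ hσ0) a ≠ a := by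
    by_contra! hcon
    have h1 : ∀ a, a ∈ F₀ ↔ a ^ q = a := by
      refine fun a => ⟨fun ha => congrArg Subtype.val (hcon ⟨a, ha⟩), fun ha => ?_⟩
      by_contra h
      have := H7.subring_eq_top hr hcard ((H7.qFrob hF).eqLocus (RingHom.id F))
        (fun a ha => congrArg Subtype.val (hcon ⟨a, ha⟩)) ⟨a, ha, h⟩
      obtain ⟨b, hb⟩ := H7.qFrob_ne hF
      exact hb (show b ∈ (H7.qFrob hF).eqLocus (RingHom.id F) by simp [this])
    have h2 : Nat.card F₀ = q := by
      rw [← Asch.card_fixed_pow (L := F) q hq (by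
        rw [Nat.card_eq_fintype_card, hF]; simpa using Nat.sub_one_dvd_pow_sub_one q 2)]
      exact Nat.card_congr (Equiv.subtypeEquivRight h1)
    rw [h2, hF] at hcard
    have := Nat.pow_right_injective hq hcard
    rw [← this] at hro
    exact absurd hro (by decide)
  have hB : ∀ x y, (H7.stdRat F₀ P).τ x = x → (H7.stdRat F₀ P).τ y = y →
      (H7.uStd hF n).B x y ∈ F₀ := fun x y hx hy => by
    obtain ⟨u, hu, rfl⟩ := H7.stdRat_fix hx
    obtain ⟨v, hv, rfl⟩ := H7.stdRat_fix hy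
    simpa [H7.unitPowPolar_B] using hP u v hu hv
  have hinv : ∀ a : F₀, ((H7.qFrob hF).restrict F₀ F₀ hσ0) (((H7.qFrob hF).restrict F₀ F₀ hσ0) a)
      = a := fun a => Subtype.ext (H7.qFrob_qFrob hF a)
  have h : (H7.uStd hF n).RatOK (H7.stdRat F₀ P) := ⟨hθσ, hB, fun x hx => by
    obtain ⟨t, ht⟩ := H7.exists_trace_one _ hinv hne
    refine ⟨t * (H7.uStd hF n).B x x, F₀.mul_mem t.2 (hB x x hx hx), ?_⟩
    rw [H7.Polar.val_iff_of_unitary hσ rfl, map_mul, H7.Polar.σ_B_self rfl, ← add_mul,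
      show (t : F) + (H7.uStd hF n).σ t = 1 from congrArg Subtype.val ht, one_mul]⟩
  obtain ⟨c₀, hc₀, hc₀'⟩ := H7.Polar.exists_lam_ne_of_unitary (P := h.restrict) hne rfl
  refine H7.isMaximalIn_of_equiv H7.toLE (H7.mem_SU_iff hF (by omega)) (fun g => ?_)
    (h.N_maximal (h.wild_three (Or.inl rfl)) (by omega) (by omega)
      (H7.exists_notMem_subfield hr hcard) (H7.subring_eq_top hr hcard) (fun c hc => ?_)
      (Or.inl ⟨c₀, c₀.2, fun h => hc₀ (Subtype.ext h), hc₀'⟩))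
  · rw [Subgroup.mem_inf, H7.mem_SU_iff hF (by omega), H7.mem_subfieldSubgroup_iff_N,
      Subgroup.mem_inf]
  · obtain ⟨a, ha⟩ := H7.Polar.lam_of_unitary hσ rfl hc
    exact ⟨a, 0, 0, F₀.zero_mem, H7.Polar.val_zero, by simpa using ha⟩

end Cfsg.Agent.S5658
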