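import Cfsg.Statements.S5659
import Cfsg.Agent.H7.SubInst

set_option autoImplicit false
open Cfsg

namespace Cfsg.Agent.S5659

/-- Let F be the field with q² elements, q odd, n ≥ 13, and F₀ the subfield with q elements. Let P be an invertible matrix such that the standard unitary form takes values in F₀ on the F₀-span of the columns of P (so it restricts to a non-degenerate symmetric bilinear form there). Then the elements of SU_n(q) lying in the subfield group of P form a maximal subgroup of SU_n(q). -/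
theorem result {F : Type*} [Field F] [Fintype F] (n q : ℕ) (hF : Fintype.card F = q ^ 2) (hn : 13 ≤ n) (hodd : Odd q) (F₀ : Subfield F) (hcard : Fintype.card F = Nat.card F₀ ^ 2) (P : Matrix.GeneralLinearGroup (Fin n) F) (hP : Cfsg.Geo.IsFormRationalStructure (Cfsg.hermForm n F q) F₀ 1 P) : Cfsg.Geo.IsMaximalIn (Cfsg.GU n F q ⊓ Cfsg.Geo.specialLinear (Fin n) F) (Cfsg.Geo.subfieldSubgroup F₀ P ⊓ (Cfsg.GU n F q ⊓ Cfsg.Geo.specialLinear (Fin n) F)) := by
  have : Nonempty (Fin n) := ⟨⟨0, by omega⟩⟩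
  have hn' : Module.finrank F (Fin n → F) = n := by simp
  have hσ := H7.unitPowPolar_ne hF (H7.isUnitaryFormPow_hermForm hF n)
  have h2 : (2 : F) ≠ 0 := H7.two_ne_zero_of_odd_card (by rw [hF]; exact hodd.pow)
  have hB : ∀ x y, (H7.stdRat F₀ P).τ x = x → (H7.stdRat F₀ P).τ y = y →
      (H7.uStd hF n).B x y ∈ F₀ := fun x y hx hy => by
    obtain ⟨u, hu, rfl⟩ := H7.stdRat_fix hx
    obtain ⟨v, hv, rfl⟩ := H7.stdRat_fix hy
    simpa [H7.unitPowPolar_B] using hP u v hu hv
  have h : (H7.uStd hF n).RatOK (H7.stdRat F₀ P) := ⟨fun a => by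
    simp only [H7.stdRat_θ, H7.unitPowPolar_σ, ← pow_mul, mul_comm], hB, fun x hx => by
    refine ⟨(H7.uStd hF n).B x x / 2, F₀.div_mem (hB x x hx hx) (by simp), ?_⟩
    rw [H7.Polar.val_iff_of_unitary hσ rfl, map_div₀, H7.Polar.σ_B_self rfl, map_ofNat]
    field_simp
    ring⟩
  refine H7.isMaximalIn_of_equiv H7.toLE (H7.mem_SU_iff hF (by omega)) (fun g => ?_)
    (h.N_maximal (h.wild_three (Or.inl rfl)) (by omega) (by omega)
      (H7.exists_notMem_subfield Nat.prime_two hcard) (H7.subring_eq_top Nat.prime_two hcard)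
      (fun c hc => ?_) (Or.inr (Or.inr (H7.stdRat_τ_τ hcard P))))
  · rw [Subgroup.mem_inf, H7.mem_SU_iff hF (by omega), H7.mem_subfieldSubgroup_iff_N,
      Subgroup.mem_inf]
  · obtain ⟨a, ha⟩ := H7.Polar.lam_of_unitary hσ rfl hc
    exact ⟨a, 0, 0, F₀.zero_mem, H7.Polar.val_zero, by simpa using ha⟩

end Cfsg.Agent.S5659
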