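import Cfsg.Statements.S5660
import Cfsg.Agent.H7.SubInst

set_option autoImplicit false
open Cfsg

namespace Cfsg.Agent.S5660

/-- Let F be the field with q² elements, n ≥ 13 even, and F₀ the subfield with q elements. Let ζ be a non-zero element with ζ + ζ^q = 0 and P an invertible matrix such that ζ times the standard unitary form takes values in F₀ on the F₀-span of the columns of P and the form vanishes on every pair (u, u) of that span (so ζ times the form restricts to a non-degenerate alternating form there). Then the elements of SU_n(q) lying in the subfield group of P form a maximal subgroup of SU_n(q). -/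
theorem result {F : Type*} [Field F] [Fintype F] (n q : ℕ) (hF : Fintype.card F = q ^ 2) (hn : 13 ≤ n) (heven : Even n) (F₀ : Subfield F) (hcard : Fintype.card F = Nat.card F₀ ^ 2) (ζ : F) (hζ0 : ζ ≠ 0) (hζ : ζ + ζ ^ q = 0) (P : Matrix.GeneralLinearGroup (Fin n) F) (hP : Cfsg.Geo.IsFormRationalStructure (Cfsg.hermForm n F q) F₀ ζ P) (halt : ∀ u : Fin n → F, (∀ i, u i ∈ F₀) → Cfsg.hermForm n F q (Matrix.mulVec (P : Matrix (Fin n) (Fin n) F) u) (Matrix.mulVec (P : Matrix (Fin n) (Fin n) F) u) = 0) : Cfsg.Geo.IsMaximalIn (Cfsg.GU n F q ⊓ Cfsg.Geo.specialLinear (Fin n) F) (Cfsg.Geo.subfieldSubgroup F₀ P ⊓ (Cfsg.GU n F q ⊓ Cfsg.Geo.specialLinear (Fin n) F)) := by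
  have : Nonempty (Fin n) := ⟨⟨0, by omega⟩⟩
  have hn' : Module.finrank F (Fin n → F) = n := by simp
  have hσ := H7.unitPowPolar_ne hF (H7.isUnitaryFormPow_hermForm hF n)
  have hq : Nat.card F₀ = q := by
    rw [hF] at hcard
    exact (Nat.pow_left_injective two_ne_zero hcard).symm
  have hfix : ∀ a, (H7.uStd hF n).σ a = a ↔ a ∈ F₀ := fun a => by
    rw [← H7.subFrob_iff, H7.subFrob_apply, hq, H7.unitPowPolar_σ]
  have hσζ : (H7.uStd hF n).σ ζ = -1 * ζ := by
    rw [H7.unitPowPolar_σ]; linear_combination hζ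
  have h : ((H7.uStd hF n).scale hζ0 (Or.inr rfl) hσζ).RatOK (H7.stdRat F₀ P) := ⟨fun a => by
    simp only [H7.stdRat_θ, H7.Polar.scale_σ, H7.unitPowPolar_σ, ← pow_mul, mul_comm],
    fun x y hx hy => by
      obtain ⟨u, hu, rfl⟩ := H7.stdRat_fix hx
      obtain ⟨v, hv, rfl⟩ := H7.stdRat_fix hy
      exact hP u v hu hv, fun x hx => by
      obtain ⟨u, hu, rfl⟩ := H7.stdRat_fix hx
      refine ⟨0, F₀.zero_mem, ?_⟩
      rw [H7.Polar.scale_val, zero_div, H7.Polar.sing_iff_of_unitary hσ rfl]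
      exact halt u hu⟩
  have := h.N_maximal (h.wild_three (Or.inr fun a ha => (hfix a).2 ha)) (by omega) (by omega)
    (H7.exists_notMem_subfield Nat.prime_two hcard) (H7.subring_eq_top Nat.prime_two hcard)
    (fun c hc => ⟨0, 1, c, ?_, hc, by simp⟩) (Or.inr (Or.inr (H7.stdRat_τ_τ hcard P)))
  · rw [H7.Polar.scale_E] at this
    refine H7.isMaximalIn_of_equiv H7.toLE (H7.mem_SU_iff hF (by omega)) (fun g => ?_) this
    rw [Subgroup.mem_inf, H7.mem_SU_iff hF (by omega), H7.mem_subfieldSubgroup_iff_N,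
      Subgroup.mem_inf]
  · have := H7.Polar.lam_σ hc
    rw [H7.Polar.scale_σ, H7.Polar.scale_ε, H7.unitPowPolar_ε] at this
    rw [← hfix, this]
    ring

end Cfsg.Agent.S5660
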