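import Cfsg.Statements.S5675
import Cfsg.Agent.H7.NondegO

set_option autoImplicit false
open Cfsg

namespace Cfsg.Agent.S5675

/-- Let F be a finite field of odd order q, m ≥ 6, Q the standard quadratic form on F^(2m+1) and Ω the commutator subgroup of its isometry group. Let W be a non-zero subspace of even dimension on which the polar form of Q is non-degenerate; exclude the case q = 3, dim W = 2 with Q vanishing on some line of W (a plus-type plane). Then the elements of Ω stabilising W (equivalently, stabilising its orthogonal complement, of odd dimension) form a maximal subgroup of Ω. -/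
theorem result {F : Type*} [Field F] [Fintype F] (hodd : Odd (Fintype.card F)) (m : ℕ) (hm : 6 ≤ m) (W : Submodule F (Unit ⊕ (Fin m ⊕ Fin m) → F)) (hW0 : W ≠ ⊥) (hev : Even (Module.finrank F W)) (hW : Cfsg.Geo.IsNondegenerateOn (QuadraticMap.polar (Cfsg.quadFormOdd m F)) W) (hex : ¬ (Fintype.card F = 3 ∧ Module.finrank F W = 2 ∧ Cfsg.Geo.IsPlusTypeOn (Cfsg.quadFormOdd m F) W)) : Cfsg.Geo.IsMaximalIn (Cfsg.Geo.omegaGL (Cfsg.quadFormOdd m F)) (Cfsg.Geo.subspaceStabilizer W ⊓ Cfsg.Geo.omegaGL (Cfsg.quadFormOdd m F)) := by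
  have hQ := H7.isNondegenerateQuadraticForm_quadFormOdd m (H7.two_ne_zero_of_odd_card hodd)
  have hn : Module.finrank F (Unit ⊕ (Fin m ⊕ Fin m) → F) = 2 * m + 1 := by simp; omega
  have hd := (H7.oPolar hQ).finrank_perp W
  obtain ⟨k, hk⟩ := hev
  refine H7.omegaGL_nondeg_maximal hQ (by simp; omega) hW hW0 ?_ (fun g _ h => ?_) ?_
  · rintro rfl
    rw [finrank_top] at hk
    omega
  · have := LinearEquiv.finrank_map_eq g ((H7.oPolar hQ).perp W)
    rw [h] at this
    omega
  · rintro ⟨h3, U, hU2, -, hU, rfl | h⟩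
    · refine hex ⟨?_, hU2, hU⟩
      have := Fintype.one_lt_card (α := F)
      rw [Nat.card_eq_fintype_card] at h3
      obtain ⟨j, hj⟩ := hodd
      omega
    · have := h.2
      simp at this
      omega

end Cfsg.Agent.S5675
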