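import Cfsg.Statements.S5677
import Cfsg.Agent.H8.OBlk
import Cfsg.Agent.H8.OSub

set_option autoImplicit false
open Cfsg

namespace Cfsg.Agent.S5677

open Cfsg.Agent.H8

/-- Let F be a finite field of odd order q, m ≥ 6, Q the standard quadratic form on F^(2m+1) and Ω the commutator subgroup of its isometry group. Let D be a decomposition of F^(2m+1) into t ≥ 2 pairwise orthogonal, pairwise Q-isometric subspaces of equal dimension k > 1 on which the polar form is non-degenerate. Unless q = 3 and k = 3, the elements of Ω permuting the members of D form a maximal subgroup of Ω. -/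
theorem result {F : Type*} [Field F] [Fintype F] (hodd : Odd (Fintype.card F)) (m : ℕ) (hm : 6 ≤ m) {t : ℕ} (k : ℕ) (hk : 1 < k) (D : Fin t → Submodule F (Unit ⊕ (Fin m ⊕ Fin m) → F)) (hD : Cfsg.Geo.IsOrthogonalMDecomposition (Cfsg.quadFormOdd m F) k D) (hex : ¬ (Fintype.card F = 3 ∧ k = 3)) : Cfsg.Geo.IsMaximalIn (Cfsg.Geo.omegaGL (Cfsg.quadFormOdd m F)) (Cfsg.Geo.decompositionStabilizer D ⊓ Cfsg.Geo.omegaGL (Cfsg.quadFormOdd m F)) := by
  have h2 := H7.two_ne_zero_of_odd_card hodd
  have hQ := H7.isNondegenerateQuadraticForm_quadFormOdd (F := F) m h2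
  have hD' := pDec_of_od (nd_toQF hQ) hD
  have hmul := hD'.mul_eq
  have hcard : Module.finrank F (Unit ⊕ (Fin m ⊕ Fin m) → F) = 2 * m + 1 := by simp; omega
  have hk' : Odd k := by
    have : Odd (Fintype.card (Fin t) * k) := by rw [hmul, hcard]; exact odd_two_mul_add_one m
    exact (Nat.odd_mul.1 this).2
  obtain ⟨k', rfl⟩ := hk'
  obtain ⟨q', hq'⟩ := hodd
  have := Fintype.one_lt_card (α := F)
  refine H7.isMaximalIn_of_equiv H7.toLE (mem_omegaGL_iff' (nd_toQF hQ) (by simp; omega))
    (fun g => ?_) (hD'.maximal_o (by omega) (by simpa using hD.decomp.decomp.two_le) (by omega)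
      (fun h => by omega) (fun h => by omega))
  simp only [Subgroup.mem_inf, H7.mem_decompositionStabilizer_iff]
  exact and_congr_right' (mem_omegaGL_iff' (nd_toQF hQ) (by simp; omega) g)

end Cfsg.Agent.S5677
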