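import Cfsg.Statements.S5680
import Cfsg.Agent.H3.OExt3

set_option autoImplicit false
open Cfsg

namespace Cfsg.Agent.S5680

/-- Let F be a finite field of odd order, m ≥ 6, Q the standard quadratic form on F^(2m+1) and Ω the commutator subgroup of its isometry group. Let K be a subfield of the algebra of (2m+1) × (2m+1) matrices over F containing the scalars, of prime degree r over F with r ≠ 2m + 1, whose elements are self-adjoint for the polar form of Q. Then the elements of Ω normalising K form a maximal subgroup of Ω. -/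
theorem result {F : Type*} [Field F] [Fintype F] (hodd : Odd (Fintype.card F)) (m : ℕ) (hm : 6 ≤ m) (r : ℕ) (hr : r.Prime) (hrn : 2 * m + 1 ≠ r) (K : Subalgebra F (Matrix (Unit ⊕ (Fin m ⊕ Fin m)) (Unit ⊕ (Fin m ⊕ Fin m)) F)) (hK : Cfsg.Geo.IsFieldSubalgebra r K) (hsa : Cfsg.Geo.IsSelfAdjointFor (QuadraticMap.polar (Cfsg.quadFormOdd m F)) K) : Cfsg.Geo.IsMaximalIn (Cfsg.Geo.omegaGL (Cfsg.quadFormOdd m F)) (Cfsg.Geo.subalgebraNormalizer K ⊓ Cfsg.Geo.omegaGL (Cfsg.quadFormOdd m F)) := by
  have h2 := H7.two_ne_zero_of_odd_card hodd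
  have hQ := H7.isNondegenerateQuadraticForm_quadFormOdd m h2
  have hc : Fintype.card (Unit ⊕ (Fin m ⊕ Fin m)) = 2 * m + 1 := by simp; omega
  obtain ⟨k, hk⟩ : r ∣ 2 * m + 1 := by
    let _ : Field K := (Asch.isField_of_inv hK.comm hK.inv).toField
    have h := Module.finrank_mul_finrank F K (Unit ⊕ (Fin m ⊕ Fin m) → F)
    rw [hK.finrank_eq, Module.finrank_fintype_fun_eq_card, hc] at h
    exact ⟨_, h.symm⟩
  have h3 : 3 ≤ r := by
    have := hr.two_le
    by_contra h
    rw [show r = 2 by omega] at hk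
    omega
  refine H3.OExt3.omega_ext_maximal' h2 hQ hr h3 ?_ hK hsa
  rw [hc, hk]
  have : 3 ≤ k := by
    by_contra h
    obtain rfl | rfl | rfl : k = 0 ∨ k = 1 ∨ k = 2 := by omega
    all_goals omega
  nlinarith

end Cfsg.Agent.S5680
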