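import Cfsg.Statements.S5697
import Cfsg.Agent.H7.TsPair
import Cfsg.Agent.H7.Inst

set_option autoImplicit false
open Cfsg

namespace Cfsg.Agent.S5697

/-- Let F be a finite field with q elements, n ≥ 13 even, Q a non-degenerate quadratic form on F^n of plus type (some subspace of dimension n/2 is totally singular), and Ω the commutator subgroup of the isometry group of Q, viewed inside GL_n(F). Suppose n/2 is even and let D be a decomposition of F^n into two complementary subspaces of dimension n/2 on each of which Q vanishes. Then the elements of Ω preserving or interchanging the two subspaces form a maximal subgroup of Ω. -/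
theorem result {F : Type*} [Field F] [Fintype F] {n : ℕ} (hn : 13 ≤ n) (heven : Even n) (Q : (Fin n → F) → F) (hQ : Cfsg.Geo.IsNondegenerateQuadraticForm Q) (hplus : Cfsg.Geo.IsPlusTypeOn Q ⊤) (k : ℕ) (hk : 2 * k = n) (hke : Even k) (D : Fin 2 → Submodule F (Fin n → F)) (hD : Cfsg.Geo.IsMDecomposition k D) (hts : ∀ i, Cfsg.Geo.IsTotallySingularQuad Q (D i)) : Cfsg.Geo.IsMaximalIn (Cfsg.Geo.omegaGL Q) (Cfsg.Geo.decompositionStabilizer D ⊓ Cfsg.Geo.omegaGL Q) := by
  refine H7.isMaximalIn_of_equiv H7.toLE (H7.mem_omegaGL_iff hQ (by simp; omega)) (fun g => ?_)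
    (H7.Polar.tsPair_maximal (P := H7.oPolar hQ) (H7.oPolar_wild hQ) (by simp; omega)
      (by simp; omega) (D := D) ⟨fun x hx => (H7.oPolar_sing hQ).2 (hts 0 x hx),
        fun x hx => (H7.oPolar_sing hQ).2 (hts 1 x hx),
        H7.le_perp_of_totallySingularQuad hQ (hts 0), H7.le_perp_of_totallySingularQuad hQ (hts 1),
        H7.isCompl_of_two hD.indep hD.iSup_eq_top⟩
      (fun c hc => ⟨0, by simpa using H7.oPolar_lam hQ c hc⟩)
      (Or.inr (by rwa [hD.finrank_eq])))
  rw [Subgroup.mem_inf, H7.mem_omegaGL_iff hQ (by simp; omega),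
    H7.mem_decompositionStabilizer_iff, Subgroup.mem_inf]

end Cfsg.Agent.S5697
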