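import Cfsg.Statements.S5699
import Cfsg.Agent.H7.NondegO

set_option autoImplicit false
open Cfsg

namespace Cfsg.Agent.S5699

/-- Let F be a finite field with q elements, n ≥ 13 even, Q a non-degenerate quadratic form on F^n (of either type), and Ω the commutator subgroup of the isometry group of Q, viewed inside GL_n(F). Let D be a decomposition of F^n into two orthogonal subspaces of odd dimension n/2 on which the polar form is non-degenerate and which are not Q-isometric to each other. Then the elements of Ω permuting (necessarily fixing) the two subspaces form a maximal subgroup of Ω. -/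
theorem result {F : Type*} [Field F] [Fintype F] {n : ℕ} (hn : 13 ≤ n) (heven : Even n) (Q : (Fin n → F) → F) (hQ : Cfsg.Geo.IsNondegenerateQuadraticForm Q) (k : ℕ) (hk : 2 * k = n) (hko : Odd k) (D : Fin 2 → Submodule F (Fin n → F)) (hD : Cfsg.Geo.IsNondegenerateMDecomposition (QuadraticMap.polar Q) k D) (hni : ¬ Cfsg.Geo.AreIsometricFor Q (D 0) (D 1)) : Cfsg.Geo.IsMaximalIn (Cfsg.Geo.omegaGL Q) (Cfsg.Geo.decompositionStabilizer D ⊓ Cfsg.Geo.omegaGL Q) := by
  have hn' : Module.finrank F (Fin n → F) = n := by simp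
  have hd := (H7.oPolar hQ).finrank_perp (D 0)
  have h0 := hD.decomp.finrank_eq 0
  have h1 := hD.decomp.finrank_eq 1
  have hperp : D 1 = (H7.oPolar hQ).perp (D 0) :=
    Submodule.eq_of_le_of_finrank_eq (fun x hx u hu => hD.orthogonal 1 0 (by decide) x hx u hu)
      (by omega)
  have hni' : ∀ g ∈ (H7.oPolar hQ).Iso,
      (D 1).map (g : (Fin n → F) →ₗ[F] (Fin n → F)) ≠ D 0 := by
    intro g hg h
    refine hni ⟨((g.submoduleMap (D 1)).trans (LinearEquiv.ofEq _ _ h)).symm, fun w => ?_⟩
    obtain ⟨w, rfl⟩ := ((g.submoduleMap (D 1)).trans (LinearEquiv.ofEq _ _ h)).surjective w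
    rw [LinearEquiv.symm_apply_apply]
    exact ((H7.mem_oPolar_Iso hQ).1 hg _).symm
  have key : Cfsg.Geo.decompositionStabilizer D ⊓ Cfsg.Geo.omegaGL Q =
      Cfsg.Geo.subspaceStabilizer (D 0) ⊓ Cfsg.Geo.omegaGL Q := by
    ext g
    simp only [Subgroup.mem_inf]
    refine and_congr_left fun hg => ?_
    have hg' := H7.Polar.E_le_Iso ((H7.mem_omegaGL_iff hQ (by simp; omega) g).1 hg)
    rw [H7.mem_subspaceStabilizer_iff, H7.mem_stab_iff_map, H7.toLE_coe]
    constructor
    · rintro ⟨σ, hσ⟩
      have h2 : σ 1 ≠ 0 := fun h => hni' _ hg' (by rw [H7.toLE_coe, hσ, h])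
      have h3 : σ 0 = 0 := by
        revert h2
        generalize σ = τ
        revert τ
        decide
      rw [hσ, h3]
    · intro h
      refine ⟨1, fun i => ?_⟩
      fin_cases i
      · exact h
      · show (D 1).map _ = D 1
        rw [hperp, ← H7.toLE_coe, H7.Polar.map_perp hg', H7.toLE_coe, h]
  rw [key]
  refine H7.omegaGL_nondeg_maximal hQ (by simp; omega) (hD.nondegenerate 0) ?_ ?_
    (by rwa [← hperp]) ?_
  · intro h; rw [h, finrank_bot] at h0; omega
  · intro h; rw [h, finrank_top] at h0; omega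
  · rintro ⟨-, U, hU2, -, -, rfl | h⟩
    · omega
    · have := h.2
      simp at this
      omega

end Cfsg.Agent.S5699
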