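import Cfsg.Statements.S5775
import Cfsg.Agent.H5.SLThree

set_option autoImplicit false
open Cfsg

namespace Cfsg.Agent.S5775

/-- Every maximal subgroup of SL_3(q) is of one of the listed geometric types or lies in the residual class. Let F be a finite field with q elements and H a maximal subgroup of SL_3(F) (viewed inside GL_3(F)). Then H is the intersection with SL_3(F) of one of: the stabiliser of a proper non-zero subspace; for q ≥ 5, the stabiliser of a decomposition of F^3 into three independent lines; for q ≠ 4, the normaliser of a degree-3 subfield of the matrix algebra; a subfield group for a subfield F₀ with |F| = |F₀|^r, r prime; for q = p ≡ 1 mod 3 prime, the normaliser of an absolutely irreducible 3-subgroup R of exponent 3 with centre of order 3, all of whose characteristic abelian subgroups are cyclic, of order 3^(1+2m) for some m ≥ 1, with F the smallest field of characteristic p containing the cube roots of unity (so R is extraspecial of order 27); for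 q odd, the similarity group of a non-degenerate quadratic form; the similarity group of a non-degenerate unitary form — or else H lies in the residual class of the linear case (modulo scalars H is almost simple, with absolutely irreducible perfect socle preimage realisable over no proper subfield and fixing no non-degenerate quadratic, symplectic or unitary form). -/
theorem result {F : Type*} [Field F] [Fintype F] (H : Subgroup (Matrix.GeneralLinearGroup (Fin 3) F)) (hH : Cfsg.Geo.IsMaximalIn (Cfsg.Geo.specialLinear (Fin 3) F) H) :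
    (∃ W : Submodule F (Fin 3 → F), W ≠ ⊥ ∧ W ≠ ⊤ ∧ H = Cfsg.Geo.subspaceStabilizer W ⊓ Cfsg.Geo.specialLinear (Fin 3) F) ∨
    (5 ≤ Fintype.card F ∧ ∃ D : Fin 3 → Submodule F (Fin 3 → F), Cfsg.Geo.IsMDecomposition 1 D ∧ H = Cfsg.Geo.decompositionStabilizer D ⊓ Cfsg.Geo.specialLinear (Fin 3) F) ∨
    (Fintype.card F ≠ 4 ∧ ∃ K : Subalgebra F (Matrix (Fin 3) (Fin 3) F), Cfsg.Geo.IsFieldSubalgebra 3 K ∧ H = Cfsg.Geo.subalgebraNormalizer K ⊓ Cfsg.Geo.specialLinear (Fin 3) F) ∨
    (∃ (F₀ : Subfield F) (r : ℕ) (P : Matrix.GeneralLinearGroup (Fin 3) F), r.Prime ∧ Fintype.card F = Nat.card F₀ ^ r ∧ H = Cfsg.Geo.subfieldSubgroup F₀ P ⊓ Cfsg.Geo.specialLinear (Fin 3) F) ∨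
    (∃ (p : ℕ) (R : Subgroup (Matrix.GeneralLinearGroup (Fin 3) F)), p.Prime ∧ Fintype.card F = p ∧ p % 3 = 1 ∧ Cfsg.Geo.IsLinearSymplecticTypeData 3 R ∧ H = Cfsg.Geo.subgroupNormalizer R ⊓ Cfsg.Geo.specialLinear (Fin 3) F) ∨
    (Odd (Fintype.card F) ∧ ∃ Q : (Fin 3 → F) → F, Cfsg.Geo.IsNondegenerateQuadraticForm Q ∧ H = Cfsg.Geo.quadSimilarityGroup Q ⊓ Cfsg.Geo.specialLinear (Fin 3) F) ∨
    (∃ (σ : F ≃+* F) (f : (Fin 3 → F) → (Fin 3 → F) → F), Cfsg.Geo.IsUnitaryForm σ f ∧ H = Cfsg.Geo.similarityGroup f ⊓ Cfsg.Geo.specialLinear (Fin 3) F) ∨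
    Cfsg.Geo.InLinearResidualClass H := by
  have hn : Fintype.card (Fin 3) = 3 := Fintype.card_fin 3
  rcases Cfsg.Agent.H5.SL.maximal_cases hH hn.ge with h | ⟨hI, t, m, D, hD, htm, ht, hm, h1, h2, h⟩ |
    ⟨r, K, hr, hd, hK, h⟩ | ⟨a, b, e, P, ha, hab, hc, h1, h⟩ | h | ⟨r, R, hR, ⟨m, hm⟩, h⟩ |
    ⟨m, t, e, P, hm, ht, hc, h⟩ | (h | ⟨he, h⟩ | h) | h
  · exact Or.inl h
  · rw [hn] at htm
    obtain rfl : m = 1 := by nlinarith
    obtain rfl : t = 3 := by omega
    exact Or.inr (Or.inl ⟨h1 rfl, D, hD, h⟩)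
  · rw [hn] at hd
    obtain rfl : r = 3 := (Nat.prime_dvd_prime_iff_eq hr Nat.prime_three).1 hd
    by_cases h4 : Fintype.card F = 4
    · exact Or.inr (Or.inr (Or.inr (Or.inl (Cfsg.Agent.H5.SL.eq5_of_linC5 hH hn.ge
        (Cfsg.Agent.H5.SL.cubic_four h4 hK hH.1.le (h ▸ inf_le_left))))))
    · exact Or.inr (Or.inr (Or.inl ⟨h4, K, hK, h⟩))
  · rw [hn] at hc
    nlinarith
  · exact Or.inr (Or.inr (Or.inr (Or.inl h)))
  · rw [hn] at hm
    obtain rfl : r = 3 := Cfsg.Agent.H5.SL.eq_of_pow hR.symplecticType.prime (by norm_num) hm (by norm_num)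
    obtain ⟨p, hp1, hp2, hp3⟩ := Cfsg.Agent.H5.SL.data_three hR
    iterate 4 right
    exact Or.inl ⟨p, R, hp1, hp2, hp3, hR, h⟩
  · rw [hn] at hc
    have := Cfsg.Agent.H5.SL.pow_cases hm ht hc (by norm_num)
    omega
  · iterate 5 right
    exact Or.inl h
  · rw [hn] at he
    exact absurd he (by decide)
  · iterate 6 right
    exact Or.inl h
  · iterate 7 right
    exact h

end Cfsg.Agent.S5775
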