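import Cfsg.Statements.S5778
import Cfsg.Agent.H5.SUThree4

set_option autoImplicit false
open Cfsg

namespace Cfsg.Agent.S5778

/-- Every maximal subgroup of SU_3(q), q ≥ 3, is of one of the listed geometric types or lies in the residual class. Let F be the field with q² elements, f the standard unitary form Σ u_i v_i^q on F^3, and H a maximal subgroup of SU_3(q) (the determinant-one isometries of f, inside GL_3(F)). Then H is the intersection with SU_3(q) of one of: the stabiliser of a non-zero subspace on which f vanishes; the stabiliser of a non-degenerate 1-space; for q ≠ 5, the stabiliser of a decomposition into three mutually orthogonal non-degenerate 1-spaces; for q ≠ 3, 5, the normaliser of an adjoint-closed degree-3 subfield of the matrix algebra; a subfield group of odd prime index whose F₀-structure carries f; for q odd, q ≥ 7, a subfield group of index 2 whose F₀-structure carries f;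 for q = p ≡ 2 mod 3 prime with p ≥ 11, the normaliser of an absolutely irreducible subgroup of order 27 with centre of order 3, exponent 3 and all characteristic abelian subgroups cyclic, contained in the similarity group of f — or else H lies in the residual class of the unitary case. -/
theorem result {F : Type*} [Field F] [Fintype F] (q : ℕ) (hF : Fintype.card F = q ^ 2) (hq : 3 ≤ q) (H : Subgroup (Matrix.GeneralLinearGroup (Fin 3) F)) (hH : Cfsg.Geo.IsMaximalIn (Cfsg.GU 3 F q ⊓ Cfsg.Geo.specialLinear (Fin 3) F) H) :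
    (∃ W : Submodule F (Fin 3 → F), W ≠ ⊥ ∧ Cfsg.Geo.IsTotallySingularFor (Cfsg.hermForm 3 F q) W ∧ H = Cfsg.Geo.subspaceStabilizer W ⊓ (Cfsg.GU 3 F q ⊓ Cfsg.Geo.specialLinear (Fin 3) F)) ∨
    (∃ W : Submodule F (Fin 3 → F), W ≠ ⊥ ∧ Cfsg.Geo.IsNondegenerateOn (Cfsg.hermForm 3 F q) W ∧ 2 * Module.finrank F W < 3 ∧ H = Cfsg.Geo.subspaceStabilizer W ⊓ (Cfsg.GU 3 F q ⊓ Cfsg.Geo.specialLinear (Fin 3) F)) ∨
    (q ≠ 5 ∧ ∃ D : Fin 3 → Submodule F (Fin 3 → F), Cfsg.Geo.IsNondegenerateMDecomposition (Cfsg.hermForm 3 F q) 1 D ∧ H = Cfsg.Geo.decompositionStabilizer D ⊓ (Cfsg.GU 3 F q ⊓ Cfsg.Geo.specialLinear (Fin 3) F)) ∨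
    (q ≠ 3 ∧ q ≠ 5 ∧ ∃ K : Subalgebra F (Matrix (Fin 3) (Fin 3) F), Cfsg.Geo.IsFieldSubalgebra 3 K ∧ Cfsg.Geo.IsAdjointClosedFor (Cfsg.hermForm 3 F q) K ∧ H = Cfsg.Geo.subalgebraNormalizer K ⊓ (Cfsg.GU 3 F q ⊓ Cfsg.Geo.specialLinear (Fin 3) F)) ∨
    (∃ (F₀ : Subfield F) (r : ℕ) (P : Matrix.GeneralLinearGroup (Fin 3) F), r.Prime ∧ Odd r ∧ Fintype.card F = Nat.card F₀ ^ r ∧ Cfsg.Geo.IsFormRationalStructure (Cfsg.hermForm 3 F q) F₀ 1 P ∧ H = Cfsg.Geo.subfieldSubgroup F₀ P ⊓ (Cfsg.GU 3 F q ⊓ Cfsg.Geo.specialLinear (Fin 3) F)) ∨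
    (Odd q ∧ 7 ≤ q ∧ ∃ (F₀ : Subfield F) (P : Matrix.GeneralLinearGroup (Fin 3) F), Fintype.card F = Nat.card F₀ ^ 2 ∧ Cfsg.Geo.IsFormRationalStructure (Cfsg.hermForm 3 F q) F₀ 1 P ∧ H = Cfsg.Geo.subfieldSubgroup F₀ P ⊓ (Cfsg.GU 3 F q ⊓ Cfsg.Geo.specialLinear (Fin 3) F)) ∨
    (∃ (p : ℕ) (R : Subgroup (Matrix.GeneralLinearGroup (Fin 3) F)), p.Prime ∧ q = p ∧ p % 3 = 2 ∧ 11 ≤ p ∧ Cfsg.Geo.IsSymplecticTypeGroup 3 R ∧ Cfsg.Geo.ActsAbsolutelyIrreducibly (Cfsg.Geo.matrixSet R) ∧ R ≤ Cfsg.Geo.similarityGroup (Cfsg.hermForm 3 F q) ∧ Nat.card R = 27 ∧ Nat.card (Subgroup.center R) = 3 ∧ H = Cfsg.Geo.subgroupNormalizer R ⊓ (Cfsg.GU 3 F q ⊓ Cfsg.Geo.specialLinear (Fin 3) F)) ∨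
    Cfsg.Geo.InUnitaryResidualClass H := by
----
  have hH' : Cfsg.Geo.IsMaximalIn (Cfsg.Agent.H5.SU.SUG (Cfsg.Agent.Asch.qInv hF) 1) H :=
    Cfsg.Agent.H5.SU.SUn_eq (n := 3) hF ▸ hH
  have hG := Cfsg.Agent.Asch.herm_one (ι := Fin 3) hF
  have hne := Cfsg.Agent.Asch.qInv_ne hF
  rcases Cfsg.Agent.H5.SU.maximal_cases hF (by norm_num) (fun _ => hq) hH with h | h |
    ⟨t, m, D, hD, htm, ht, hm, h2, -, h⟩ | ⟨-, m, D, hm, hD, h1, h⟩ | ⟨-, r, K, hr, ho, hd, hK, h1, h⟩ |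
    ⟨a, b, e, P, f₁, f₂, ha, hab, hc, h1, h⟩ | ⟨-, h | ⟨ho, F₀, P, h1, h2, h⟩ | ⟨he, h⟩⟩ | h |
    ⟨k, t, e, P, f₁, hk, ht, hc, h1, h⟩ | h
  · exact Or.inl h
  · exact Or.inr (Or.inl h)
  · obtain rfl : m = 1 := by nlinarith
    obtain rfl : t = 3 := by omega
    refine Or.inr (Or.inr (Or.inl ⟨?_, D, hD, h⟩))
    rintro rfl
    rw [Cfsg.Agent.Asch.hermForm_eq hF] at hD
    exact Cfsg.Agent.H5.SU.frames_three_five hF hG hne hD hH' (h ▸ inf_le_left)
  · omega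
  · obtain rfl : r = 3 := (Nat.prime_dvd_prime_iff_eq hr Nat.prime_three).1 hd
    refine Or.inr (Or.inr (Or.inr (Or.inl ⟨?_, ?_, K, hK, h1, h⟩))) <;> rintro rfl <;>
      rw [Cfsg.Agent.Asch.hermForm_eq hF] at h1
    · exact Cfsg.Agent.H5.SU.singer_three_three hF hG hne (Fintype.card_fin 3) hK h1 hH' (h ▸ inf_le_left)
    · exact Cfsg.Agent.H5.SU.singer_three_five hF hG hne (Fintype.card_fin 3) hK h1 hH' (h ▸ inf_le_left)
  · nlinarith
  · exact Or.inr (Or.inr (Or.inr (Or.inr (Or.inl h))))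
  · iterate 5 right
    refine Or.inl ⟨ho, ?_, F₀, P, h1, h2, h⟩
    by_contra h7
    rw [Cfsg.Agent.Asch.hermForm_eq hF] at h2
    obtain rfl | rfl : q = 3 ∨ q = 5 := by obtain ⟨k, hk⟩ := ho; omega
    · exact Cfsg.Agent.H5.SU.orth_three_three hF hG hne h1 h2 hH' (h ▸ inf_le_left)
    · exact Cfsg.Agent.H5.SU.orth_three_five hF hG hne h1 h2 hH' (h ▸ inf_le_left)
  · exact absurd he (by decide)
  · obtain ⟨p, R, h1, rfl, h3, h4⟩ := Cfsg.Agent.H5.SU.data_three (k := 1) (c := 27) hF h rfl one_ne_zero rfl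
    iterate 6 right
    refine Or.inl ⟨q, R, h1, rfl, h3, ?_, h4⟩
    by_contra h11
    obtain rfl | rfl : q = 5 ∨ q = 8 := by omega
    · obtain ⟨-, -, R, -, -, -, -, -, -, -, -, k1, -, -, k2, -, -, k3, k4⟩ :=
        Cfsg.Agent.H5.SU.odd_data (k := 1) hF h Nat.prime_three (by decide) rfl one_ne_zero
      exact Cfsg.Agent.H5.SU.c6_three_five hF hG hne (Fintype.card_fin 3) k4 (fun r hr => by
        have := Monoid.pow_exponent_eq_one (⟨r, hr⟩ : R)
        rw [k1.exponent_eq] at this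
        exact congrArg Subtype.val this) (Cfsg.Agent.Asch.fixesGram_of_le_GU hF k2) hH' (k3 ▸ inf_le_left)
    · exact absurd h1 (by decide)
  · have := Cfsg.Agent.H5.SL.pow_cases hk ht hc (by norm_num)
    omega
  · iterate 7 right
    exact h

end Cfsg.Agent.S5778
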