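import Cfsg.Statements.S5781
import Cfsg.Agent.H5.SLFour

set_option autoImplicit false
open Cfsg

namespace Cfsg.Agent.S5781

/-- Every maximal subgroup of SL_4(q) is of one of the listed geometric types or lies in the residual class. Let F be a finite field with q elements and H a maximal subgroup of SL_4(F) (inside GL_4(F)). Then H is the intersection with SL_4(F) of one of: the stabiliser of a proper non-zero subspace; for q ≥ 7, the stabiliser of a decomposition into four independent lines; for q ≥ 4, the stabiliser of a decomposition into two independent planes; the normaliser of a degree-2 subfield of the matrix algebra; a subfield group for a subfield F₀ with |F| = |F₀|^r, r prime; for q = p ≡ 1 mod 4 prime, the normaliser of an absolutely irreducible 2-subgroup R of exponent 4 with centre of order 4, all of whose characteristic abelian subgroups are cyclic, of order 2^(2+2m) for some m (here |R| = 64), with 4 dividing p − 1; for q odd, the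 similarity group of a non-degenerate quadratic form; the similarity group of a non-degenerate symplectic form; the similarity group of a non-degenerate unitary form — or else H lies in the residual class of the linear case. -/
theorem result {F : Type*} [Field F] [Fintype F] (H : Subgroup (Matrix.GeneralLinearGroup (Fin 4) F)) (hH : Cfsg.Geo.IsMaximalIn (Cfsg.Geo.specialLinear (Fin 4) F) H) :
    (∃ W : Submodule F (Fin 4 → F), W ≠ ⊥ ∧ W ≠ ⊤ ∧ H = Cfsg.Geo.subspaceStabilizer W ⊓ Cfsg.Geo.specialLinear (Fin 4) F) ∨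
    (7 ≤ Fintype.card F ∧ ∃ D : Fin 4 → Submodule F (Fin 4 → F), Cfsg.Geo.IsMDecomposition 1 D ∧ H = Cfsg.Geo.decompositionStabilizer D ⊓ Cfsg.Geo.specialLinear (Fin 4) F) ∨
    (4 ≤ Fintype.card F ∧ ∃ D : Fin 2 → Submodule F (Fin 4 → F), Cfsg.Geo.IsMDecomposition 2 D ∧ H = Cfsg.Geo.decompositionStabilizer D ⊓ Cfsg.Geo.specialLinear (Fin 4) F) ∨
    (∃ K : Subalgebra F (Matrix (Fin 4) (Fin 4) F), Cfsg.Geo.IsFieldSubalgebra 2 K ∧ H = Cfsg.Geo.subalgebraNormalizer K ⊓ Cfsg.Geo.specialLinear (Fin 4) F) ∨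
    (∃ (F₀ : Subfield F) (r : ℕ) (P : Matrix.GeneralLinearGroup (Fin 4) F), r.Prime ∧ Fintype.card F = Nat.card F₀ ^ r ∧ H = Cfsg.Geo.subfieldSubgroup F₀ P ⊓ Cfsg.Geo.specialLinear (Fin 4) F) ∨
    (∃ (p : ℕ) (R : Subgroup (Matrix.GeneralLinearGroup (Fin 4) F)), p.Prime ∧ Fintype.card F = p ∧ p % 4 = 1 ∧ Cfsg.Geo.IsLinearSymplecticTypeData 2 R ∧ H = Cfsg.Geo.subgroupNormalizer R ⊓ Cfsg.Geo.specialLinear (Fin 4) F) ∨
    (Odd (Fintype.card F) ∧ ∃ Q : (Fin 4 → F) → F, Cfsg.Geo.IsNondegenerateQuadraticForm Q ∧ H = Cfsg.Geo.quadSimilarityGroup Q ⊓ Cfsg.Geo.specialLinear (Fin 4) F) ∨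
    (∃ f : (Fin 4 → F) → (Fin 4 → F) → F, Cfsg.Geo.IsSymplecticForm f ∧ H = Cfsg.Geo.similarityGroup f ⊓ Cfsg.Geo.specialLinear (Fin 4) F) ∨
    (∃ (σ : F ≃+* F) (f : (Fin 4 → F) → (Fin 4 → F) → F), Cfsg.Geo.IsUnitaryForm σ f ∧ H = Cfsg.Geo.similarityGroup f ⊓ Cfsg.Geo.specialLinear (Fin 4) F) ∨
    Cfsg.Geo.InLinearResidualClass H := by
  have hn : Fintype.card (Fin 4) = 4 := Fintype.card_fin 4
  have hn3 : 3 ≤ Fintype.card (Fin 4) := by rw [hn]; norm_num
  have h8 : Cfsg.Agent.H5.SL.Eq8 H → _ ∨ _ ∨ _ ∨ Cfsg.Geo.InLinearResidualClass H := fun h =>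
    h.imp id (Or.imp And.right Or.inl)
  rcases Cfsg.Agent.H5.SL.maximal_cases hH hn3 with h | ⟨hI, t, m, D, hD, htm, ht, hm, h1, h2, h⟩ |
    ⟨r, K, hr, hd, hK, h⟩ | ⟨a, b, e, P, ha, hab, hc, h1, h⟩ | h | ⟨r, R, hR, ⟨m, hm⟩, h⟩ |
    ⟨m, t, e, P, hm, ht, hc, h⟩ | h | h
  · exact Or.inl h
  · rw [hn] at htm
    have hle : m ≤ 2 := by nlinarith
    interval_cases m
    · obtain rfl : t = 4 := by omega
      by_cases h7 : 7 ≤ Fintype.card F
      · exact Or.inr (Or.inl ⟨h7, D, hD, h⟩)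
      have h5 : Fintype.card F = 5 := by
        have := h1 rfl
        have := Cfsg.Agent.H5.SL.card_ne_six (F := F)
        omega
      iterate 4 right
      rcases Cfsg.Agent.H5.SL.lines_five h5 hD hI hH.1.le (h ▸ inf_le_left) with h | ⟨R, hR, h⟩ | h
      · exact Or.inl (Cfsg.Agent.H5.SL.eq5_of_linC5 hH hn3 h)
      · obtain ⟨p, hp1, hp2, hp3⟩ := Cfsg.Agent.H5.SL.data_two hR hn3
        exact Or.inr (Or.inl ⟨p, R, hp1, hp2, hp3, hR, Cfsg.Agent.H5.SL.eq_inf_of_maximal hH h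
          (Cfsg.Agent.H5.SL.not_le_subgroupNormalizer hn3 hR)⟩)
      · exact Or.inr (Or.inr (h8 (Cfsg.Agent.H5.SL.eq8_of_linC8 hH hn3 h)))
    · obtain rfl : t = 2 := by omega
      by_cases h4 : 4 ≤ Fintype.card F
      · exact Or.inr (Or.inr (Or.inl ⟨h4, D, hD, h⟩))
      have h3 : Fintype.card F = 3 := by
        have := h2 rfl
        omega
      iterate 6 right
      exact h8 (Cfsg.Agent.H5.SL.eq8_of_linC8 hH hn3
        (Cfsg.Agent.H5.SL.linC8_planes_three h3 hD hH.1.le (h ▸ inf_le_left)))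
  · rw [hn] at hd
    have hle := Nat.le_of_dvd (by norm_num) hd
    have h2 := hr.two_le
    interval_cases r
    · exact Or.inr (Or.inr (Or.inr (Or.inl ⟨K, hK, h⟩)))
    · exact absurd hd (by norm_num)
    · exact absurd hr (by norm_num)
  · rw [hn] at hc
    nlinarith
  · exact Or.inr (Or.inr (Or.inr (Or.inr (Or.inl h))))
  · rw [hn] at hm
    obtain rfl : r = 2 := Cfsg.Agent.H5.SL.eq_of_pow hR.symplecticType.prime (by norm_num) hm (by norm_num)
    obtain ⟨p, hp1, hp2, hp3⟩ := Cfsg.Agent.H5.SL.data_two hR hn3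
    iterate 5 right
    exact Or.inl ⟨p, R, hp1, hp2, hp3, hR, h⟩
  · rw [hn] at hc
    have := Cfsg.Agent.H5.SL.pow_cases hm ht hc (by norm_num)
    omega
  · iterate 6 right
    exact h8 h
  · iterate 9 right
    exact h

end Cfsg.Agent.S5781
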