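import Cfsg.Statements.S5784
import Cfsg.Agent.H5.SUFour

set_option autoImplicit false
open Cfsg

namespace Cfsg.Agent.S5784

open Cfsg.Agent.H5 Cfsg.Agent.Asch in
theorem small_fix {F : Type*} [Field F] [Fintype F] {q : ℕ} (hF : Fintype.card F = q ^ 2) (hq : q ≤ 3)
    (x : F) (hx : qInv hF x = x) (h0 : x ≠ 0) : x * x = 1 := by
  have h2 := SU.two_le_q hF
  rw [qInv_apply] at hx
  apply mul_left_cancel₀ h0
  interval_cases q
  · linear_combination (x + 1) * hx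
  · linear_combination hx

/-- Every maximal subgroup of SU_4(q) is of one of the listed geometric types or lies in the residual class. Let F be the field with q² elements, f the standard unitary form Σ u_i v_i^q on F^4, and H a maximal subgroup of SU_4(q) (inside GL_4(F)). Then H is the intersection with SU_4(q) of one of: the stabiliser of a non-zero subspace on which f vanishes; the stabiliser of a non-degenerate 1-space; for q ≠ 3, the stabiliser of a decomposition into four mutually orthogonal non-degenerate 1-spaces; for q ≥ 3, of a decomposition into two orthogonal non-degenerate 2-spaces; for q ≥ 4, of a decomposition into two totally isotropic 2-spaces; a subfield group of odd prime index whose F₀-structure carries f; a subfield group of index 2 whose F₀-structure carries ζ f, vanishing on pairs (u, u), for some non-zero ζ with ζ + ζ^q = 0; for q odd, a subfield group of index 2 whose F₀-structure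 carries f; for q = p ≡ 3 mod 4 prime, the normaliser of an absolutely irreducible symplectic-type 2-group of exponent 4, order 64 and centre of order 4 inside the similarity group of f — or else H lies in the residual class of the unitary case. -/
theorem result {F : Type*} [Field F] [Fintype F] (q : ℕ) (hF : Fintype.card F = q ^ 2) (H : Subgroup (Matrix.GeneralLinearGroup (Fin 4) F)) (hH : Cfsg.Geo.IsMaximalIn (Cfsg.GU 4 F q ⊓ Cfsg.Geo.specialLinear (Fin 4) F) H) :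
    (∃ W : Submodule F (Fin 4 → F), W ≠ ⊥ ∧ Cfsg.Geo.IsTotallySingularFor (Cfsg.hermForm 4 F q) W ∧ H = Cfsg.Geo.subspaceStabilizer W ⊓ (Cfsg.GU 4 F q ⊓ Cfsg.Geo.specialLinear (Fin 4) F)) ∨
    (∃ W : Submodule F (Fin 4 → F), W ≠ ⊥ ∧ Cfsg.Geo.IsNondegenerateOn (Cfsg.hermForm 4 F q) W ∧ 2 * Module.finrank F W < 4 ∧ H = Cfsg.Geo.subspaceStabilizer W ⊓ (Cfsg.GU 4 F q ⊓ Cfsg.Geo.specialLinear (Fin 4) F)) ∨
    (q ≠ 3 ∧ ∃ D : Fin 4 → Submodule F (Fin 4 → F), Cfsg.Geo.IsNondegenerateMDecomposition (Cfsg.hermForm 4 F q) 1 D ∧ H = Cfsg.Geo.decompositionStabilizer D ⊓ (Cfsg.GU 4 F q ⊓ Cfsg.Geo.specialLinear (Fin 4) F)) ∨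
    (3 ≤ q ∧ ∃ D : Fin 2 → Submodule F (Fin 4 → F), Cfsg.Geo.IsNondegenerateMDecomposition (Cfsg.hermForm 4 F q) 2 D ∧ H = Cfsg.Geo.decompositionStabilizer D ⊓ (Cfsg.GU 4 F q ⊓ Cfsg.Geo.specialLinear (Fin 4) F)) ∨
    (4 ≤ q ∧ ∃ D : Fin 2 → Submodule F (Fin 4 → F), Cfsg.Geo.IsMDecomposition 2 D ∧ (∀ i, Cfsg.Geo.IsTotallySingularFor (Cfsg.hermForm 4 F q) (D i)) ∧ H = Cfsg.Geo.decompositionStabilizer D ⊓ (Cfsg.GU 4 F q ⊓ Cfsg.Geo.specialLinear (Fin 4) F)) ∨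
    (∃ (F₀ : Subfield F) (r : ℕ) (P : Matrix.GeneralLinearGroup (Fin 4) F), r.Prime ∧ Odd r ∧ Fintype.card F = Nat.card F₀ ^ r ∧ Cfsg.Geo.IsFormRationalStructure (Cfsg.hermForm 4 F q) F₀ 1 P ∧ H = Cfsg.Geo.subfieldSubgroup F₀ P ⊓ (Cfsg.GU 4 F q ⊓ Cfsg.Geo.specialLinear (Fin 4) F)) ∨
    (∃ (F₀ : Subfield F) (P : Matrix.GeneralLinearGroup (Fin 4) F) (ζ : F), Fintype.card F = Nat.card F₀ ^ 2 ∧ ζ ≠ 0 ∧ ζ + ζ ^ q = 0 ∧ Cfsg.Geo.IsFormRationalStructure (Cfsg.hermForm 4 F q) F₀ ζ P ∧ (∀ u : Fin 4 → F, (∀ i, u i ∈ F₀) → (Cfsg.hermForm 4 F q) (Matrix.mulVec (P : Matrix (Fin 4) (Fin 4) F) u) (Matrix.mulVec (P : Matrix (Fin 4) (Fin 4) F) u) = 0) ∧ H = Cfsg.Geo.subfieldSubgroup F₀ P ⊓ (Cfsg.GU 4 F q ⊓ Cfsg.Geo.specialLinear (Fin 4) F)) ∨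
    (Odd q ∧ ∃ (F₀ : Subfield F) (P : Matrix.GeneralLinearGroup (Fin 4) F), Fintype.card F = Nat.card F₀ ^ 2 ∧ Cfsg.Geo.IsFormRationalStructure (Cfsg.hermForm 4 F q) F₀ 1 P ∧ H = Cfsg.Geo.subfieldSubgroup F₀ P ⊓ (Cfsg.GU 4 F q ⊓ Cfsg.Geo.specialLinear (Fin 4) F)) ∨
    (∃ (p : ℕ) (R : Subgroup (Matrix.GeneralLinearGroup (Fin 4) F)), p.Prime ∧ q = p ∧ p % 4 = 3 ∧ Cfsg.Geo.IsSymplecticTypeGroup 2 R ∧ Cfsg.Geo.ActsAbsolutelyIrreducibly (Cfsg.Geo.matrixSet R) ∧ R ≤ Cfsg.Geo.similarityGroup (Cfsg.hermForm 4 F q) ∧ Nat.card R = 64 ∧ Nat.card (Subgroup.center R) = 4 ∧ H = Cfsg.Geo.subgroupNormalizer R ⊓ (Cfsg.GU 4 F q ⊓ Cfsg.Geo.specialLinear (Fin 4) F)) ∨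
    Cfsg.Geo.InUnitaryResidualClass H := by
  have h5 := fun h : Cfsg.Agent.H5.SU.Eq5 q H => h
  have hle : H ≤ Cfsg.Agent.H5.SU.SUG (Cfsg.Agent.Asch.qInv hF) 1 :=
    Cfsg.Agent.H5.SU.SUn_eq (n := 4) hF ▸ hH.1.le
  have hG := Cfsg.Agent.Asch.herm_one (ι := Fin 4) hF
  have hne := Cfsg.Agent.Asch.qInv_ne hF
  suffices h : _ ∨ _ ∨ _ ∨ _ ∨ _ ∨ Cfsg.Agent.H5.SU.Eq5 q H ∨ Cfsg.Agent.H5.SU.Eq6 q H ∨ _ by
    rcases h with h | h | h | h | h | (h | h | ⟨-, h⟩) | h | h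
    · exact Or.inl h
    · exact Or.inr (Or.inl h)
    · exact Or.inr (Or.inr (Or.inl h))
    · exact Or.inr (Or.inr (Or.inr (Or.inl h)))
    · exact Or.inr (Or.inr (Or.inr (Or.inr (Or.inl h))))
    · iterate 5 right
      exact Or.inl h
    · iterate 7 right
      exact Or.inl h
    · iterate 6 right
      exact Or.inl h
    · iterate 8 right
      exact Or.inl (Cfsg.Agent.H5.SU.data_two (k := 2) hF h (by norm_num) (by norm_num) (by norm_num))
    · iterate 9 right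
      exact h
  rcases Cfsg.Agent.H5.SU.maximal_cases hF (by norm_num) (by omega) hH with h | h |
    ⟨t, m, D, hD, htm, ht, hm, h2, hI, h⟩ | ⟨hI, m, D, hm, hD, h1, h⟩ | ⟨-, r, K, hr, ho, hd, hK, h1, h⟩ |
    ⟨a, b, e, P, f₁, f₂, ha, hab, hc, h1, h⟩ | ⟨-, h⟩ | h | ⟨k, t, e, P, f₁, hk, ht, hc, h1, h⟩ | h
  · exact Or.inl h
  · exact Or.inr (Or.inl h)
  · have hle : m ≤ 2 := by nlinarith
    interval_cases m
    · obtain rfl : t = 4 := by omega
      by_cases hq : q = 3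
      · subst hq
        rw [Cfsg.Agent.Asch.hermForm_eq hF] at hD
        iterate 5 right
        rcases Cfsg.Agent.H5.SU.frames_four_three hF hG hne hD hle (h ▸ inf_le_left) with h | h
        · exact Or.inl (Cfsg.Agent.H5.SU.eq5_of_formC5 hF (by norm_num) hH (hI rfl le_rfl) h)
        · exact Or.inr (Or.inl (Cfsg.Agent.H5.SU.eq6_of_uniC6 hF (by norm_num) (by omega) hH h))
      · exact Or.inr (Or.inr (Or.inl ⟨hq, D, hD, h⟩))
    · obtain rfl : t = 2 := by omega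
      exact Or.inr (Or.inr (Or.inr (Or.inl ⟨h2 rfl, D, hD, h⟩)))
  · obtain rfl : m = 2 := by omega
    by_cases hq : 4 ≤ q
    · exact Or.inr (Or.inr (Or.inr (Or.inr (Or.inl ⟨hq, D, hD, h1, h⟩))))
    · rw [Cfsg.Agent.Asch.hermForm_eq hF] at h1
      iterate 5 right
      exact Or.inl (Cfsg.Agent.H5.SU.eq5_of_formC5 hF (by norm_num) hH hI
        (Cfsg.Agent.H5.SU.pair_four (small_fix hF (by omega)) hG hne hD h1 hle (h ▸ inf_le_left)))
  · have := Cfsg.Agent.H5.SL.eq_of_pow (m := 2) Nat.prime_two hr rfl hd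
    subst this
    exact absurd ho (by decide)
  · nlinarith
  · iterate 5 right
    exact Or.inl h
  · iterate 6 right
    exact Or.inl h
  · have := Cfsg.Agent.H5.SL.pow_cases hk ht hc (by norm_num)
    omega
  · iterate 7 right
    exact h

end Cfsg.Agent.S5784
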