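import Cfsg.Statements.S5791
import Cfsg.Agent.Sp4E.Glue
import Cfsg.Agent.Sp4E.TvC

set_option autoImplicit false
open Cfsg

namespace Cfsg.Agent.S5791

/-- The maximal subgroups of Sp_4(q), q ≥ 4 even, in the residual class. Let F be a finite field of even order q ≥ 4 and H a maximal subgroup of Sp_4(F) (isometries of the standard alternating form on F^4) lying in the residual class of the symplectic case. Then q = 2^(2m+1) with m ≥ 1 and the perfect socle preimage P of H is, modulo scalars, isomorphic to the Suzuki group over F (the subgroup Sz(F, θ) of the four-dimensional symplectic group with θ(x) = x^(2^(m+1))). -/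
theorem result {F : Type*} [Field F] [Fintype F] (heven : ¬ Odd (Fintype.card F)) (h4 : 4 ≤ Fintype.card F) (H : Subgroup (Matrix.GeneralLinearGroup (Fin 2 ⊕ Fin 2) F)) (hH : Cfsg.Geo.IsMaximalIn (Cfsg.spGL 2 F) H) (hS : Cfsg.Geo.InSymplecticResidualClass H) :
    ∃ (P : Subgroup (Matrix.GeneralLinearGroup (Fin 2 ⊕ Fin 2) F)) (m : ℕ), Cfsg.Geo.IsResidualCore H P ∧ 1 ≤ m ∧ Fintype.card F = 2 ^ (2 * m + 1) ∧
    Nonempty ((P ⧸ (Cfsg.Geo.scalars (Fin 2 ⊕ Fin 2) F).subgroupOf P) ≃* Cfsg.Lie.Sz F (2 ^ (m + 1))) := by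
  letI := Sp4E.charP_of_even heven
  exact Sp4E.main h4 (fun P h u hu => Sp4E.no_tv h4 P h u hu) H hH.1 hS

end Cfsg.Agent.S5791
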