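import Cfsg.Statements.S5793
import Cfsg.Agent.H5.SLMax

set_option autoImplicit false
open Cfsg

namespace Cfsg.Agent.S5793

/-- Every maximal subgroup of SL_5(q) is of one of the listed geometric types or lies in the residual class. Let F be a finite field with q elements (p its characteristic) and H a maximal subgroup of SL_5(F) (inside GL_5(F)). Then H is the intersection with SL_5(F) of one of: the stabiliser of a proper non-zero subspace; for q ≥ 5, the stabiliser of a decomposition into 5 independent 1-spaces; the normaliser of a degree-5 subfield of the matrix algebra; a subfield group for a subfield F₀ with |F| = |F₀|^r, r prime; for q = p prime with p ≡ 1 mod 5, the normaliser of an absolutely irreducible 5-subgroup R of exponent 5 and order 5^(1+2m) with centre of order 5, all of whose characteristic abelian subgroups are cyclic, F being the smallest field of characteristic p containing the fifth roots of unity (here R is extraspecial of order 125); for q odd, the similarity group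 of a non-degenerate quadratic form; the similarity group of a non-degenerate unitary form — or else H lies in the residual class of the linear case (modulo scalars H is almost simple, with absolutely irreducible perfect socle preimage realisable over no proper subfield and fixing no non-degenerate quadratic, symplectic or unitary form). -/
theorem result {F : Type*} [Field F] [Fintype F] (H : Subgroup (Matrix.GeneralLinearGroup (Fin 5) F)) (hH : Cfsg.Geo.IsMaximalIn (Cfsg.Geo.specialLinear (Fin 5) F) H) :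
    (∃ W : Submodule F (Fin 5 → F), W ≠ ⊥ ∧ W ≠ ⊤ ∧ H = Cfsg.Geo.subspaceStabilizer W ⊓ Cfsg.Geo.specialLinear (Fin 5) F) ∨
    (5 ≤ Fintype.card F ∧ ∃ D : Fin 5 → Submodule F (Fin 5 → F), Cfsg.Geo.IsMDecomposition 1 D ∧ H = Cfsg.Geo.decompositionStabilizer D ⊓ Cfsg.Geo.specialLinear (Fin 5) F) ∨
    (∃ K : Subalgebra F (Matrix (Fin 5) (Fin 5) F), Cfsg.Geo.IsFieldSubalgebra 5 K ∧ H = Cfsg.Geo.subalgebraNormalizer K ⊓ Cfsg.Geo.specialLinear (Fin 5) F) ∨
    (∃ (F₀ : Subfield F) (r : ℕ) (P : Matrix.GeneralLinearGroup (Fin 5) F), r.Prime ∧ Fintype.card F = Nat.card F₀ ^ r ∧ H = Cfsg.Geo.subfieldSubgroup F₀ P ⊓ Cfsg.Geo.specialLinear (Fin 5) F) ∨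
    ((∃ p : ℕ, p.Prime ∧ Fintype.card F = p ∧ (p % 5 = 1)) ∧ ∃ R : Subgroup (Matrix.GeneralLinearGroup (Fin 5) F), Cfsg.Geo.IsLinearSymplecticTypeData 5 R ∧ H = Cfsg.Geo.subgroupNormalizer R ⊓ Cfsg.Geo.specialLinear (Fin 5) F) ∨
    (Odd (Fintype.card F) ∧ ∃ Q : (Fin 5 → F) → F, Cfsg.Geo.IsNondegenerateQuadraticForm Q ∧ H = Cfsg.Geo.quadSimilarityGroup Q ⊓ Cfsg.Geo.specialLinear (Fin 5) F) ∨
    (∃ (σ : F ≃+* F) (f : (Fin 5 → F) → (Fin 5 → F) → F), Cfsg.Geo.IsUnitaryForm σ f ∧ H = Cfsg.Geo.similarityGroup f ⊓ Cfsg.Geo.specialLinear (Fin 5) F) ∨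
    Cfsg.Geo.InLinearResidualClass H := by
  have hn : Fintype.card (Fin 5) = 5 := Fintype.card_fin 5
  rcases Cfsg.Agent.H5.SL.maximal_cases hH (by rw [hn]; norm_num) with h | ⟨-, t, m, D, hD, htm, ht, hm, h1, h2, h⟩ |
    ⟨r, K, hr, hd, hK, h⟩ | ⟨a, b, e, P, ha, hab, hc, h1, h⟩ | h | ⟨r, R, hR, ⟨m, hm⟩, h⟩ |
    ⟨m, t, e, P, hm, ht, hc, h⟩ | (h | ⟨he, h⟩ | h) | h
  · exact Or.inl h
  · rw [hn] at htm
    have hle : m ≤ 2 := by nlinarith
    interval_cases m
    · obtain rfl : t = 5 := by omega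
      exact Or.inr (Or.inl ⟨h1 rfl, D, hD, h⟩)
    · omega
  · rw [hn] at hd
    have hle := Nat.le_of_dvd (by norm_num) hd
    have h2 := hr.two_le
    interval_cases r
    · exact absurd hd (by norm_num)
    · exact absurd hd (by norm_num)
    · exact absurd hd (by norm_num)
    · exact Or.inr (Or.inr (Or.inl ⟨K, hK, h⟩))
  · rw [hn] at hc
    have hle : a ≤ 3 := by nlinarith
    interval_cases a
    · omega
    · omega
  · exact Or.inr (Or.inr (Or.inr (Or.inl h)))
  · rw [hn] at hm
    obtain rfl : r = 5 := Cfsg.Agent.H5.SL.eq_of_pow hR.symplecticType.prime (by norm_num) hm (by norm_num)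
    exact Or.inr (Or.inr (Or.inr (Or.inr (Or.inl ⟨Cfsg.Agent.H5.SL.data_five hR, R, hR, h⟩))))
  · rw [hn] at hc
    have := Cfsg.Agent.H5.SL.pow_cases hm ht hc (by norm_num)
    omega
  · exact Or.inr (Or.inr (Or.inr (Or.inr (Or.inr (Or.inl h)))))
  · rw [hn] at he
    exact absurd he (by decide)
  · exact Or.inr (Or.inr (Or.inr (Or.inr (Or.inr (Or.inr (Or.inl h))))))
  · exact Or.inr (Or.inr (Or.inr (Or.inr (Or.inr (Or.inr (Or.inr (h)))))))

end Cfsg.Agent.S5793
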