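import Cfsg.Statements.S5802
import Cfsg.Agent.H5.SUSix

set_option autoImplicit false
open Cfsg

namespace Cfsg.Agent.S5802

/-- Every maximal subgroup of SU_6(q) is of one of the listed geometric types or lies in the residual class. Let F be the field with q² elements, f the standard unitary form Σ u_i v_i^q on F^6, and H a maximal subgroup of SU_6(q) (inside GL_6(F)). Then H is the intersection with SU_6(q) of one of: the stabiliser of a non-zero totally isotropic subspace; the stabiliser of a non-degenerate 1- or 2-space; for q ≥ 3, the stabiliser of a decomposition into six mutually orthogonal non-degenerate 1-spaces; for q ≥ 3, of a decomposition into three mutually orthogonal non-degenerate 2-spaces; of a decomposition into two orthogonal non-degenerate 3-spaces; of a decomposition into two totally isotropic 3-spaces; for q ≥ 3, the normaliser of an adjoint-closed degree-3 subfield of the matrix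 algebra; for q ≥ 3, the stabiliser of a tensor decomposition of f into unitary forms on F^2 and F^3; a subfield group of odd prime index whose F₀-structure carries f; a subfield group of index 2 and symplectic type; for q odd, a subfield group of index 2 and orthogonal type — or else H lies in the residual class of the unitary case. -/
theorem result {F : Type*} [Field F] [Fintype F] (q : ℕ) (hF : Fintype.card F = q ^ 2) (H : Subgroup (Matrix.GeneralLinearGroup (Fin 6) F)) (hH : Cfsg.Geo.IsMaximalIn (Cfsg.GU 6 F q ⊓ Cfsg.Geo.specialLinear (Fin 6) F) H) :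
    (∃ W : Submodule F (Fin 6 → F), W ≠ ⊥ ∧ Cfsg.Geo.IsTotallySingularFor (Cfsg.hermForm 6 F q) W ∧ H = Cfsg.Geo.subspaceStabilizer W ⊓ (Cfsg.GU 6 F q ⊓ Cfsg.Geo.specialLinear (Fin 6) F)) ∨
    (∃ W : Submodule F (Fin 6 → F), W ≠ ⊥ ∧ Cfsg.Geo.IsNondegenerateOn (Cfsg.hermForm 6 F q) W ∧ 2 * Module.finrank F W < 6 ∧ H = Cfsg.Geo.subspaceStabilizer W ⊓ (Cfsg.GU 6 F q ⊓ Cfsg.Geo.specialLinear (Fin 6) F)) ∨
    (3 ≤ q ∧ ∃ D : Fin 6 → Submodule F (Fin 6 → F), Cfsg.Geo.IsNondegenerateMDecomposition (Cfsg.hermForm 6 F q) 1 D ∧ H = Cfsg.Geo.decompositionStabilizer D ⊓ (Cfsg.GU 6 F q ⊓ Cfsg.Geo.specialLinear (Fin 6) F)) ∨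
    (3 ≤ q ∧ ∃ D : Fin 3 → Submodule F (Fin 6 → F), Cfsg.Geo.IsNondegenerateMDecomposition (Cfsg.hermForm 6 F q) 2 D ∧ H = Cfsg.Geo.decompositionStabilizer D ⊓ (Cfsg.GU 6 F q ⊓ Cfsg.Geo.specialLinear (Fin 6) F)) ∨
    (∃ D : Fin 2 → Submodule F (Fin 6 → F), Cfsg.Geo.IsNondegenerateMDecomposition (Cfsg.hermForm 6 F q) 3 D ∧ H = Cfsg.Geo.decompositionStabilizer D ⊓ (Cfsg.GU 6 F q ⊓ Cfsg.Geo.specialLinear (Fin 6) F)) ∨
    (∃ D : Fin 2 → Submodule F (Fin 6 → F), Cfsg.Geo.IsMDecomposition 3 D ∧ (∀ i, Cfsg.Geo.IsTotallySingularFor (Cfsg.hermForm 6 F q) (D i)) ∧ H = Cfsg.Geo.decompositionStabilizer D ⊓ (Cfsg.GU 6 F q ⊓ Cfsg.Geo.specialLinear (Fin 6) F)) ∨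
    (3 ≤ q ∧ ∃ K : Subalgebra F (Matrix (Fin 6) (Fin 6) F), Cfsg.Geo.IsFieldSubalgebra 3 K ∧ Cfsg.Geo.IsAdjointClosedFor (Cfsg.hermForm 6 F q) K ∧ H = Cfsg.Geo.subalgebraNormalizer K ⊓ (Cfsg.GU 6 F q ⊓ Cfsg.Geo.specialLinear (Fin 6) F)) ∨
    (3 ≤ q ∧ ∃ (e : Fin 6 ≃ Fin 2 × Fin 3) (P : Matrix.GeneralLinearGroup (Fin 6) F) (f₁ : (Fin 2 → F) → (Fin 2 → F) → F) (f₂ : (Fin 3 → F) → (Fin 3 → F) → F), Cfsg.Geo.IsUnitaryFormPow q f₁ ∧ Cfsg.Geo.IsUnitaryFormPow q f₂ ∧ Cfsg.Geo.IsTensorFormStructure (fun x : F => x ^ q) (Cfsg.hermForm 6 F q) f₁ f₂ e P ∧ H = Cfsg.Geo.tensorProductSubgroup 2 3 e P ⊓ (Cfsg.GU 6 F q ⊓ Cfsg.Geo.specialLinear (Fin 6) F)) ∨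
    (∃ (F₀ : Subfield F) (r : ℕ) (P : Matrix.GeneralLinearGroup (Fin 6) F), r.Prime ∧ Odd r ∧ Fintype.card F = Nat.card F₀ ^ r ∧ Cfsg.Geo.IsFormRationalStructure (Cfsg.hermForm 6 F q) F₀ 1 P ∧ H = Cfsg.Geo.subfieldSubgroup F₀ P ⊓ (Cfsg.GU 6 F q ⊓ Cfsg.Geo.specialLinear (Fin 6) F)) ∨
    (∃ (F₀ : Subfield F) (P : Matrix.GeneralLinearGroup (Fin 6) F) (ζ : F), Fintype.card F = Nat.card F₀ ^ 2 ∧ ζ ≠ 0 ∧ ζ + ζ ^ q = 0 ∧ Cfsg.Geo.IsFormRationalStructure (Cfsg.hermForm 6 F q) F₀ ζ P ∧ (∀ u : Fin 6 → F, (∀ i, u i ∈ F₀) → (Cfsg.hermForm 6 F q) (Matrix.mulVec (P : Matrix (Fin 6) (Fin 6) F) u) (Matrix.mulVec (P : Matrix (Fin 6) (Fin 6) F) u) = 0) ∧ H = Cfsg.Geo.subfieldSubgroup F₀ P ⊓ (Cfsg.GU 6 F q ⊓ Cfsg.Geo.specialLinear (Fin 6) F)) ∨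
    (Odd q ∧ ∃ (F₀ : Subfield F) (P : Matrix.GeneralLinearGroup (Fin 6) F), Fintype.card F = Nat.card F₀ ^ 2 ∧ Cfsg.Geo.IsFormRationalStructure (Cfsg.hermForm 6 F q) F₀ 1 P ∧ H = Cfsg.Geo.subfieldSubgroup F₀ P ⊓ (Cfsg.GU 6 F q ⊓ Cfsg.Geo.specialLinear (Fin 6) F)) ∨
    Cfsg.Geo.InUnitaryResidualClass H := by
----
  have hH' : Cfsg.Geo.IsMaximalIn (Cfsg.Agent.H5.SU.SUG (Cfsg.Agent.Asch.qInv hF) 1) H :=
    Cfsg.Agent.H5.SU.SUn_eq (n := 6) hF ▸ hH
  have hG := Cfsg.Agent.Asch.herm_one (ι := Fin 6) hF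
  have hne := Cfsg.Agent.Asch.qInv_ne hF
  have hq2 := Cfsg.Agent.H5.SU.two_le_q hF
  suffices h : _ ∨ _ ∨ _ ∨ _ ∨ _ ∨ _ ∨ _ ∨ _ ∨ Cfsg.Agent.H5.SU.Eq5 q H ∨ _ by
    rcases h with h | h | h | h | h | h | h | h | (h | h | ⟨-, h⟩) | h
    · exact Or.inl h
    · exact Or.inr (Or.inl h)
    · exact Or.inr (Or.inr (Or.inl h))
    · exact Or.inr (Or.inr (Or.inr (Or.inl h)))
    · exact Or.inr (Or.inr (Or.inr (Or.inr (Or.inl h))))
    · iterate 5 right
      exact Or.inl h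
    · iterate 6 right
      exact Or.inl h
    · iterate 7 right
      exact Or.inl h
    · iterate 8 right
      exact Or.inl h
    · iterate 10 right
      exact Or.inl h
    · iterate 9 right
      exact Or.inl h
    · iterate 11 right
      exact h
  rcases Cfsg.Agent.H5.SU.maximal_cases hF (by norm_num) (by omega) hH with h | h |
    ⟨t, m, D, hD, htm, ht, hm, h2, hI, h⟩ | ⟨hI, m, D, hm, hD, h1, h⟩ | ⟨hI, r, K, hr, ho, hd, hK, h1, h⟩ |
    ⟨a, b, e, P, f₁, f₂, ha, hab, hc, h1, h⟩ | ⟨-, h⟩ | h | ⟨k, t, e, P, f₁, hk, ht, hc, h1, h⟩ | h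
  · exact Or.inl h
  · exact Or.inr (Or.inl h)
  · have hle : m ≤ 3 := by nlinarith
    interval_cases m
    · obtain rfl : t = 6 := by omega
      by_cases hq : 3 ≤ q
      · exact Or.inr (Or.inr (Or.inl ⟨hq, D, hD, h⟩))
      · obtain rfl : q = 2 := by omega
        rw [Cfsg.Agent.Asch.hermForm_eq hF] at hD
        exact (Cfsg.Agent.H5.SU.frames_six_two hF hG hne hD hH' (h ▸ inf_le_left)).elim
    · obtain rfl : t = 3 := by omega
      exact Or.inr (Or.inr (Or.inr (Or.inl ⟨h2 rfl, D, hD, h⟩)))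
    · obtain rfl : t = 2 := by omega
      exact Or.inr (Or.inr (Or.inr (Or.inr (Or.inl ⟨D, hD, h⟩))))
  · obtain rfl : m = 3 := by omega
    iterate 5 right
    exact Or.inl ⟨D, hD, h1, h⟩
  · have hle := Nat.le_of_dvd (by norm_num) hd
    have h2 := hr.two_le
    interval_cases r
    · exact absurd ho (by decide)
    · by_cases hq : 3 ≤ q
      · iterate 6 right
        exact Or.inl ⟨hq, K, hK, h1, h⟩
      · obtain rfl : q = 2 := by omega
        rw [Cfsg.Agent.Asch.hermForm_eq hF] at h1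
        iterate 8 right
        exact Or.inl (Cfsg.Agent.H5.SU.eq5_of_formC5 hF (by norm_num) hH hI
          (Cfsg.Agent.H5.SU.cubic_six_two hF hG hne (Fintype.card_fin 6) hK h1 hH'.1.le (h ▸ inf_le_left)))
    · exact absurd ho (by decide)
    · exact absurd hd (by decide)
    · exact absurd ho (by decide)
  · obtain rfl : a = 2 := by nlinarith
    obtain rfl : b = 3 := by omega
    iterate 7 right
    exact Or.inl ⟨h1 rfl, e, P, f₁, f₂, h⟩
  · iterate 8 right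
    exact Or.inl h
  · exact (Cfsg.Agent.H5.SU.not_eq6 h (a := 2) (b := 3) (by norm_num) (by norm_num) (by norm_num)
      (by norm_num) (by norm_num)).elim
  · have := Cfsg.Agent.H5.SL.pow_cases hk ht hc (by norm_num)
    omega
  · iterate 9 right
    exact h

end Cfsg.Agent.S5802
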