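import Cfsg.Statements.S5826
import Cfsg.Agent.H8.OTab3

set_option autoImplicit false
open Cfsg

namespace Cfsg.Agent.S5826

open Cfsg.Agent.H8

/-- Every maximal subgroup of Ω_8^-(q) is of one of the listed geometric types or lies in the residual class. Let F be a finite field with q elements, Q a non-degenerate quadratic form on F^8 of minus type (no totally singular 4-space), Ω the commutator subgroup of its isometry group, and H a maximal subgroup of Ω (inside GL_8(F)). Then H is the intersection with Ω of one of: the stabiliser of a non-zero totally singular subspace; for q odd, the stabiliser of a non-degenerate subspace of odd dimension; the stabiliser of a non-degenerate 2-space of minus type; for q ≥ 4, the stabiliser of a non-degenerate 2-space of plus type; the stabiliser of a non-degenerate 4-space; for q even, the stabiliser of the span of a non-singular vector; the normaliser of a degree-2 subfield of the matrix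 algebra; a subfield group of odd prime index whose F₀-structure carries a non-zero multiple of Q — or else H lies in the residual class of the orthogonal case (modulo scalars H is almost simple, with absolutely irreducible perfect socle preimage realisable over no proper subfield and fixing no non-degenerate unitary form). -/
theorem result {F : Type*} [Field F] [Fintype F] (Q : (Fin 8 → F) → F) (hQ : Cfsg.Geo.IsNondegenerateQuadraticForm Q) (hminus : ¬ Cfsg.Geo.IsPlusTypeOn Q ⊤) (H : Subgroup (Matrix.GeneralLinearGroup (Fin 8) F)) (hH : Cfsg.Geo.IsMaximalIn (Cfsg.Geo.omegaGL Q) H) :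
    (∃ W : Submodule F (Fin 8 → F), W ≠ ⊥ ∧ Cfsg.Geo.IsTotallySingularQuad Q W ∧ H = Cfsg.Geo.subspaceStabilizer W ⊓ Cfsg.Geo.omegaGL Q) ∨
    (Odd (Fintype.card F) ∧ ∃ W : Submodule F (Fin 8 → F), W ≠ ⊥ ∧ W ≠ ⊤ ∧ Odd (Module.finrank F W) ∧ Cfsg.Geo.IsNondegenerateOn (QuadraticMap.polar Q) W ∧ H = Cfsg.Geo.subspaceStabilizer W ⊓ Cfsg.Geo.omegaGL Q) ∨
    (∃ W : Submodule F (Fin 8 → F), Module.finrank F W = 2 ∧ Cfsg.Geo.IsNondegenerateOn (QuadraticMap.polar Q) W ∧ ¬ Cfsg.Geo.IsPlusTypeOn Q W ∧ H = Cfsg.Geo.subspaceStabilizer W ⊓ Cfsg.Geo.omegaGL Q) ∨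
    (4 ≤ Fintype.card F ∧ ∃ W : Submodule F (Fin 8 → F), Module.finrank F W = 2 ∧ Cfsg.Geo.IsNondegenerateOn (QuadraticMap.polar Q) W ∧ Cfsg.Geo.IsPlusTypeOn Q W ∧ H = Cfsg.Geo.subspaceStabilizer W ⊓ Cfsg.Geo.omegaGL Q) ∨
    (∃ W : Submodule F (Fin 8 → F), Module.finrank F W = 4 ∧ Cfsg.Geo.IsNondegenerateOn (QuadraticMap.polar Q) W ∧ H = Cfsg.Geo.subspaceStabilizer W ⊓ Cfsg.Geo.omegaGL Q) ∨
    (¬ Odd (Fintype.card F) ∧ ∃ v : (Fin 8 → F), Q v ≠ 0 ∧ H = Cfsg.Geo.subspaceStabilizer (Submodule.span F {v}) ⊓ Cfsg.Geo.omegaGL Q) ∨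
    (∃ K : Subalgebra F (Matrix (Fin 8) (Fin 8) F), Cfsg.Geo.IsFieldSubalgebra 2 K ∧ H = Cfsg.Geo.subalgebraNormalizer K ⊓ Cfsg.Geo.omegaGL Q) ∨
    (∃ (F₀ : Subfield F) (r : ℕ) (P : Matrix.GeneralLinearGroup (Fin 8) F) (ζ : F), r.Prime ∧ Odd r ∧ Fintype.card F = Nat.card F₀ ^ r ∧ ζ ≠ 0 ∧ Cfsg.Geo.IsQuadFormRationalStructure (fun v : Fin 8 → F => ζ * Q v) F₀ P ∧ H = Cfsg.Geo.subfieldSubgroup F₀ P ⊓ Cfsg.Geo.omegaGL Q) ∨
    Cfsg.Geo.InOrthogonalResidualClass H := by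
  have hm : ¬ Plus (toQF hQ) ⊤ := hminus
  rcases oeven_max (nd_toQF hQ) (n := 8) (by simp) (by decide) le_rfl (by norm_num) hH with
    ⟨W, h1, h2, -, h⟩ | ⟨h1, W, h2, h3, h4, -, h⟩ | h | h | h | ⟨m, h1, D, h2, -, -, h, -⟩ | h |
    ⟨t, k, h1, h2, D, -, -, h3, -, h4, -⟩ | ⟨h, -⟩ | ⟨r, h1, h2, -, -, K, h3, -, h⟩ |
    ⟨h, -⟩ | ⟨h, -⟩ | ⟨h, -⟩ | ⟨F₀, r, P, ζ, h1, h2, h⟩ | ⟨-, h⟩ | h
  · exact Or.inl ⟨W, h1, h2, h⟩
  · exact Or.inr (Or.inl ⟨h1, W, h2, h3, h4, h⟩)
  · exact Or.inr (Or.inr (Or.inl h))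
  · iterate 3 right
    exact Or.inl h
  · iterate 4 right
    exact Or.inl h
  · iterate 4 right
    exact Or.inl ⟨D 0, by rw [h2.decomp.finrank_eq]; omega, h2.nondegenerate 0, h⟩
  · iterate 5 right
    exact Or.inl h
  · have : t ≤ 8 := by nlinarith [Nat.pos_of_ne_zero (n := k) (by rintro rfl; omega)]
    obtain ⟨rfl, rfl⟩ | ⟨rfl, rfl⟩ | ⟨rfl, rfl⟩ : (t = 2 ∧ k = 4) ∨ (t = 4 ∧ k = 2) ∨
        (t = 8 ∧ k = 1) := by interval_cases t <;> omega
    · exact absurd ((h3 (by decide)).2 (Or.inr (by decide))) hm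
    · exact absurd ((h3 (by decide)).2 (Or.inr (by decide))) hm
    · exact absurd ((h4 (by decide)).2.2 (Or.inr (by decide))) hm
  · exact absurd h hm
  · obtain rfl : r = 2 := (Nat.prime_dvd_prime_iff_eq h1 Nat.prime_two).1
      (h1.dvd_of_dvd_pow (n := 3) h2)
    iterate 6 right
    exact Or.inl ⟨K, h3, h⟩
  · exact absurd (h.2 (by decide)) hm
  · exact absurd h hm
  · omega
  · iterate 7 right
    exact Or.inl ⟨F₀, r, P, ζ, h1, h2 hm, h⟩
  · exact absurd h hm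
  · iterate 8 right
    exact h

end Cfsg.Agent.S5826
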