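import Cfsg.Statements.S5876
import Cfsg.Agent.H3.FixSpace
import Cfsg.Agent.H3.ClassTwo

set_option autoImplicit false
open Cfsg

namespace Cfsg.Agent.S5876

/-- Fixed-point spaces in primitive soluble linear groups. Let F be a finite field and G a soluble subgroup of GL_n(F) that acts irreducibly on F^n and primitively (G preserves no decomposition of F^n into two or more independent subspaces of equal dimension). Then every non-identity element g of G has fixed-point space {v : g v = v} of dimension at most 3n/4. -/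
theorem result {F : Type*} [Field F] [Fintype F] {n : ℕ} (G : Subgroup (Matrix.GeneralLinearGroup (Fin n) F)) (hsol : IsSolvable G) (hirr : Cfsg.Geo.ActsIrreducibly (Cfsg.Geo.matrixSet G)) (hprim : ∀ (m t : ℕ) (D : Fin t → Submodule F (Fin n → F)), 2 ≤ t → Cfsg.Geo.IsMDecomposition m D → ¬ G ≤ Cfsg.Geo.decompositionStabilizer D) (g : Matrix.GeneralLinearGroup (Fin n) F) (hg : g ∈ G) (hg1 : g ≠ 1) :
    4 * Module.finrank F (Module.End.eigenspace (Matrix.toLin' (g : Matrix (Fin n) (Fin n) F)) 1) ≤ 3 * n := by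
  open Cfsg.Agent.Asch Cfsg.Agent.H3.FixSpace in
  have hsol' : Group.IsSolvable G := hsol
  have hI : Irred G := (irred_iff G).2 hirr
  refine Cfsg.Agent.H3.ClassTwo.four_mul_le (G := G) n
    (fun x => Module.finrank F (Module.End.eigenspace
      (Matrix.toLin' ((x : Matrix.GeneralLinearGroup (Fin n) F) : Matrix (Fin n) (Fin n) F)) 1))
    (fun x y => ?_) (fun A hA hcomm a ha ha1 => ?_) ⟨g, hg⟩ (fun h => hg1 (congrArg Subtype.val h))
  · have := two_mul_finrank_le (x : Matrix.GeneralLinearGroup (Fin n) F) y (1 : F)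
    rw [Fintype.card_fin] at this
    exact this
  · have hN : GNorms G (A.map G.subtype) := by
      rintro h hh _ ⟨x, hx, rfl⟩
      exact ⟨_, hA.conj_mem x hx ⟨h, hh⟩, rfl⟩
    have hc : ∀ x ∈ spanAlg F (A.map G.subtype), ∀ y ∈ spanAlg F (A.map G.subtype),
        x * y = y * x := by
      intro x hx y hy
      refine comm_spanAlg (fun u hu => (comm_spanAlg (fun v hv => ?_) hx).symm) hy
      obtain ⟨u, hu, rfl⟩ := hu
      obtain ⟨v, hv, rfl⟩ := hv
      exact congrArg (fun z : G => ((z : Matrix.GeneralLinearGroup (Fin n) F) :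
        Matrix (Fin n) (Fin n) F)) (hcomm u hu v hv)
    rcases hI.field_or_decomp (hN.norms_spanAlg F) hc with h | ⟨t, m, D, hD, hle⟩
    · obtain ⟨y, hy, hxy⟩ := h (((a : Matrix.GeneralLinearGroup (Fin n) F) :
          Matrix (Fin n) (Fin n) F) - 1)
        (sub_mem (coe_mem_spanAlg ⟨a, ha, rfl⟩) (one_mem _)) (by
          rw [sub_ne_zero]
          intro e
          exact ha1 (Subtype.ext (Units.ext e)))
      rw [Submodule.finrank_eq_zero, eq_bot_iff]
      intro v hv
      rw [mem_eig, one_smul] at hv
      rw [Submodule.mem_bot, ← Matrix.one_mulVec v, ← mul_eq_one_comm.mp hxy,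
        ← Matrix.mulVec_mulVec, Matrix.sub_mulVec, hv, Matrix.one_mulVec, sub_self,
        Matrix.mulVec_zero]
    · exact absurd hle (hprim m t D hD.two_le hD)

end Cfsg.Agent.S5876
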