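import Cfsg.Statements.S5877
import Cfsg.Agent.H3.ExNorm

set_option autoImplicit false
open Cfsg

namespace Cfsg.Agent.S5877

/-- Eigenspaces of elements normalising an absolutely irreducible extraspecial group. Let F be a finite field, r a prime, and R ≤ GL_n(F) an absolutely irreducible extraspecial r-group (an r-group whose centre equals its derived subgroup and has order r) of exponent r or 4. Let g ∈ GL_n(F) normalise the product of R with the scalar matrices, have prime order ϖ and not be scalar, and let W be the eigenspace of g for any c ∈ F (W may be the zero subspace). Then dim W ≤ 3n/4 if ϖ = 2, dim W ≤ 2n/3 if ϖ = 3, and dim W ≤ n/2 if ϖ > 3; moreover if ϖ = 3 and 3 does not divide n then dim W ≤ n/2. -/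
theorem result {F : Type*} [Field F] [Fintype F] {n r ϖ : ℕ} (R : Subgroup (Matrix.GeneralLinearGroup (Fin n) F)) (hr : r.Prime) (hR : IsPGroup r R) (hZ : Nat.card (Subgroup.center R) = r) (hext : commutator R = Subgroup.center R) (hexp : Monoid.exponent R = r ∨ Monoid.exponent R = 4) (hirr : Cfsg.Geo.ActsAbsolutelyIrreducibly (Cfsg.Geo.matrixSet R)) (g : Matrix.GeneralLinearGroup (Fin n) F) (hg : g ∈ Cfsg.Geo.subgroupNormalizer (R ⊔ Cfsg.Geo.scalars (Fin n) F)) (hϖ : ϖ.Prime) (hord : orderOf g = ϖ) (hns : g ∉ Cfsg.Geo.scalars (Fin n) F) (c : F) :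
    (ϖ = 2 → 4 * Module.finrank F (Module.End.eigenspace (Matrix.toLin' (g : Matrix (Fin n) (Fin n) F)) c) ≤ 3 * n) ∧
    (ϖ = 3 → 3 * Module.finrank F (Module.End.eigenspace (Matrix.toLin' (g : Matrix (Fin n) (Fin n) F)) c) ≤ 2 * n) ∧
    (3 < ϖ → 2 * Module.finrank F (Module.End.eigenspace (Matrix.toLin' (g : Matrix (Fin n) (Fin n) F)) c) ≤ n) ∧
    (ϖ = 3 → ¬ 3 ∣ n → 2 * Module.finrank F (Module.End.eigenspace (Matrix.toLin' (g : Matrix (Fin n) (Fin n) F)) c) ≤ n) := by
  classical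
  haveI : Nonempty (Fin n) := by
    by_contra h0
    rw [not_nonempty_iff] at h0
    exact hns (by rw [Subsingleton.elim g 1]; exact Subgroup.one_mem _)
  have habs : Cfsg.Agent.Asch.AbsIrr R := Cfsg.Agent.Asch.absIrr_of_acts hirr
  have hcen : ∀ x ∈ R, ∀ y ∈ R, ∃ z : Subgroup.center R,
      ((z : R) : Matrix.GeneralLinearGroup (Fin n) F) = x * y * x⁻¹ * y⁻¹ := by
    intro x hx y hy
    have : (⟨x, hx⟩ * ⟨y, hy⟩ * ⟨x, hx⟩⁻¹ * ⟨y, hy⟩⁻¹ : R) ∈ Subgroup.center R := by
      rw [← hext]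
      exact Subgroup.commutator_mem_commutator (Subgroup.mem_top _) (Subgroup.mem_top _)
    exact ⟨⟨_, this⟩, rfl⟩
  have hcomm : ∀ x ∈ R, ∀ y ∈ R, ∃ c : F, (x : Matrix (Fin n) (Fin n) F) * y =
      c • ((y : Matrix (Fin n) (Fin n) F) * x) := by
    intro x hx y hy
    obtain ⟨z, hz⟩ := hcen x hx y hy
    refine Cfsg.Agent.Asch.exists_twist_of_mem ?_
    rw [← hz]
    exact habs.mem_scalars_of_comm fun w hw =>
      (congrArg Subtype.val (Subgroup.mem_center_iff.1 z.2 ⟨w, hw⟩)).symm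
  have hD : Cfsg.Agent.Asch.RData r R := by
    refine ⟨hr, habs, hcomm, fun x hx => habs.mem_scalars_of_comm fun y hy => ?_⟩
    obtain ⟨z, hz⟩ := hcen x hx y hy
    obtain ⟨a, ha⟩ := hcomm x hx y hy
    have h1 := Cfsg.Agent.Asch.mem_of_twist ha
    have h2 : z ^ r = 1 := by rw [← hZ]; exact pow_card_eq_one'
    have h3 : (x * y * x⁻¹ * y⁻¹) ^ r = 1 := by
      rw [← hz]
      exact congrArg (fun t : Subgroup.center R => ((t : R) : Matrix.GeneralLinearGroup (Fin n) F)) h2
    have h4 : a ^ r = 1 := by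
      apply Cfsg.Agent.Asch.smul_one_injective (ι := Fin n)
      have := congrArg (fun t : Matrix.GeneralLinearGroup (Fin n) F => (t : Matrix (Fin n) (Fin n) F)) h3
      simp only [Units.val_pow_eq_pow_val, h1, smul_pow, one_pow, Units.val_one] at this
      simpa using this
    apply Units.ext
    rw [Units.val_mul, Units.val_mul, Units.val_pow_eq_pow_val, Cfsg.Agent.Asch.pow_mul_of_twist ha,
      h4, one_smul]
  have hN := hD.sup_scalars
  have hgN : ∀ x ∈ R ⊔ Cfsg.Geo.scalars (Fin n) F, g * x * g⁻¹ ∈ R ⊔ Cfsg.Geo.scalars (Fin n) F :=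
    fun x hx => (Subgroup.mem_normalizer_iff.1 hg x).1 hx
  have hA := Cfsg.Agent.H3.ExNorm.bound_general hN hgN hns c
  have hB := fun h2 => Cfsg.Agent.H3.ExNorm.bound_odd hN hgN hns hϖ h2
    (hord ▸ pow_orderOf_eq_one g) c
  rw [Fintype.card_fin] at hA hB
  have hr2 := hr.two_le
  set d := Module.finrank F (Module.End.eigenspace (Matrix.toLin' (g : Matrix (Fin n) (Fin n) F)) c)
  refine ⟨fun _ => ?_, fun h3 => ?_, fun h3 => ?_, fun h3 hn => ?_⟩
  · by_contra h
    have : 3 * n + 1 ≤ 4 * d := by omega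
    nlinarith
  · rcases hB (by omega) with h | ⟨h, h'⟩
    · omega
    · rw [← h, h3] at h'
      exact h'
  · rcases hB (by omega) with h | ⟨h, h'⟩
    · exact h
    · have : 4 * d ≤ r * d := Nat.mul_le_mul_right d (by omega)
      omega
  · rcases hB (by omega) with h | ⟨h, -⟩
    · exact h
    · exfalso
      obtain ⟨m, hm⟩ := hD.exists_card_eq_pow
      rw [Fintype.card_fin, ← h, h3] at hm
      rcases m with _ | m
      · apply hns
        subst hm
        refine Cfsg.Agent.Asch.mem_scalars_of_eq_smul (c := (g : Matrix (Fin (3 ^ 0)) (Fin (3 ^ 0)) F) 0 0) ?_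
        refine Matrix.ext fun i j => ?_
        rw [Subsingleton.elim (α := Fin 1) i 0, Subsingleton.elim (α := Fin 1) j 0]
        simp
      · exact hn (hm ▸ dvd_pow_self 3 (Nat.succ_ne_zero m))

end Cfsg.Agent.S5877
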