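import Cfsg.Statements.S5938
import Cfsg.Agent.H6.Max

set_option autoImplicit false
open Cfsg

namespace Cfsg.Agent.S5938

open Cfsg.Agent.H6 Cfsg.Agent.H6.Pg


/-- Let p be a prime with p ≡ ±1 (mod 8) and F a field with p elements. Then PSL_2(F) has a maximal subgroup isomorphic to the symmetric group S_4. -/
theorem result {F : Type*} [Field F] [Fintype F] (p : ℕ) [Fact p.Prime] (hF : Fintype.card F = p) (hp : p % 8 = 1 ∨ p % 8 = 7) : ∃ H : Subgroup (Matrix.ProjectiveSpecialLinearGroup (Fin 2) F), IsCoatom H ∧ Nonempty (H ≃* Equiv.Perm (Fin 4)) := by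
  rw [← Nat.card_eq_fintype_card] at hF
  have : CharP F p := charP_of_card_eq_prime (Nat.card_eq_fintype_card.symm.trans hF)
  have hp2 : p ≠ 2 := by omega
  have h4 : 4 ≤ p := by
    have := (Fact.out : p.Prime).two_le
    omega
  obtain ⟨D⟩ := QD.nonempty ((FF.odd_iff (F := F) p).2 hp2)
  obtain ⟨h1, h2⟩ := covBy_of (H := D.N0 ⊓ S F) inf_le_right
    (fun e => D.not_S_le_N0 (by omega) (e.trans inf_le_left)) fun N hN _ =>
      S4_or p hF hp2 D.a4d (hN ⟨D.i_mem_N0, D.i_mem_S⟩) (hN ⟨D.b_mem_N0, D.b_mem_S⟩)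
        (hN ⟨D.q4_mem_N0, D.q4_mem_S (FF.isSquare_two_iff.2 (by omega))⟩) D.order_4
  exact exists_psl h1 h2

end Cfsg.Agent.S5938
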