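import Cfsg.Statements.S5941
import Cfsg.Agent.H6.Max

set_option autoImplicit false
open Cfsg

namespace Cfsg.Agent.S5941

open Cfsg.Agent.H6 Cfsg.Agent.H6.Pg


/-- Let K and F be finite fields of odd characteristic with #F = (#K)². Then PSL_2(F) has a maximal subgroup isomorphic to PGL_2(K). -/
theorem result {F K : Type*} [Field F] [Fintype F] [Field K] [Fintype K] (q : ℕ) (hK : Fintype.card K = q) (hF : Fintype.card F = q ^ 2) (hq : Odd q) : ∃ H : Subgroup (Matrix.ProjectiveSpecialLinearGroup (Fin 2) F), IsCoatom H ∧ Nonempty (H ≃* Matrix.ProjGenLinGroup (Fin 2) K) := by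
  rw [← Nat.card_eq_fintype_card] at hF hK
  subst hK
  obtain ⟨f⟩ := FF.exists_hom hF
  have hc := FF.card_fieldRange f
  have := covBy_subfield (L := f.fieldRange) Nat.prime_two (by rwa [hc])
    (three_le_card (by rw [hF]; exact hq.pow) _)
  rw [inf_of_le_left (PG_le_S (by rwa [hc]))] at this
  exact exists_psl this (equiv_PG f)

end Cfsg.Agent.S5941
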