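import Cfsg.Statements.S5945
import Cfsg.Agent.H6.SymIndex

set_option autoImplicit false
open Cfsg

namespace Cfsg.Agent.S5945

/-- The symmetric group S_6 has exactly 12 subgroups of index 6; each of them is isomorphic to S_5, and at least one of them is not the stabilizer of any point. -/
theorem result : Nat.card {H : Subgroup (Equiv.Perm (Fin 6)) // H.index = 6} = 12 ∧ (∀ H : Subgroup (Equiv.Perm (Fin 6)), H.index = 6 → Nonempty (H ≃* Equiv.Perm (Fin 5))) ∧ ∃ H : Subgroup (Equiv.Perm (Fin 6)), H.index = 6 ∧ ∀ a : Fin 6, H ≠ MulAction.stabilizer (Equiv.Perm (Fin 6)) a := by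
  classical
  have h6 : Nat.card (Fin 6) = 6 := by simp
  obtain ⟨T, hT, hT'⟩ := Cfsg.Agent.H6.SymIndex.exists_transitive_index_six h6
  have hT2 := Cfsg.Agent.H6.SymIndex.not_stab_of_transitive hT'
  have hq : Nat.card (Equiv.Perm (Fin 6) ⧸ T) = 6 := by rw [← Subgroup.index_eq_card, hT]
  refine ⟨?_, ?_, T, hT, fun a h => hT2 ⟨a, h⟩⟩
  · let F : Fin 6 ⊕ (Equiv.Perm (Fin 6) ⧸ T) → {H : Subgroup (Equiv.Perm (Fin 6)) // H.index = 6} :=
      fun o => match o with
      | .inl x => ⟨MulAction.stabilizer _ x, by rw [Cfsg.Agent.H6.SymIndex.index_stab, h6]⟩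
      | .inr c => ⟨MulAction.stabilizer _ c, by
          rw [MulAction.index_stabilizer_of_transitive, hq]⟩
    have hne : ∀ (x : Fin 6) (c : Equiv.Perm (Fin 6) ⧸ T),
        MulAction.stabilizer (Equiv.Perm (Fin 6)) x ≠ MulAction.stabilizer _ c := by
      intro x c h
      obtain ⟨g, hg⟩ := MulAction.exists_smul_eq (Equiv.Perm (Fin 6)) c
        (((1 : Equiv.Perm (Fin 6)) : Equiv.Perm (Fin 6) ⧸ T))
      apply hT2
      refine ⟨g • x, ?_⟩
      rw [MulAction.stabilizer_smul_eq_stabilizer_map_conj, h,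
        ← MulAction.stabilizer_smul_eq_stabilizer_map_conj, hg, MulAction.stabilizer_quotient]
    have hF : Function.Bijective F := by
      constructor
      · rintro (x | c) (y | d) h
        · congr 1
          exact Cfsg.Agent.H6.SymIndex.stab_injective (by simp) (congrArg Subtype.val h)
        · exact absurd (congrArg Subtype.val h) (hne _ _)
        · exact absurd (congrArg Subtype.val h).symm (hne _ _)
        · congr 1
          apply Cfsg.Agent.H6.SymIndex.stab_injective (by omega)
          have h1 : MulAction.stabilizer (Equiv.Perm (Fin 6)) c = MulAction.stabilizer _ d :=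
            congrArg Subtype.val h
          rw [← Cfsg.Agent.H6.SymIndex.comap_cosetEquiv (by simp) T (by rw [hT, h6]),
            ← Cfsg.Agent.H6.SymIndex.comap_cosetEquiv (by simp) T (by rw [hT, h6])] at h1
          exact Subgroup.comap_injective (MulEquiv.surjective _) h1
      · rintro ⟨H, hH⟩
        by_cases hH' : ∃ x : Fin 6, H = MulAction.stabilizer (Equiv.Perm (Fin 6)) x
        · obtain ⟨y, rfl⟩ := hH'
          exact ⟨.inl y, rfl⟩
        · obtain ⟨c, rfl⟩ := Cfsg.Agent.H6.SymIndex.eq_stab_coset h6 hT hT2 hH hH'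
          exact ⟨.inr c, rfl⟩
    rw [← Nat.card_eq_of_bijective F hF, Nat.card_sum, hq, h6]
  · intro H hH
    let e := Cfsg.Agent.H6.SymIndex.cosetEquiv (by simp) H (hH.trans h6.symm)
    let b : Equiv.Perm (Fin 6) ⧸ H := (1 : Equiv.Perm (Fin 6))
    have h1 := Cfsg.Agent.H6.SymIndex.comap_cosetEquiv (by simp) H (hH.trans h6.symm) b
    rw [MulAction.stabilizer_quotient] at h1
    have e1 : H ≃* MulAction.stabilizer (Equiv.Perm (Equiv.Perm (Fin 6) ⧸ H)) b :=
      (MulEquiv.subgroupCongr h1.symm).trans (((e.subgroupMap _).trans (MulEquiv.subgroupCongr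
        (Subgroup.map_comap_eq_self_of_surjective (f := e.toMonoidHom) e.surjective _))))
    have hc : Nat.card {x : Equiv.Perm (Fin 6) ⧸ H // x ≠ b} = Nat.card (Fin 5) := by
      have := Fintype.ofFinite (Equiv.Perm (Fin 6) ⧸ H)
      rw [Nat.card_eq_fintype_card, Fintype.card_subtype_compl, Fintype.card_subtype_eq,
        ← Nat.card_eq_fintype_card, ← Subgroup.index_eq_card, hH]
      simp
    obtain ⟨e2⟩ := Finite.card_eq.1 hc
    exact ⟨e1.trans ((Cfsg.Agent.H6.SymIndex.stabEquiv b).symm.trans e2.permCongrHom)⟩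

end Cfsg.Agent.S5945
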