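import Cfsg.Statements.S5949
import Cfsg.Agent.H8.Subspaces

set_option autoImplicit false
open scoped MatrixGroups
open Cfsg

namespace Cfsg.Agent.S5949

open Polynomial Module Cfsg.Agent.H8

/-- Elements of prime order of PSL_n(q) with no fixed `m`-space. Here `T = PSL_n(F)` for a field `F` with `q = p^f` elements (`n ≥ 2`, `(n, q) ≠ (2, 2), (2, 3)`); an element of `T` of prime order `r` is represented by a matrix `x` of determinant 1 with `x^r` scalar and `x` not scalar; `i` denotes the multiplicative order of `q` modulo `r` (when `r ≠ p`), and `(a)_r` the `r`-part of `a`. Let `1 ≤ m ≤ n/2` and let `r` be a prime dividing the number of `m`-dimensional subspaces of `F^n`. Then every element of `T` of order `r` fixes some `m`-dimensional subspace (the action on `m`-spaces is `r`-elusive) if and only if `r ≠ p` and either (i) `i = 1` and (`r ∣ m`, or `(q−1)_r ≥ (n)_r` where in addition `q ≡ 1 (mod 4)` is required when `r = 2` and `n` is even), or (ii) `2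 ≤ i ≤ m` and `n mod i ≥ m mod i`. -/
theorem result {F : Type*} [Field F] [Fintype F] {p : ℕ} [Fact p.Prime] [CharP F p] {q : ℕ} (hq : Fintype.card F = q)
    (n m : ℕ) (hn : 2 ≤ n) (hT : (n, q) ≠ (2, 2) ∧ (n, q) ≠ (2, 3)) (hm : 1 ≤ m) (hmn : 2 * m ≤ n)
    (r : ℕ) [Fact r.Prime] (hrΩ : r ∣ Nat.card {W : Submodule F (Fin n → F) // Module.finrank F ↥W = m}) :
    (∀ x : Matrix.SpecialLinearGroup (Fin n) F,
      (∃ c : F, ((x ^ r : Matrix.SpecialLinearGroup (Fin n) F) : Matrix (Fin n) (Fin n) F) = c • (1 : Matrix (Fin n) (Fin n) F)) →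
      (∀ c : F, (x : Matrix (Fin n) (Fin n) F) ≠ c • (1 : Matrix (Fin n) (Fin n) F)) →
      ∃ W : Submodule F (Fin n → F), Module.finrank F ↥W = m ∧ W.map (Matrix.toLin' (x : Matrix (Fin n) (Fin n) F)) ≤ W) ↔
    (r ≠ p ∧
      ((orderOf (q : ZMod r) = 1 ∧ (r ∣ m ∨ (padicValNat r n ≤ padicValNat r (q - 1) ∧ (r = 2 → Even n → q % 4 = 1)))) ∨
       (2 ≤ orderOf (q : ZMod r) ∧ orderOf (q : ZMod r) ≤ m ∧ m % orderOf (q : ZMod r) ≤ n % orderOf (q : ZMod r)))) := by
  subst hq
  have hV : finrank F (Fin n → F) = n := by simp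
  have : Nontrivial (Fin n → F) := Module.finrank_pos_iff (R := F).mp (by omega)
  obtain ⟨j, hj1, hj2, hj3⟩ := exists_dvd_of_dvd_card_subspaces (V := Fin n → F) Fact.out
    (by omega) hrΩ
  have hrp : r ≠ p := ne_char_of_dvd (by omega) hj3
  rw [forall_SL_iff r (fun f => ∃ W : Submodule F (Fin n → F), finrank F W = m ∧ W.map f ≤ W)]
  constructor
  · intro h
    refine ⟨hrp, ?_⟩
    have := subCond_of_forall hrp hj1 hj2 hj3 (fun x z h1 h2 h3 => by
      obtain ⟨W, hW, hW'⟩ := h x z h1 h2 h3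
      exact ⟨W, hW, fun v hv => hW' ⟨v, hv, rfl⟩⟩)
    rwa [hV] at this
  · rintro ⟨-, h⟩ x z h1 h2 -
    obtain ⟨U, W, -, h3, h4, -⟩ := exists_isCompl_of_subCond (V := Fin n → F) hrp (m := m)
      (by omega) (by rw [hV]; exact h) h1 h2
    exact ⟨U, h3, by rintro _ ⟨v, hv, rfl⟩; exact h4 v hv⟩

end Cfsg.Agent.S5949
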