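import Cfsg.Statements.S5950
import Cfsg.Agent.H8.Subspaces
import Cfsg.Agent.H8.Unip

set_option autoImplicit false
open scoped MatrixGroups
open Cfsg

namespace Cfsg.Agent.S5950

open Polynomial Module Cfsg.Agent.H8

theorem card_pairs {F : Type*} [Field F] [Fintype F] {V : Type*} [AddCommGroup V] [Module F V]
    [Finite V] {p : ℕ} [Fact p.Prime] [CharP F p] {r : ℕ} (hr : r.Prime) (hrp : r ≠ p) {m : ℕ}
    (h : r ∣ Nat.card {P : Submodule F V × Submodule F V //
        IsCompl P.1 P.2 ∧ finrank F P.1 = m}) :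
    r ∣ Nat.card {W : Submodule F V // finrank F W = m} := by
  classical
  let e : {P : Submodule F V × Submodule F V // IsCompl P.1 P.2 ∧ finrank F P.1 = m} ≃
      Σ U : {W : Submodule F V // finrank F W = m}, {W : Submodule F V // IsCompl U.1 W} :=
    { toFun := fun P => ⟨⟨P.1.1, P.2.2⟩, ⟨P.1.2, P.2.1⟩⟩
      invFun := fun Q => ⟨(Q.1.1, Q.2.1), Q.2.2, Q.1.2⟩
      left_inv := fun P => rfl
      right_inv := fun Q => rfl }
  have : Fintype {W : Submodule F V // finrank F W = m} := Fintype.ofFinite _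
  rw [Nat.card_congr e, Nat.card_sigma] at h
  rcases isEmpty_or_nonempty {W : Submodule F V // finrank F W = m} with hE | ⟨⟨U₀⟩⟩
  · simp
  have key : ∀ U : {W : Submodule F V // finrank F W = m},
      Nat.card {W : Submodule F V // IsCompl U.1 W} =
        Nat.card {W : Submodule F V // IsCompl U₀.1 W} := by
    intro U
    obtain ⟨W, hW⟩ := U.1.exists_isCompl
    obtain ⟨W₀, hW₀⟩ := U₀.1.exists_isCompl
    have h1 := Submodule.finrank_add_eq_of_isCompl hW
    have h2 := Submodule.finrank_add_eq_of_isCompl hW₀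
    obtain ⟨a⟩ := FiniteDimensional.nonempty_linearEquiv_of_finrank_eq (U.2.trans U₀.2.symm)
    obtain ⟨b⟩ := FiniteDimensional.nonempty_linearEquiv_of_finrank_eq
      (show finrank F W = finrank F W₀ by rw [U.2] at h1; rw [U₀.2] at h2; omega)
    let φ : V ≃ₗ[F] V := (Submodule.prodEquivOfIsCompl _ _ hW).symm.trans
      ((a.prodCongr b).trans (Submodule.prodEquivOfIsCompl _ _ hW₀))
    have hφ : (Submodule.orderIsoMapComap φ) U.1 = U₀.1 := by
      apply Submodule.eq_of_le_of_finrank_eq
      · rintro _ ⟨v, hv, rfl⟩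
        have : (φ : V →ₗ[F] V) v = a ⟨v, hv⟩ := by
          have h3 := Submodule.prodEquivOfIsCompl_symm_apply_left U.1 W hW ⟨v, hv⟩
          simp only [φ, LinearEquiv.coe_coe, LinearEquiv.trans_apply]
          rw [h3]
          simp
        rw [this]
        exact (a ⟨v, hv⟩).2
      · exact (LinearEquiv.finrank_map_eq φ U.1).trans (U.2.trans U₀.2.symm)
    refine Nat.card_congr ((Submodule.orderIsoMapComap φ).toEquiv.subtypeEquiv fun W => ?_)
    rw [← hφ]
    exact (Submodule.orderIsoMapComap φ).isCompl_iff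
  rw [Finset.sum_congr rfl (fun U _ => key U), Finset.sum_const, smul_eq_mul, Finset.card_univ,
    ← Nat.card_eq_fintype_card] at h
  rcases (Nat.Prime.dvd_mul hr).mp h with h3 | h3
  · exact h3
  · obtain ⟨k, hk⟩ := card_isCompl U₀.1
    rw [hk] at h3
    exact absurd (eq_char_of_dvd_card hr h3) hrp

theorem two_partition {n m : ℕ} (hmn : m ≤ n) :
    (∀ μ : Multiset ℕ, (∀ a ∈ μ, 0 < a ∧ a ≤ 2) → μ.sum = n → ∃ ν : Multiset ℕ, ν ≤ μ ∧ ν.sum = m)
      ↔ (Odd n ∨ Even m) := by
  constructor
  · intro h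
    by_contra hcon
    rw [not_or, Nat.not_odd_iff_even] at hcon
    obtain ⟨⟨k, hk⟩, h2⟩ := hcon
    obtain ⟨ν, h3, h4⟩ := h (Multiset.replicate k 2) (by
      intro a ha
      rw [Multiset.eq_of_mem_replicate ha]
      omega) (by simp; omega)
    obtain ⟨l, -, rfl⟩ := Multiset.le_replicate_iff.mp h3
    apply h2
    rw [← h4]
    simp
  · intro h μ hμ hs
    have h1 : μ = Multiset.replicate (μ.count 1) 1 + Multiset.replicate (μ.count 2) 2 := by
      ext a
      rw [Multiset.count_add, Multiset.count_replicate, Multiset.count_replicate]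
      by_cases ha : a ∈ μ
      · have := hμ a ha
        split_ifs <;> first | omega | simp_all
      · rw [Multiset.count_eq_zero.mpr ha]
        split_ifs with h1 h2 h2
        · omega
        · subst h1; simp [Multiset.count_eq_zero.mpr ha]
        · subst h2; simp [Multiset.count_eq_zero.mpr ha]
        · rfl
    generalize μ.count 1 = b at h1
    generalize μ.count 2 = a at h1
    subst h1
    simp only [Multiset.sum_add, Multiset.sum_replicate, smul_eq_mul] at hs
    refine ⟨Multiset.replicate (m - 2 * min a (m / 2)) 1 + Multiset.replicate (min a (m / 2)) 2,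
      add_le_add ?_ ?_, ?_⟩
    · rw [Multiset.replicate_le_replicate]
      rcases h with ⟨k, hk⟩ | ⟨k, hk⟩ <;> omega
    · rw [Multiset.replicate_le_replicate]
      omega
    · simp only [Multiset.sum_add, Multiset.sum_replicate, smul_eq_mul]
      omega

/-- Elements of prime order of PSL_n(q) fixing no decomposition `F^n = U ⊕ W` with `dim U = m`. Here `T = PSL_n(F)` for a field `F` with `q = p^f` elements (`n ≥ 2`, `(n, q) ≠ (2, 2), (2, 3)`); an element of `T` of prime order `r` is represented by a matrix `x` of determinant 1 with `x^r` scalar and `x` not scalar; `i` denotes the multiplicative order of `q` modulo `r` (when `r ≠ p`), and `(a)_r` the `r`-part of `a`. Let `n ≥ 3`, `1 ≤ m < n/2`, and let `r` be a prime dividing the number of such decompositions (unordered pairs `{U, W}` of complementary subspaces with `dim U = m`; since `m ≠ n − m` these are the ordered pairs with `dim U = m`). Then every element of `T` of order `r` fixes such a pair (fixes both `U` and `W` for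 some complementary `U, W` with `dim U = m`) if and only if one of: (i) `r = p > 2` and every partition of `n` into parts of size at most `p` contains, as a sub-multiset, a partition of `m`; (ii) `r = p = 2` and `n` is odd or `m` is even; (iii) `r ≠ p`, `i = 1`, and `r ∣ m` or `(q−1)_r ≥ (n)_r` (with `q ≡ 1 (mod 4)` required when `r = 2` and `n` is even); (iv) `r ≠ p`, `2 ≤ i ≤ m` and `n mod i ≥ m mod i`. -/
theorem result {F : Type*} [Field F] [Fintype F] {p : ℕ} [Fact p.Prime] [CharP F p] {q : ℕ} (hq : Fintype.card F = q)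
    (n m : ℕ) (hn : 3 ≤ n) (hm : 1 ≤ m) (hmn : 2 * m < n)
    (r : ℕ) [Fact r.Prime]
    (hrΩ : r ∣ Nat.card {P : Submodule F (Fin n → F) × Submodule F (Fin n → F) // IsCompl P.1 P.2 ∧ Module.finrank F ↥P.1 = m}) :
    (∀ x : Matrix.SpecialLinearGroup (Fin n) F,
      (∃ c : F, ((x ^ r : Matrix.SpecialLinearGroup (Fin n) F) : Matrix (Fin n) (Fin n) F) = c • (1 : Matrix (Fin n) (Fin n) F)) →
      (∀ c : F, (x : Matrix (Fin n) (Fin n) F) ≠ c • (1 : Matrix (Fin n) (Fin n) F)) →
      ∃ U W : Submodule F (Fin n → F), IsCompl U W ∧ Module.finrank F ↥U = m ∧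
        U.map (Matrix.toLin' (x : Matrix (Fin n) (Fin n) F)) ≤ U ∧ W.map (Matrix.toLin' (x : Matrix (Fin n) (Fin n) F)) ≤ W) ↔
    ((r = p ∧ 2 < p ∧ (∀ μ : Multiset ℕ, (∀ a ∈ μ, 0 < a ∧ a ≤ p) → μ.sum = n → ∃ ν : Multiset ℕ, ν ≤ μ ∧ ν.sum = m)) ∨
     (r = p ∧ p = 2 ∧ (Odd n ∨ Even m)) ∨
     (r ≠ p ∧
      ((orderOf (q : ZMod r) = 1 ∧ (r ∣ m ∨ (padicValNat r n ≤ padicValNat r (q - 1) ∧ (r = 2 → Even n → q % 4 = 1)))) ∨
       (2 ≤ orderOf (q : ZMod r) ∧ orderOf (q : ZMod r) ≤ m ∧ m % orderOf (q : ZMod r) ≤ n % orderOf (q : ZMod r))))) := by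
  subst hq
  have hV : finrank F (Fin n → F) = n := by simp
  have : Nontrivial (Fin n → F) := Module.finrank_pos_iff (R := F).mp (by omega)
  rw [forall_SL_iff r (fun f => ∃ U W : Submodule F (Fin n → F), IsCompl U W ∧ finrank F U = m ∧
    U.map f ≤ U ∧ W.map f ≤ W)]
  by_cases hrp : r = p
  · subst hrp
    have key : (∀ (f : End F (Fin n → F)) (z : F), LinearMap.det f = 1 → f ^ r = z • 1 →
        (∀ (c : F), f ≠ c • 1) → ∃ U W : Submodule F (Fin n → F), IsCompl U W ∧ finrank F U = m ∧
          U.map f ≤ U ∧ W.map f ≤ W) ↔ (∀ μ : Multiset ℕ, (∀ a ∈ μ, 0 < a ∧ a ≤ r) → μ.sum = n →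
            ∃ ν : Multiset ℕ, ν ≤ μ ∧ ν.sum = m) := by
      constructor
      · intro h μ hμ hs
        by_cases h1 : ∃ a ∈ μ, 1 < a
        · obtain ⟨x, hx1, hx2, hx3, hx4⟩ := exists_unipotent (F := F) (V := Fin n → F) μ
            (fun a ha => (hμ a ha).2) (by rw [hs, hV]) h1
          obtain ⟨U, W, hUW, hU, h3, h4⟩ := h x 1 hx1 (by rw [hx2, one_smul]) hx3
          rw [← hU]
          exact hx4.exists_le_of_isCompl (fun a ha => (hμ a ha).1) hUW
            (fun v hv => h3 ⟨v, hv, rfl⟩) (fun v hv => h4 ⟨v, hv, rfl⟩)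
        · push Not at h1
          exact exists_le_sum_eq_of_forall_eq_one (fun a ha => le_antisymm (h1 a ha) (hμ a ha).1)
            (by omega)
      · intro h x z _ h2 _
        obtain ⟨w, μ, -, hμ, hx⟩ := exists_hasJordanType_of_pow_char h2
        obtain ⟨ν, hν, hs⟩ := h μ hμ (by rw [← hx.finrank_eq, hV])
        obtain ⟨U, W, hUW, hU, h3, h4⟩ := hx.exists_isCompl hν
        exact ⟨U, W, hUW, hU.trans hs, by rintro _ ⟨v, hv, rfl⟩; exact h3 v hv,
          by rintro _ ⟨v, hv, rfl⟩; exact h4 v hv⟩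
    rw [key]
    rcases (Fact.out : r.Prime).two_le.eq_or_lt with h2 | h2
    · subst h2
      rw [two_partition (by omega)]
      simp
    · simp [h2, h2.ne']
  · obtain ⟨j, hj1, hj2, hj3⟩ := exists_dvd_of_dvd_card_subspaces (V := Fin n → F) Fact.out
      (by omega) (card_pairs Fact.out hrp hrΩ)
    simp only [hrp, false_and, false_or, ne_eq, not_false_eq_true, true_and]
    constructor
    · intro h
      have := subCond_of_forall hrp hj1 hj2 hj3 (fun x z h1 h2 h3 => by
        obtain ⟨U, W, -, hW, hW', -⟩ := h x z h1 h2 h3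
        exact ⟨U, hW, fun v hv => hW' ⟨v, hv, rfl⟩⟩)
      rwa [hV] at this
    · rintro h x z h1 h2 -
      obtain ⟨U, W, hUW, h3, h4, h5⟩ := exists_isCompl_of_subCond (V := Fin n → F) hrp (m := m)
        (by omega) (by rw [hV]; exact h) h1 h2
      exact ⟨U, W, hUW, h3, by rintro _ ⟨v, hv, rfl⟩; exact h4 v hv,
        by rintro _ ⟨v, hv, rfl⟩; exact h5 v hv⟩

end Cfsg.Agent.S5950
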