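import Cfsg.Statements.S5951
import Cfsg.Agent.H8.Subspaces

set_option autoImplicit false
open scoped MatrixGroups
open Cfsg

namespace Cfsg.Agent.S5951

open Polynomial Module Cfsg.Agent.H8

theorem card_flags {F : Type*} [Field F] [Fintype F] {V : Type*} [AddCommGroup V] [Module F V]
    [Finite V] {r : ℕ} (hr : r.Prime) {m k : ℕ} (hmk : m ≤ k) (hk : k ≤ finrank F V)
    (h : r ∣ Nat.card {P : Submodule F V × Submodule F V //
        P.1 ≤ P.2 ∧ finrank F P.1 = m ∧ finrank F P.2 = k}) :
    r ∣ Nat.card {W : Submodule F V // finrank F W = k} ∨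
      ∃ j, k - m < j ∧ j ≤ k ∧ r ∣ Fintype.card F ^ j - 1 := by
  classical
  let e : {P : Submodule F V × Submodule F V //
        P.1 ≤ P.2 ∧ finrank F P.1 = m ∧ finrank F P.2 = k} ≃
      Σ W : {W : Submodule F V // finrank F W = k}, {U : Submodule F W.1 // finrank F U = m} :=
    { toFun := fun P => ⟨⟨P.1.2, P.2.2.2⟩, ⟨P.1.1.comap P.1.2.subtype, by
        rw [(Submodule.comapSubtypeEquivOfLe P.2.1).finrank_eq, P.2.2.1]⟩⟩
      invFun := fun Q => ⟨(Q.2.1.map Q.1.1.subtype, Q.1.1), Submodule.map_subtype_le _ _, by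
        rw [Submodule.finrank_map_subtype_eq, Q.2.2], Q.1.2⟩
      left_inv := fun P => by
        apply Subtype.ext
        apply Prod.ext
        · simp only [Submodule.map_comap_subtype]
          exact inf_eq_right.mpr P.2.1
        · rfl
      right_inv := fun Q => by
        obtain ⟨W, U⟩ := Q
        simp only [Sigma.mk.injEq, heq_eq_eq, true_and]
        apply Subtype.ext
        exact Submodule.comap_map_eq_of_injective W.1.injective_subtype _ }
  have : Fintype {W : Submodule F V // finrank F W = k} := Fintype.ofFinite _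
  rw [Nat.card_congr e, Nat.card_sigma] at h
  have h2 := h.mul_right (qfact (Fintype.card F) m)
  rw [Finset.sum_mul, Finset.sum_congr rfl (g := fun _ =>
    ∏ j ∈ Finset.range m, (Fintype.card F ^ (k - m + j + 1) - 1)) (fun W _ => by
      rw [card_subspaces_mul_qfact (by rw [W.2]; exact hmk), W.2]), Finset.sum_const,
      smul_eq_mul, Finset.card_univ, ← Nat.card_eq_fintype_card] at h2
  rcases (Nat.Prime.dvd_mul hr).mp h2 with h3 | h3
  · exact Or.inl h3
  · obtain ⟨j, hj, hd⟩ := (Prime.dvd_finsetProd_iff hr.prime _).mp h3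
    have := Finset.mem_range.mp hj
    exact Or.inr ⟨_, by omega, by omega, hd⟩

/-- Elements of prime order of PSL_n(q) fixing no pair of subspaces `U < W` with `dim U = m`, `dim W = n − m`. Here `T = PSL_n(F)` for a field `F` with `q = p^f` elements (`n ≥ 2`, `(n, q) ≠ (2, 2), (2, 3)`); an element of `T` of prime order `r` is represented by a matrix `x` of determinant 1 with `x^r` scalar and `x` not scalar; `i` denotes the multiplicative order of `q` modulo `r` (when `r ≠ p`), and `(a)_r` the `r`-part of `a`. Let `1 ≤ m < n/2` and let `r` be a prime dividing the number of such pairs. Then every element of `T` of order `r` fixes such a pair (both `U` and `W`) if and only if `r ≠ p` and either (i) `i = 1` and (`r ∣ m`, or `(q−1)_r ≥ (n)_r` with `q ≡ 1 (mod 4)` required when `r = 2` and `n` is even), or (ii) `2 ≤ i ≤ m` and `n mod i ≥ 2 (m mod i)`. -/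
theorem result {F : Type*} [Field F] [Fintype F] {p : ℕ} [Fact p.Prime] [CharP F p] {q : ℕ} (hq : Fintype.card F = q)
    (n m : ℕ) (hn : 2 ≤ n) (hT : (n, q) ≠ (2, 2) ∧ (n, q) ≠ (2, 3)) (hm : 1 ≤ m) (hmn : 2 * m < n)
    (r : ℕ) [Fact r.Prime]
    (hrΩ : r ∣ Nat.card {P : Submodule F (Fin n → F) × Submodule F (Fin n → F) //
        P.1 ≤ P.2 ∧ Module.finrank F ↥P.1 = m ∧ Module.finrank F ↥P.2 = n - m}) :
    (∀ x : Matrix.SpecialLinearGroup (Fin n) F,
      (∃ c : F, ((x ^ r : Matrix.SpecialLinearGroup (Fin n) F) : Matrix (Fin n) (Fin n) F) = c • (1 : Matrix (Fin n) (Fin n) F)) →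
      (∀ c : F, (x : Matrix (Fin n) (Fin n) F) ≠ c • (1 : Matrix (Fin n) (Fin n) F)) →
      ∃ U W : Submodule F (Fin n → F), U ≤ W ∧ Module.finrank F ↥U = m ∧ Module.finrank F ↥W = n - m ∧
        U.map (Matrix.toLin' (x : Matrix (Fin n) (Fin n) F)) ≤ U ∧ W.map (Matrix.toLin' (x : Matrix (Fin n) (Fin n) F)) ≤ W) ↔
    (r ≠ p ∧
      ((orderOf (q : ZMod r) = 1 ∧ (r ∣ m ∨ (padicValNat r n ≤ padicValNat r (q - 1) ∧ (r = 2 → Even n → q % 4 = 1)))) ∨
       (2 ≤ orderOf (q : ZMod r) ∧ orderOf (q : ZMod r) ≤ m ∧ 2 * (m % orderOf (q : ZMod r)) ≤ n % orderOf (q : ZMod r)))) := by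
  subst hq
  have hV : finrank F (Fin n → F) = n := by simp
  have : Nontrivial (Fin n → F) := Module.finrank_pos_iff (R := F).mp (by omega)
  obtain ⟨j, hj1, hj2, hj3⟩ : ∃ j, n - 2 * m < j ∧ j ≤ n ∧ r ∣ Fintype.card F ^ j - 1 := by
    rcases card_flags Fact.out (by omega) (by omega) hrΩ with h | ⟨j, h1, h2, h3⟩
    · have h1 := card_subspaces_symm (F := F) (V := Fin n → F) (m := m) (by omega)
      rw [hV] at h1
      rw [h1] at h
      obtain ⟨j, hj1, hj2, hj3⟩ := exists_dvd_of_dvd_card_subspaces (V := Fin n → F) Fact.out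
        (by omega) h
      exact ⟨j, by omega, by omega, hj3⟩
    · exact ⟨j, by omega, by omega, h3⟩
  have hrp : r ≠ p := ne_char_of_dvd (by omega) hj3
  rw [forall_SL_iff r (fun f => ∃ U W : Submodule F (Fin n → F), U ≤ W ∧ finrank F U = m ∧
    finrank F W = n - m ∧ U.map f ≤ U ∧ W.map f ≤ W)]
  have hc := orderOf_card_pos (F := F) hrp
  constructor
  · intro h
    refine ⟨hrp, ?_⟩
    rw [dvd_pow_sub_one_iff_orderOf Fintype.card_pos] at hj3
    obtain ⟨h1, h2⟩ := mod_lt_of_exists_dvd hc hj1 hj2 hj3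
    by_cases hc1 : orderOf (Fintype.card F : ZMod r) = 1
    · refine Or.inl ⟨hc1, ?_⟩
      by_contra hcon
      rw [not_or] at hcon
      obtain ⟨x, z, hx1, hx2, hx3, hx4⟩ := exists_forall_dvd_finrank (V := Fin n → F) hrp hc1
        (by rw [hV]; exact hcon.2)
      obtain ⟨U, W, -, hU, -, hU', -⟩ := h x z hx1 hx2 hx3
      exact hcon.1 (hU ▸ hx4 U fun v hv => hU' ⟨v, hv, rfl⟩)
    · obtain ⟨y, hy1, hy2, hy3, hy4⟩ := exists_order_finrank_ker_mod (F := F) (V := Fin n → F) hrp
        (by omega) (by omega)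
      obtain ⟨U, W, hUW, hU, hW, hU', hW'⟩ := h y 1 hy1 (by rw [hy2, one_smul]) hy3
      obtain ⟨k, hk⟩ := exists_finrank_eq_add_of_pow_eq_one hrp hy2 (W := U)
        fun v hv => hU' ⟨v, hv, rfl⟩
      obtain ⟨l, hl⟩ := exists_finrank_eq_add_of_pow_eq_one hrp hy2 (W := W)
        fun v hv => hW' ⟨v, hv, rfl⟩
      have hle : finrank F (W ⊓ LinearMap.ker (y - 1) : Submodule F (Fin n → F)) ≤
        finrank F (LinearMap.ker (y - 1)) := Submodule.finrank_mono inf_le_right
      have hle' : finrank F (U ⊓ LinearMap.ker (y - 1) : Submodule F (Fin n → F)) ≤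
        finrank F (W ⊓ LinearMap.ker (y - 1) : Submodule F (Fin n → F)) :=
        Submodule.finrank_mono (inf_le_inf_right _ hUW)
      rw [hy4, hV] at hle
      rw [hU] at hk
      rw [hW] at hl
      generalize finrank F (U ⊓ LinearMap.ker (y - 1) : Submodule F (Fin n → F)) = a at *
      generalize finrank F (W ⊓ LinearMap.ker (y - 1) : Submodule F (Fin n → F)) = b at *
      generalize orderOf (Fintype.card F : ZMod r) = c at *
      have hlt := Nat.mod_lt n hc
      have hmod : m % c = a := by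
        rw [hk, Nat.add_mul_mod_self_left, Nat.mod_eq_of_lt (by omega)]
      have hmod2 : m % c = n % c - b := by
        have h5 := Nat.div_add_mod n c
        have h6 : m + c * l = (n % c - b) + c * (n / c) := by omega
        have h7 := congrArg (· % c) h6
        simp only [Nat.add_mul_mod_self_left] at h7
        rw [h7, Nat.mod_eq_of_lt (by omega)]
      refine Or.inr ⟨by omega, ?_, by omega⟩
      by_contra hcon
      rw [Nat.mod_eq_of_lt (by omega)] at hmod hmod2
      omega
  · rintro ⟨-, h⟩ x z h1 h2 -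
    obtain ⟨D, hD1, hD2, -, hD4⟩ := hasDecomp_of_pow_eq_smul hrp h1 h2 ![m, n - 2 * m, m]
      (by simp [Fin.sum_univ_three]; omega) (by
        rw [hV]
        rcases h with ⟨h1, h2 | h2⟩ | ⟨h1, -, h3⟩
        · refine Or.inl ⟨h1, Or.inl fun h3 k => ?_⟩
          fin_cases k
          · exact h2
          · exact Nat.dvd_sub h3 (h2.mul_left 2)
          · exact h2
        · exact Or.inl ⟨h1, Or.inr h2⟩
        · refine Or.inr ⟨h1, ?_⟩
          simp only [Fin.sum_univ_three, Matrix.cons_val_zero, Matrix.cons_val_one,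
            Matrix.cons_val]
          generalize orderOf (Fintype.card F : ZMod r) = c at *
          have h5 := Nat.div_add_mod n c
          have h6 := Nat.div_add_mod m c
          have h7 : n / c - 2 * (m / c) ≤ (n - 2 * m) / c := by
            rw [Nat.le_div_iff_mul_le hc, Nat.sub_mul, mul_comm (n / c), mul_assoc,
              mul_comm (m / c)]
            omega
          omega)
    refine ⟨D 0, D 0 ⊔ D 1, le_sup_left, hD1 0, ?_, ?_, ?_⟩
    · have h3 := Submodule.finrank_sup_add_finrank_inf_eq (D 0) (D 1)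
      rw [(hD2.pairwiseDisjoint (show (0 : Fin 3) ≠ 1 by simp)).eq_bot, finrank_bot, hD1, hD1] at h3
      simp at h3
      omega
    · rintro _ ⟨v, hv, rfl⟩
      exact hD4 0 v hv
    · rw [Submodule.map_sup]
      refine sup_le_sup ?_ ?_
      · rintro _ ⟨v, hv, rfl⟩
        exact hD4 0 v hv
      · rintro _ ⟨v, hv, rfl⟩
        exact hD4 1 v hv

end Cfsg.Agent.S5951
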