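import Cfsg.Statements.S5952
import Cfsg.Agent.H8.Decomp
import Cfsg.Agent.H8.Count

set_option autoImplicit false
open Cfsg

namespace Cfsg.Agent.S5952

open Polynomial Module Cfsg.Agent.H8

theorem exists_irreducible_of_simple {F V : Type*} [Field F] [AddCommGroup V] [Module F V]
    [FiniteDimensional F V] (f : Module.End F V) (U : Submodule F V) (hU : ∀ v ∈ U, f v ∈ U)
    (hpos : 0 < finrank F U)
    (hirr : ∀ W : Submodule F V, W ≤ U → W.map f ≤ W → W = ⊥ ∨ W = U) :
    ∃ g : F[X], (∀ v ∈ U, aeval f g v = 0) ∧
      ∀ g' : F[X], Irreducible g' → g' ∣ g → finrank F U ∣ g'.natDegree := by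
  classical
  have hirr' : ∀ W : Submodule F U, (∀ v ∈ W, f.restrict hU v ∈ W) → W = ⊥ ∨ W = ⊤ := by
    intro W hW
    rcases hirr (W.map U.subtype) (Submodule.map_subtype_le _ _) (by
      rintro _ ⟨_, ⟨v, hv, rfl⟩, rfl⟩
      exact ⟨_, hW v hv, rfl⟩) with h | h
    · left
      rw [eq_bot_iff]
      intro v hv
      have : (v : V) ∈ W.map U.subtype := ⟨v, hv, rfl⟩
      rw [h] at this
      simpa using this
    · right
      rw [eq_top_iff]
      intro v _
      have : (v : V) ∈ W.map U.subtype := by rw [h]; exact v.2
      obtain ⟨w, hw, hwv⟩ := this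
      rwa [show w = v from Subtype.ext hwv] at hw
  obtain ⟨N, g, e, hi, hm, he, ht⟩ := exists_hasType (f.restrict hU)
  have h0 : ∀ j, g j ^ e j ≠ 0 := fun j => pow_ne_zero _ (hi j).ne_zero
  have hN : 0 < N := by
    rcases Nat.eq_zero_or_pos N with rfl | h
    · have := ht.finrank_eq h0
      simp only [Finset.univ_eq_empty, Finset.sum_empty] at this
      omega
    · exact h
  let j₀ : Fin N := ⟨0, hN⟩
  -- the kernel of `g j₀` is everything
  have hk : LinearMap.ker (aeval (f.restrict hU) (g j₀)) = ⊤ := by
    refine (hirr' _ fun v hv => ?_).resolve_left fun hbot => ?_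
    · rw [LinearMap.mem_ker] at hv ⊢
      rw [aeval_comm_apply, hv, map_zero]
    · have h1 := ht.finrank_ker_aeval h0 (g j₀)
      rw [hbot, finrank_bot] at h1
      have h2 := (Finset.sum_eq_zero_iff.mp h1.symm) j₀ (Finset.mem_univ _)
      rw [finrank_ker_aeval_rootOp_of_dvd' (h0 j₀) (dvd_pow_self _ (he j₀).ne')] at h2
      exact (hi j₀).natDegree_pos.ne' h2
  have hz : aeval (f.restrict hU) (g j₀) = 0 := LinearMap.ker_eq_top.mp hk
  have hd := (ht.aeval_eq_zero_iff _).mp hz j₀
  have hdeg : (g j₀ ^ e j₀).natDegree = (g j₀).natDegree :=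
    le_antisymm (natDegree_le_of_dvd hd (hi j₀).ne_zero)
      (natDegree_le_of_dvd (dvd_pow_self _ (he j₀).ne') (h0 j₀))
  obtain ⟨D, h1, -, -, h4⟩ := ht.hasDecomp h0 id
  have hD : finrank F (D j₀) = (g j₀).natDegree := by
    rw [h1, ← hdeg]
    simp [Finset.filter_eq']
  have hDtop : D j₀ = ⊤ := by
    refine (hirr' _ (h4 j₀)).resolve_left fun hbot => ?_
    rw [hbot, finrank_bot] at hD
    exact (hi j₀).natDegree_pos.ne hD
  rw [hDtop, finrank_top] at hD
  refine ⟨g j₀, fun v hv => ?_, fun g' hg' hd' => ?_⟩
  · rw [← coe_aeval_restrict hU _ ⟨v, hv⟩, hz]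
    rfl
  · rw [hD, natDegree_eq_of_degree_eq (degree_eq_degree_of_associated
      (hg'.associated_of_dvd (hi j₀) hd'))]

/-- Which dimensions of invariant subspaces a semisimple linear map has. Let `V` be a finite-dimensional vector space over a field `F` and `f` an invertible semisimple linear map of `V`. Suppose `V` is the internal direct sum of the fixed space `C_V(f)` (the eigenspace for 1) and subspaces `U_1, …, U_s`, each `f`-invariant of dimension `a ≥ 1` on which `f` acts irreducibly (no `f`-invariant subspaces other than 0 and `U_j`). Let `0 < m < dim V` and `ℓ = m mod a`. Then `f` leaves some `m`-dimensional subspace invariant if and only if `dim C_V(f) ≥ m`, or `a ≤ m` and `dim C_V(f) ≥ ℓ`. -/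
theorem result {F V : Type*} [Field F] [AddCommGroup V] [Module F V]
    [FiniteDimensional F V] (f : V →ₗ[F] V) (hf : Function.Bijective f) (hss : Module.End.IsSemisimple f)
    {s a : ℕ} (ha : 1 ≤ a) (U : Fin s → Submodule F V)
    (hUinv : ∀ j, (U j).map f ≤ U j) (hUdim : ∀ j, Module.finrank F ↥(U j) = a)
    (hUirr : ∀ j, ∀ W : Submodule F V, W ≤ U j → W.map f ≤ W → W = ⊥ ∨ W = U j)
    (hdec : DirectSum.IsInternal (fun o : Option (Fin s) => o.elim (Module.End.eigenspace f 1) U))
    (m : ℕ) (hm : 0 < m) (hmV : m < Module.finrank F V) :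
    (∃ W : Submodule F V, Module.finrank F ↥W = m ∧ W.map f ≤ W) ↔
    (m ≤ Module.finrank F ↥(Module.End.eigenspace f 1) ∨
      (a ≤ m ∧ m % a ≤ Module.finrank F ↥(Module.End.eigenspace f 1))) := by
  classical
  have hUinv' : ∀ j, ∀ v ∈ U j, f v ∈ U j := fun j v hv => hUinv j ⟨v, hv, rfl⟩
  have hind := hdec.submodule_iSupIndep
  have htop := hdec.submodule_iSup_eq_top
  constructor
  · rintro ⟨W, hW, hWinv⟩
    choose g hg1 hg2 using fun j => exists_irreducible_of_simple f (U j) (hUinv' j)
      (by rw [hUdim]; exact ha) (hUirr j)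
    have hE : LinearMap.ker (aeval (R := F) (show Module.End F V from f) (X - 1 : F[X])) =
        Module.End.eigenspace f 1 := by
      ext v
      simp [Module.End.mem_eigenspace_iff, sub_eq_zero]
    have hz : aeval (R := F) (show Module.End F V from f) ((∏ j, g j) * (X - 1)) = 0 := by
      rw [← LinearMap.ker_eq_top, eq_top_iff, ← htop]
      refine iSup_le fun o => ?_
      intro v hv
      rw [LinearMap.mem_ker]
      cases o with
      | none =>
        have hv' : v ∈ LinearMap.ker (aeval (R := F) (show Module.End F V from f) (X - 1 : F[X])) := by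
          rw [hE]; exact hv
        rw [map_mul, Module.End.mul_apply, LinearMap.mem_ker.mp hv', map_zero]
      | some j =>
        rw [← Finset.mul_prod_erase _ _ (Finset.mem_univ j), mul_assoc, mul_comm, map_mul,
          Module.End.mul_apply, hg1 j v hv, map_zero]
    obtain ⟨k, hk⟩ := exists_finrank_eq_add (a := a) hz (fun g' hg' hd => by
      obtain ⟨j, -, hj⟩ := (Prime.dvd_finsetProd_iff hg'.prime _).mp hd
      rw [← hUdim j]
      exact hg2 j g' hg' hj) (W := W) (fun v hv => hWinv ⟨v, hv, rfl⟩)
    rw [hE, hW] at hk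
    have hle : finrank F (W ⊓ Module.End.eigenspace f 1 : Submodule F V) ≤
        finrank F (Module.End.eigenspace f 1) := Submodule.finrank_mono inf_le_right
    rcases Nat.eq_zero_or_pos k with rfl | hk0
    · left; omega
    · right
      refine ⟨by nlinarith, ?_⟩
      rw [hk, Nat.add_mul_mod_self_left]
      exact (Nat.mod_le _ _).trans hle
  · intro h
    have hV := finrank_iSup_of_iSupIndep hind
    rw [htop, finrank_top, Fintype.sum_option] at hV
    replace hV : finrank F V = finrank F (Module.End.eigenspace f 1) + s * a := by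
      rw [hV]
      congr 1
      refine (Finset.sum_congr rfl (g := fun _ => a) (fun j _ => hUdim j)).trans ?_
      simp
    obtain ⟨t, hts, hta, htc⟩ : ∃ t, t ≤ s ∧ t * a ≤ m ∧
        m - t * a ≤ finrank F (Module.End.eigenspace f 1) := by
      rcases h with h | ⟨h1, h2⟩
      · exact ⟨0, by simp, by simp, by simpa using h⟩
      · rcases le_total (m / a) s with h3 | h3
        · refine ⟨m / a, h3, Nat.div_mul_le_self _ _, ?_⟩
          have := Nat.div_add_mod m a
          rw [mul_comm] at this
          omega
        · refine ⟨s, le_rfl, (Nat.mul_le_mul_right a h3).trans (Nat.div_mul_le_self _ _), ?_⟩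
          omega
    obtain ⟨C, hC, hCd⟩ := exists_le_finrank_eq _ htc
    let D : Option (Fin s) → Submodule F V :=
      fun o => o.elim C (fun j => if (j : ℕ) < t then U j else ⊥)
    have hD : iSupIndep D := by
      refine hind.mono fun o => ?_
      cases o with
      | none => exact hC
      | some j =>
        simp only [D, Option.elim]
        split_ifs
        · exact le_rfl
        · exact bot_le
    refine ⟨iSup D, ?_, ?_⟩
    · rw [finrank_iSup_of_iSupIndep hD, Fintype.sum_option]
      have : ∀ j : Fin s, finrank F (D (some j)) = if (j : ℕ) < t then a else 0 := by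
        intro j
        by_cases hj : (j : ℕ) < t
        · rw [if_pos hj, show D (some j) = U j from if_pos hj, hUdim]
        · rw [if_neg hj, show D (some j) = ⊥ from if_neg hj, finrank_bot]
      simp only [this]
      rw [← Finset.sum_filter, Finset.sum_const, Fin.card_filter_val_lt, min_eq_right hts,
        show D none = C from rfl, hCd, smul_eq_mul]
      omega
    · rw [Submodule.map_iSup]
      refine iSup_mono fun o => ?_
      cases o with
      | none =>
        rintro _ ⟨v, hv, rfl⟩
        have := Module.End.mem_eigenspace_iff.mp (hC hv)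
        rw [this, one_smul]
        exact hv
      | some j =>
        simp only [D, Option.elim]
        split_ifs
        · exact hUinv j
        · simp

end Cfsg.Agent.S5952
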