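import Cfsg.Statements.S5957
import Cfsg.Agent.H8.Imprim

set_option autoImplicit false
open scoped MatrixGroups
open Cfsg

namespace Cfsg.Agent.S5957

open Polynomial Module Cfsg.Agent.H8

/-- Involutions of PSL_n(q) and imprimitive subgroups. Here `T = PSL_n(F)` for a field `F` with `q = p^f` elements (`n ≥ 2`, `(n, q) ≠ (2, 2), (2, 3)`), `n = a·t` with `t ≥ 2`, and Ω is the set of direct-sum decompositions of `F^n` into `t` subspaces of dimension `a` (unordered; their number is the number of ordered ones divided by `t!`), whose stabilizers are the imprimitive subgroups of type GL_a(q) ≀ S_t (maximal except in some small cases; maximality is not assumed); an element of `T` of prime order `r` (a matrix `x` of determinant 1 with `x^r` scalar, `x` not scalar) fixes a point of Ω when it permutes the summands of some such decomposition. If the number of such decompositions is even, then every involution of `T` stabilizes one of them (the action is 2-elusive). -/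
theorem result {F : Type*} [Field F] [Fintype F] {p : ℕ} [Fact p.Prime] [CharP F p] {q : ℕ} (hq : Fintype.card F = q)
    (n a t : ℕ) (hn : 2 ≤ n) (hT : (n, q) ≠ (2, 2) ∧ (n, q) ≠ (2, 3)) (hat : n = a * t) (ha : 1 ≤ a) (ht : 2 ≤ t)
    (hΩ : 2 ∣ Nat.card {D : Fin t → Submodule F (Fin n → F) // Cfsg.Geo.IsMDecomposition a D} / Nat.factorial t)
    (x : Matrix.SpecialLinearGroup (Fin n) F)
    (hx1 : ∃ z : F, ((x ^ 2 : Matrix.SpecialLinearGroup (Fin n) F) : Matrix (Fin n) (Fin n) F) = z • (1 : Matrix (Fin n) (Fin n) F))
    (hx2 : ∀ z : F, (x : Matrix (Fin n) (Fin n) F) ≠ z • (1 : Matrix (Fin n) (Fin n) F)) :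
    ∃ D : Fin t → Submodule F (Fin n → F), Cfsg.Geo.IsMDecomposition a D ∧
        ∃ σ : Equiv.Perm (Fin t), ∀ j, (D j).map (Matrix.toLin' (x : Matrix (Fin n) (Fin n) F)) = D (σ j) := by
  classical
  have hV : finrank F (Fin n → F) = n := by simp
  obtain ⟨z, hz⟩ := hx1
  have hz' := toLin'_pow_eq_of_SL hz
  set f : Module.End F (Fin n → F) := Matrix.toLin' (x : Matrix (Fin n) (Fin n) F) with hf
  have hdet : LinearMap.det f = 1 := det_toLin'_SL x
  have hinj : Function.Injective f := by
    rw [← LinearMap.ker_eq_bot]
    by_contra hcon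
    rw [← Ne, ← LinearMap.det_eq_zero_iff_ker_ne_bot, hdet] at hcon
    exact one_ne_zero hcon
  suffices h : Stab f a (Fin t) by
    obtain ⟨D, h1, h2, h3, h4⟩ := h
    exact ⟨D, ⟨ht, ha, h1, h2, h3⟩, h4⟩
  obtain ⟨N, g, e, hi, hm, he, hty⟩ := exists_hasType f
  have h0 : ∀ j, g j ^ e j ≠ 0 := fun j => pow_ne_zero _ (hi j).ne_zero
  have hw : ∀ j, (g j ^ e j).natDegree = 1 ∨ (g j ^ e j).natDegree = 2 := by
    intro j
    have h1 := natDegree_le_of_dvd ((hty.pow_eq_iff 2 z).mp hz' j) (X_pow_sub_C_ne_zero two_pos z)
    rw [natDegree_X_pow_sub_C] at h1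
    have h2 : 0 < (g j ^ e j).natDegree := by
      rw [natDegree_pow]
      exact Nat.mul_pos (he j) (hi j).natDegree_pos
    omega
  rcases Nat.even_or_odd a with ⟨b, hb⟩ | ⟨b, hb⟩
  · refine HasDecomp.stab hinj (hty.hasDecomp_of_weight h0 2 two_pos hw _ (by simp [hat, mul_comm]) ?_)
    simp only [hV, Finset.sum_const, Finset.card_univ, Fintype.card_fin, smul_eq_mul]
    rw [hat, hb, show (b + b) * t = 2 * (t * b) by ring, show b + b = 2 * b by ring]
    simp
  · set B := Finset.univ.filter fun j => (g j ^ e j).natDegree ≠ 1 with hB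
    have hsum := hty.finrank_eq h0
    rw [hV] at hsum
    have hB2 : ∀ j ∈ B, (g j ^ e j).natDegree = 2 := fun j hj =>
      (hw j).resolve_left (Finset.mem_filter.mp hj).2
    have hBn : B.card * 2 ≤ n := by
      rw [hsum, ← smul_eq_mul, ← Finset.sum_const, ← Finset.sum_congr rfl hB2]
      exact Finset.sum_le_sum_of_subset (Finset.subset_univ _)
    obtain ⟨S, hSB, hS⟩ := Finset.exists_subset_card_eq (s := B) (n := (B.card / a) * a)
      (Nat.div_mul_le_self _ _)
    have hdm := Nat.div_add_mod B.card a
    have hml := Nat.mod_lt B.card (show 0 < a from ha)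
    set c := B.card / a with hc
    set d := B.card % a with hd
    have hct : c * 2 ≤ t := by
      have : a * (c * 2) ≤ a * t := by nlinarith
      exact Nat.le_of_mul_le_mul_left this ha
    obtain ⟨t', rfl⟩ : ∃ t', t = c * 2 + t' := ⟨t - c * 2, by omega⟩
    have hS2 : ∑ j ∈ S, (g j ^ e j).natDegree = c * a * 2 := by
      rw [Finset.sum_congr rfl fun j hj => hB2 j (hSB hj)]
      simp [hS]
    obtain ⟨π, hπ⟩ := exists_fun_weight (ι := {j // j ∉ S}) (κ := Fin t')
      (fun j => (g j ^ e j).natDegree) 2 (fun j => hw j) (fun _ => a) (by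
        have h1 := Finset.sum_add_sum_compl S (fun j => (g j ^ e j).natDegree)
        rw [← Finset.sum_subtype (Sᶜ) (p := fun j => j ∉ S) (by simp)
          (fun j => (g j ^ e j).natDegree)]
        simp only [Finset.sum_const, Finset.card_univ, Fintype.card_fin, smul_eq_mul]
        nlinarith) (by
        have h1 : (Finset.univ.filter fun j : {j // j ∉ S} => (g j ^ e j).natDegree ≠ 1).card =
            (B \ S).card := by
          refine Finset.card_bij (fun j _ => j.1) ?_ ?_ ?_
          · intro j hj
            simp only [Finset.mem_sdiff, hB, Finset.mem_filter, Finset.mem_univ, true_and] at hj ⊢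
            exact ⟨hj, j.2⟩
          · intro j _ j' _ h
            exact Subtype.ext h
          · intro j hj
            simp only [Finset.mem_sdiff, hB, Finset.mem_filter, Finset.mem_univ, true_and] at hj
            exact ⟨⟨j, hj.2⟩, by simpa using hj.1, rfl⟩
        rw [h1, Finset.card_sdiff_of_subset hSB, hS]
        simp only [Finset.sum_const, Finset.card_univ, Fintype.card_fin, smul_eq_mul]
        have h2 : a / 2 = b := by omega
        rw [h2]
        have h3 : B.card - c * a = d := by rw [mul_comm]; omega
        rw [h3]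
        have h4 : d * 2 ≤ a * t' := by nlinarith
        rcases t' with _ | _ | t'
        · omega
        · omega
        · nlinarith)
    exact hty.stab hinj h0 two_pos hz' S (fun j hj => hB2 j (hSB hj)) hS π
      (fun k => by convert hπ k) (by rw [hV, hat, mul_comm])

end Cfsg.Agent.S5957
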