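import Cfsg.Statements.S5958
import Cfsg.Agent.H8.Imprim

set_option autoImplicit false
open scoped MatrixGroups
open Cfsg

namespace Cfsg.Agent.S5958

open Polynomial Module Cfsg.Agent.H8

section Aux

variable {F : Type*} [Field F] [Fintype F] {V : Type*} [AddCommGroup V] [Module F V]
  [FiniteDimensional F V] {r : ℕ} [hr : Fact r.Prime] {p : ℕ} [hp : Fact p.Prime] [CharP F p]

omit [Fintype F] in
theorem inj_of_det {f : Module.End F V} (hdet : LinearMap.det f ≠ 0) : Function.Injective f := by
  rw [← LinearMap.ker_eq_bot]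
  by_contra hcon
  rw [← Ne, ← LinearMap.det_eq_zero_iff_ker_ne_bot] at hcon
  exact hdet hcon

omit [Fintype F] [FiniteDimensional F V] in
theorem range_cyclotomic_le {y : Module.End F V} (hy : y ^ r = 1) :
    LinearMap.range (aeval y (cyclotomic r F)) ≤ LinearMap.ker (y - 1) := by
  rintro _ ⟨v, rfl⟩
  rw [← ker_aeval_X_sub_one, LinearMap.mem_ker, ← Module.End.mul_apply, ← map_mul, mul_comm,
    cyclotomic_prime_mul_X_sub_one, (aeval_X_pow_sub_one_eq_zero_iff y r).mpr hy]
  rfl

theorem stab_monomial (hrp : r ≠ p) {y : Module.End F V} (hy : y ^ r = 1)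
    (hc : orderOf (Fintype.card F : ZMod r) = r - 1) (h1 : 1 < r - 1)
    (hn : finrank F V ≤ finrank F V % (r - 1) * r) : Stab y 1 (Fin (finrank F V)) := by
  classical
  obtain ⟨N, h, hi, hm, hd, ht⟩ := exists_hasType_of_pow_eq_one hrp hy
  have hΦ : (cyclotomic r F).natDegree = r - 1 := by
    rw [natDegree_cyclotomic, Nat.totient_prime hr.out]
  have h1d : (X - 1 : F[X]).natDegree = 1 := by simpa using natDegree_X_sub_C (1 : F)
  have h1m : (X - 1 : F[X]).Monic := by simpa using monic_X_sub_C (1 : F)
  have hd' : ∀ j, ¬ h j = X - 1 → h j = cyclotomic r F := by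
    intro j hj
    obtain ⟨h2, h3⟩ := (hd j).resolve_left hj
    exact eq_of_monic_of_dvd_of_natDegree_le (hm j) (cyclotomic.monic r F) h2 (by omega) |>.symm
  set u := (Finset.univ.filter fun j => h j = X - 1).card with hu
  set s := (Finset.univ.filter fun j => ¬ h j = X - 1).card with hs
  have hprod : ∏ j, h j = (X - 1) ^ u * cyclotomic r F ^ s := by
    rw [← Finset.prod_filter_mul_prod_filter_not Finset.univ (fun j => h j = X - 1),
      Finset.prod_congr rfl (fun j hj => (Finset.mem_filter.mp hj).2),
      Finset.prod_congr rfl (fun j hj => hd' j (Finset.mem_filter.mp hj).2)]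
    simp [hu, hs]
  have hch := ht.charpoly_eq hm
  have hdim : finrank F V = u + s * (r - 1) := by
    rw [← LinearMap.charpoly_natDegree y, hch, hprod,
      natDegree_mul (pow_ne_zero _ h1m.ne_zero) (pow_ne_zero _ (cyclotomic_ne_zero r F)),
      natDegree_pow, natDegree_pow, h1d, hΦ, mul_one]
  have hsu : s ≤ u := by
    have h2 := Nat.div_add_mod (finrank F V) (r - 1)
    have h3 : s ≤ finrank F V / (r - 1) := by
      rw [Nat.le_div_iff_mul_le (by omega)]
      omega
    have h4 : finrank F V % (r - 1) ≤ u := by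
      rw [hdim, Nat.add_mul_mod_self_right]
      exact Nat.mod_le _ _
    have h5 : finrank F V / (r - 1) ≤ finrank F V % (r - 1) := by
      obtain ⟨r', hr'⟩ : ∃ r', r = r' + 1 := ⟨r - 1, by omega⟩
      rw [hr'] at h2 hn h1 ⊢
      simp only [Nat.add_sub_cancel] at h2 hn h1 ⊢
      refine Nat.le_of_mul_le_mul_left (c := r') ?_ (by omega)
      nlinarith
    omega
  have hdim' : finrank F V = s * r + (u - s) := by
    obtain ⟨r', hr'⟩ : ∃ r', r = r' + 1 := ⟨r - 1, by omega⟩
    rw [hdim, hr']
    simp only [Nat.add_sub_cancel, mul_add, mul_one]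
    omega
  let h' : Fin s ⊕ Fin (u - s) → F[X] := Sum.elim (fun _ => X ^ r - 1) (fun _ => X - 1)
  have hrm : (X ^ r - 1 : F[X]).Monic := by simpa using monic_X_pow_sub_C (1 : F) hr.out.ne_zero
  have hrd : (X ^ r - 1 : F[X]).natDegree = r := by
    simpa using natDegree_X_pow_sub_C (n := r) (r := (1 : F))
  have hm' : ∀ j, (h' j).Monic := by rintro (j | j); exacts [hrm, h1m]
  obtain ⟨y', hy'⟩ := exists_hasType_of_finrank (V := V) (h := h') (fun j => (hm' j).ne_zero) (by
    simp [h', hrd, h1d, hdim'])
  have hy'r : aeval y' (X ^ r - 1 : F[X]) = 0 := by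
    rw [hy'.aeval_eq_zero_iff]
    rintro (j | j)
    · exact dvd_rfl
    · simpa [h'] using sub_dvd_pow_sub_pow (X : F[X]) 1 r
  have hsim : Sim y y' := sim_of_charpoly_eq (squarefree_X_pow_sub_one hrp)
    (squarefree_X_pow_sub_one hrp) ((aeval_X_pow_sub_one_eq_zero_iff y r).mpr hy) hy'r (by
      rw [hch, hprod, hy'.charpoly_eq hm']
      simp only [h', Fintype.prod_sum_type, Sum.elim_inl, Sum.elim_inr, Finset.prod_const,
        Finset.card_univ, Fintype.card_fin]
      rw [← cyclotomic_prime_mul_X_sub_one F r, mul_pow, mul_assoc, ← pow_add,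
        Nat.add_sub_cancel' hsu, mul_comm])
  have hinj : Function.Injective y := inj_of_det fun h0 => by
    have := congrArg LinearMap.det hy
    rw [map_pow, h0, zero_pow hr.out.ne_zero, map_one] at this
    exact zero_ne_one this
  let S : Finset (Fin s ⊕ Fin (u - s)) := Finset.univ.map ⟨Sum.inl, Sum.inl_injective⟩
  have hw : ∀ j : {j // j ∉ S}, (h' j).natDegree = 1 := by
    rintro ⟨j | j, hj⟩
    · exact absurd (by simp [S]) hj
    · exact h1d
  obtain ⟨π, hπ⟩ := exists_fun_card_fiber (ι := {j // j ∉ S}) (κ := Fin (u - s)) (fun _ => 1) (by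
    rw [Fintype.card_subtype_compl, Fintype.card_coe]
    simp [S])
  rw [hdim']
  refine (hy'.of_sim hsim).stab hinj (fun j => (hm' j).ne_zero) hr.out.pos (z := 1)
    (by rw [hy, one_smul]) S ?_ (by simp [S]) π (fun k => ?_) (by rw [hdim', mul_one])
  · intro j hj
    obtain ⟨i, -, rfl⟩ := Finset.mem_map.mp hj
    exact hrd
  · simp only [hw, Finset.sum_const, smul_eq_mul, mul_one]
    convert hπ k

theorem finrank_le_of_stab_one (hrp : r ≠ p) {y : Module.End F V} (hy : y ^ r = 1)
    (hc : 2 ≤ orderOf (Fintype.card F : ZMod r)) {t : ℕ} (h : Stab y 1 (Fin t)) :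
    t ≤ finrank F (LinearMap.ker (y - 1)) * r := by
  classical
  obtain ⟨D, h1, h2, h3, σ, h4⟩ := h
  have hinj : Function.Injective y := inj_of_det fun h0 => by
    have := congrArg LinearMap.det hy
    rw [map_pow, h0, zero_pow hr.out.ne_zero, map_one] at this
    exact zero_ne_one this
  have hne : ∀ k, D k ≠ ⊥ := fun k hk => by
    have := h1 k
    rw [hk, finrank_bot] at this
    omega
  have hσ : σ ^ r = 1 := perm_pow_eq_one h2 hne h4 (z := 1) (by rw [hy, one_smul]) one_ne_zero
  choose e he he0 using fun k => Submodule.exists_mem_ne_zero_of_ne_bot (hne k)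
  let Q := Quotient (Equiv.Perm.SameCycle.setoid σ)
  let π : Fin t → Q := Quotient.mk _
  have hΦ : (cyclotomic r F).natDegree < r := by
    rw [natDegree_cyclotomic, Nat.totient_prime hr.out]
    exact Nat.sub_lt hr.out.pos one_pos
  have hQ : t ≤ Fintype.card Q * r := by
    have := Fintype.card_le_of_surjective (fun x : Q × Fin r => (σ ^ (x.2 : ℕ)) x.1.out) (by
      intro j
      have h5 : σ.SameCycle (π j).out j := Quotient.exact (Quotient.out_eq (π j))
      obtain ⟨i, hi, hij⟩ := h5.exists_pow_eq'
      exact ⟨(π j, ⟨i, hi.trans_le (orderOf_le_of_pow_eq_one hr.out.pos hσ)⟩), hij⟩)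
    simpa using this
  refine hQ.trans (Nat.mul_le_mul_right _ ?_)
  let w : Q → V := fun c => aeval y (cyclotomic r F) (e c.out)
  have hw1 : ∀ c, w c ∈ ⨆ j ∈ {j | π j = c}, D j := by
    intro c
    simp only [w]
    rw [aeval_eq_sum_range, LinearMap.sum_apply]
    refine Submodule.sum_mem _ fun i _ => Submodule.smul_mem _ _ ?_
    refine Submodule.mem_iSup_of_mem ((σ ^ i) c.out) (Submodule.mem_iSup_of_mem ?_ ?_)
    · simp only [Set.mem_setOf_eq]
      conv_rhs => rw [← Quotient.out_eq c]
      exact Quotient.sound (Equiv.Perm.SameCycle.symm ⟨i, by simp⟩)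
    · rw [← map_pow_eq h4]
      exact ⟨_, he _, rfl⟩
  have hw2 : ∀ c, w c ≠ 0 := by
    intro c
    by_cases hk : σ c.out = c.out
    · have hinv : ∀ v ∈ D c.out, y v ∈ D c.out := fun v hv => by
        have := h4 c.out
        rw [hk] at this
        rw [← this]
        exact ⟨v, hv, rfl⟩
      obtain ⟨k, hk'⟩ := exists_finrank_eq_add_of_pow_eq_one hrp hy hinv
      rw [h1] at hk'
      have hk0 : k = 0 := by
        rcases Nat.eq_zero_or_pos k with h | h
        · exact h
        · nlinarith
      have h6 : D c.out ⊓ LinearMap.ker (y - 1) = D c.out :=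
        Submodule.eq_of_le_of_finrank_eq inf_le_left (by rw [h1]; simp [hk0] at hk'; omega)
      have h7 : y (e c.out) = (1 : F) • e c.out := by
        have := (inf_eq_left.mp h6) (he c.out)
        simpa [sub_eq_zero] using this
      simp only [w]
      rw [Module.End.aeval_apply_of_mem_apply_eq_smul h7, eval_one_cyclotomic_prime]
      exact smul_ne_zero (natCast_ne_zero_of_ne hrp) (he0 _)
    · exact aeval_ne_zero_of_ne hinj h2 h4 hr.out hσ hk (cyclotomic_ne_zero r F) hΦ (he _) (he0 _)
  have hli := (iSupIndep_fiber h2 π).linearIndependent _ hw1 hw2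
  have hli' : LinearIndependent F (fun c => (⟨w c, range_cyclotomic_le hy ⟨_, rfl⟩⟩ :
      LinearMap.ker (y - 1))) := LinearIndependent.of_comp (LinearMap.ker (y - 1)).subtype hli
  exact hli'.fintype_card_le_finrank

end Aux

/-- Elements of odd prime order of PSL_n(q) and imprimitive subgroups. Here `T = PSL_n(F)` for a field `F` with `q = p^f` elements (`n ≥ 2`, `(n, q) ≠ (2, 2), (2, 3)`), `n = a·t` with `t ≥ 2`, and Ω is the set of direct-sum decompositions of `F^n` into `t` subspaces of dimension `a` (unordered; their number is the number of ordered ones divided by `t!`), whose stabilizers are the imprimitive subgroups of type GL_a(q) ≀ S_t (maximal except in some small cases; maximality is not assumed); an element of `T` of prime order `r` (a matrix `x` of determinant 1 with `x^r` scalar, `x` not scalar) fixes a point of Ω when it permutes the summands of some such decomposition. Let `r ≠ p` be an odd prime dividing the number of such decompositions, let `c` be the multiplicative order of `q` modulo `r`,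 and write `k = n mod c`, `ℓ = a mod c`. Then every element of `T` of order `r` stabilizes such a decomposition if and only if either `a = 1`, `c = r − 1 > 1` and `n ≤ k·r`, or `c ≤ a` and `k = t·ℓ`. -/
theorem result {F : Type*} [Field F] [Fintype F] {p : ℕ} [Fact p.Prime] [CharP F p] {q : ℕ} (hq : Fintype.card F = q)
    (n a t : ℕ) (hn : 2 ≤ n) (hT : (n, q) ≠ (2, 2) ∧ (n, q) ≠ (2, 3)) (hat : n = a * t) (ha : 1 ≤ a) (ht : 2 ≤ t)
    (r : ℕ) [Fact r.Prime] (hr2 : r ≠ 2) (hrp : r ≠ p) (hΩ : r ∣ Nat.card {D : Fin t → Submodule F (Fin n → F) // Cfsg.Geo.IsMDecomposition a D} / Nat.factorial t)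
    (c : ℕ) (hc : c = orderOf (q : ZMod r)) :
    (∀ x : Matrix.SpecialLinearGroup (Fin n) F,
      (∃ z : F, ((x ^ r : Matrix.SpecialLinearGroup (Fin n) F) : Matrix (Fin n) (Fin n) F) = z • (1 : Matrix (Fin n) (Fin n) F)) →
      (∀ z : F, (x : Matrix (Fin n) (Fin n) F) ≠ z • (1 : Matrix (Fin n) (Fin n) F)) →
      ∃ D : Fin t → Submodule F (Fin n → F), Cfsg.Geo.IsMDecomposition a D ∧
        ∃ σ : Equiv.Perm (Fin t), ∀ j, (D j).map (Matrix.toLin' (x : Matrix (Fin n) (Fin n) F)) = D (σ j)) ↔
    ((a = 1 ∧ 1 < c ∧ c = r - 1 ∧ n ≤ (n % c) * r) ∨ (c ≤ a ∧ n % c = t * (a % c))) := by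
  classical
  subst hq
  have hr : r.Prime := Fact.out
  have hV : finrank F (Fin n → F) = n := by simp
  have : Nontrivial (Fin n → F) := Module.finrank_pos_iff (R := F).mp (by omega)
  have hΩ' : ∀ D : Fin t → Submodule F (Fin n → F), Cfsg.Geo.IsMDecomposition a D ↔
      (∀ k, finrank F (D k) = a) ∧ iSupIndep D ∧ iSup D = ⊤ := fun D =>
    ⟨fun h => ⟨h.finrank_eq, h.indep, h.iSup_eq_top⟩, fun h => ⟨ht, ha, h.1, h.2.1, h.2.2⟩⟩
  have hcn : c ≤ n := by
    have h1 := hΩ.trans (Nat.div_dvd_of_dvd (factorial_dvd_card_decomp a t ha _ hΩ'))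
    have h2 := h1.trans (card_decomp_dvd a t (by rw [hV, hat]) _ hΩ')
    rw [card_linearEquiv_eq] at h2
    rw [hc]
    exact orderOf_le_of_dvd_card_GL hr hrp h2
  have hc0 : 0 < c := hc ▸ orderOf_card_pos hrp
  have hcr : c ∣ r - 1 := hc ▸ orderOf_card_dvd hrp
  rw [forall_SL_iff r (fun f => ∃ D : Fin t → Submodule F (Fin n → F),
    Cfsg.Geo.IsMDecomposition a D ∧ ∃ σ : Equiv.Perm (Fin t), ∀ j, (D j).map f = D (σ j))]
  have hS : ∀ f : Module.End F (Fin n → F), (∃ D : Fin t → Submodule F (Fin n → F),
      Cfsg.Geo.IsMDecomposition a D ∧ ∃ σ : Equiv.Perm (Fin t), ∀ j, (D j).map f = D (σ j)) ↔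
      Stab f a (Fin t) := fun f => by
    simp only [hΩ', Stab, and_assoc]
  simp only [hS]
  constructor
  · intro h
    by_cases hc1 : c = 1
    · right
      simp [hc1, Nat.mod_one, ha]
    have hc2 : 2 ≤ orderOf (Fintype.card F : ZMod r) := by omega
    obtain ⟨g, hg, hgm, hgd⟩ := exists_monic_irreducible_dvd_cyclotomic (F := F) (r := r)
    have hgc : g.natDegree = c := hc ▸ natDegree_eq_orderOf hrp hg hgd
    have key : ∀ s, 0 < s → s * c ≤ n → ∃ y : Module.End F (Fin n → F), y ^ r = 1 ∧
        finrank F (LinearMap.ker (y - 1)) = n - s * c ∧ aeval y (g * (X - 1)) = 0 ∧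
        Function.Injective y ∧ Stab y a (Fin t) := by
      intro s hs0 hs
      obtain ⟨y, h1, h2, -, h3, -⟩ := exists_end_order (V := Fin n → F) hrp hg hgm hgd s
        (by rw [hV, ← hc]; exact hs)
      rw [hV, ← hc] at h2
      have hdet := det_eq_one_of_pow_eq_one (by omega) h1
      refine ⟨y, h1, h2, h3, inj_of_det (by rw [hdet]; exact one_ne_zero),
        h y 1 hdet (by rw [h1, one_smul]) (ne_smul_of_finrank_ker_lt (by omega) h1 ?_)⟩
      have : 0 < s * c := Nat.mul_pos hs0 hc0
      omega
    have hne : ∀ D : Fin t → Submodule F (Fin n → F), (∀ k, finrank F (D k) = a) →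
        ∀ k, D k ≠ ⊥ := fun D h1 k hk => by
      have := h1 k
      rw [hk, finrank_bot] at this
      omega
    have hfix : ∀ (y : Module.End F (Fin n → F)) (D : Fin t → Submodule F (Fin n → F))
        (σ : Equiv.Perm (Fin t)), y ^ r = 1 → (∀ k, finrank F (D k) = a) → iSupIndep D →
        iSup D = ⊤ → (∀ k, (D k).map y = D (σ k)) → (∀ k, σ k = k) →
        ∃ b : Fin t → ℕ, finrank F (LinearMap.ker (y - 1)) = ∑ k, b k ∧
          ∀ k, ∃ l, a = b k + c * l := by
      intro y D σ hy h1 h2 h3 h4 h5
      have hinv : ∀ k, ∀ v ∈ D k, y v ∈ D k := fun k v hv => by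
        have := h4 k
        rw [h5] at this
        rw [← this]
        exact ⟨v, hv, rfl⟩
      refine ⟨_, finrank_ker_eq_sum h2 h3 fun k v hv => ?_, fun k => ?_⟩
      · exact (D k).sub_mem (hinv k v hv) hv
      · rw [← h1 k, hc]
        exact exists_finrank_eq_add_of_pow_eq_one hrp hy (hinv k)
    obtain ⟨y, hy1, hy2, hy3, hy4, hy5⟩ := key (n / c) (Nat.div_pos hcn hc0)
      (Nat.div_mul_le_self _ _)
    rw [mul_comm, ← Nat.mod_def] at hy2
    have hlt := Nat.mod_lt n hc0
    obtain ⟨D, h1, h2, h3, σ, h4⟩ := id hy5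
    by_cases h5 : ∀ k, σ k = k
    · right
      obtain ⟨b, hb1, hb2⟩ := hfix y D σ hy1 h1 h2 h3 h4 h5
      rw [hy2] at hb1
      have hb3 : ∀ k, b k = a % c := by
        intro k
        obtain ⟨l, hl⟩ := hb2 k
        have : b k ≤ ∑ k, b k := Finset.single_le_sum (fun _ _ => Nat.zero_le _) (Finset.mem_univ k)
        rw [hl, Nat.add_mul_mod_self_left, Nat.mod_eq_of_lt (by omega)]
      simp only [hb3, Finset.sum_const, Finset.card_univ, Fintype.card_fin, smul_eq_mul] at hb1
      refine ⟨?_, hb1⟩
      by_contra hcon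
      rw [Nat.mod_eq_of_lt (show a < c by omega), mul_comm, ← hat] at hb1
      omega
    · left
      push Not at h5
      obtain ⟨k, hk⟩ := h5
      have hσ : σ ^ r = 1 := perm_pow_eq_one h2 (hne D h1) h4 (z := 1) (by rw [hy1, one_smul])
        one_ne_zero
      have h1m : (X - 1 : F[X]).Monic := by simpa using monic_X_sub_C (1 : F)
      have h1d : (X - 1 : F[X]).natDegree = 1 := by simpa using natDegree_X_sub_C (1 : F)
      have h6 := mul_sub_le_finrank_range hy4 h2 h4 hr hσ hk (P := g * (X - 1))
        (mul_ne_zero hg.ne_zero h1m.ne_zero)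
      rw [hy3, LinearMap.range_zero, finrank_bot, natDegree_mul hg.ne_zero h1m.ne_zero, hgc, h1d,
        h1] at h6
      have h7 : r - (c + 1) = 0 := by
        rcases Nat.mul_eq_zero.mp (Nat.le_zero.mp h6) with h | h
        · omega
        · exact h
      have h8 : c = r - 1 := by
        have := Nat.le_of_dvd (Nat.sub_pos_of_lt hr.one_lt) hcr
        omega
      have h9 := (mul_sub_le_finrank_range hy4 h2 h4 hr hσ hk (cyclotomic_ne_zero r F)).trans
        (Submodule.finrank_mono (range_cyclotomic_le hy1))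
      rw [natDegree_cyclotomic, Nat.totient_prime hr, h1, hy2,
        show r - (r - 1) = 1 by have := hr.pos; omega, mul_one] at h9
      have ha1 : a = 1 := by
        obtain ⟨y', hy1', hy2', -, hy4', D', h1', h2', h3', σ', h4'⟩ := key 1 one_pos (by omega)
        by_cases h5' : ∀ k, σ' k = k
        · obtain ⟨b, hb1, hb2⟩ := hfix y' D' σ' hy1' h1' h2' h3' h4' h5'
          have hb3 : ∀ k, b k = a := by
            intro k
            obtain ⟨l, hl⟩ := hb2 k
            rcases Nat.eq_zero_or_pos l with h | h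
            · simp [hl, h]
            · nlinarith
          simp only [hb3, Finset.sum_const, Finset.card_univ, Fintype.card_fin, smul_eq_mul] at hb1
          rw [mul_comm t, ← hat] at hb1
          omega
        · push Not at h5'
          obtain ⟨k', hk'⟩ := h5'
          have hσ' : σ' ^ r = 1 := perm_pow_eq_one h2' (hne D' h1') h4' (z := 1)
            (by rw [hy1', one_smul]) one_ne_zero
          have h10 := mul_sub_le_finrank_range hy4' h2' h4' hr hσ' hk' h1m.ne_zero
          have h11 := LinearMap.finrank_range_add_finrank_ker (aeval y' (X - 1 : F[X]))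
          rw [ker_aeval_X_sub_one, hy2', hV] at h11
          rw [h1', h1d, ← h8] at h10
          have h12 : a * c ≤ 1 * c := by omega
          have := Nat.le_of_mul_le_mul_right h12 hc0
          omega
      refine ⟨ha1, by omega, h8, ?_⟩
      subst ha1
      have := finrank_le_of_stab_one hrp hy1 hc2 hy5
      rw [hy2] at this
      omega
  · intro h f z hf hz _
    have hinj : Function.Injective f := inj_of_det (by rw [hf]; exact one_ne_zero)
    have hz0 := ne_zero_of_pow_eq_smul (by rw [hf]; exact one_ne_zero) hz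
    have hsum : ∑ _k : Fin t, a = finrank F (Fin n → F) := by simp [hat, mul_comm]
    rcases h with ⟨rfl, h1, h2, h3⟩ | ⟨h1, h2⟩
    · obtain ⟨w, hw⟩ : ∃ w : F, w ^ r = z := by
        by_contra hcon
        have := orderOf_eq_one_of_not_pow (F := F) (r := r) (z := z) fun w hw => hcon ⟨w, hw⟩
        omega
      have hw0 : w ≠ 0 := by rintro rfl; simp [hr.ne_zero] at hw; exact hz0 hw.symm
      refine Stab.of_smul ?_ hw0
      have := stab_monomial hrp (inv_smul_pow_eq_one hz hw hz0) (by omega) (by omega)
        (by rw [hV, ← h2]; exact h3)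
      exact this.reindex (finCongr (by rw [hV, hat, one_mul]))
    · by_cases hc1 : c = 1
      · by_cases hra : r ∣ n → r ∣ a
        · refine HasDecomp.stab hinj (hasDecomp_of_pow_eq_smul hrp hf hz _ hsum
            (Or.inl ⟨by omega, Or.inl fun h _ => hra (hV ▸ h)⟩))
        · by_cases hw : ∃ w : F, w ^ r = z
          · obtain ⟨w, hw⟩ := hw
            have hw0 : w ≠ 0 := by rintro rfl; simp [hr.ne_zero] at hw; exact hz0 hw.symm
            refine HasDecomp.stab hinj (HasDecomp.of_smul (hasDecomp_of_pow_eq_one hrp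
              (inv_smul_pow_eq_one hz hw hz0) _ hsum ?_) hw0)
            rw [← hc, hc1, ← hsum]
            simp
          · have hirr := X_pow_sub_C_irreducible_of_prime hr (fun w h => hw ⟨w, h⟩)
            obtain ⟨N, hN⟩ := hasType_of_irreducible hirr (monic_X_pow_sub_C z hr.ne_zero)
              ((aeval_X_pow_sub_C_eq_zero_iff f r z).mpr hz)
            push Not at hra
            obtain ⟨t', rfl⟩ : r ∣ t := ((Nat.Prime.dvd_mul hr).mp (hat ▸ hra.1)).resolve_left hra.2
            have hdim := hN.finrank_eq fun _ => hirr.ne_zero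
            simp only [natDegree_X_pow_sub_C, Finset.sum_const, Finset.card_univ, Fintype.card_fin,
              smul_eq_mul] at hdim
            have hNt : N = t' * a := Nat.eq_of_mul_eq_mul_right hr.pos (by
              rw [← hdim, hV, hat]; ring)
            have := hN.stab hinj (fun _ => hirr.ne_zero) hr.pos hz (a := a) (c := t') (t' := 0)
              Finset.univ (fun _ _ => natDegree_X_pow_sub_C) (by simp [hNt])
              (fun j => absurd (Finset.mem_univ _) j.2) (fun k => k.elim0)
              (by rw [hV, hat]; ring)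
            rwa [add_zero, mul_comm] at this
      · refine HasDecomp.stab hinj (hasDecomp_of_pow_eq_smul hrp hf hz _ hsum
          (Or.inr ⟨by omega, ?_⟩))
        rw [← hc, hV]
        simp only [Finset.sum_const, Finset.card_univ, Fintype.card_fin, smul_eq_mul]
        have h3 := Nat.div_add_mod n c
        have h4 := Nat.div_add_mod a c
        refine Nat.le_of_mul_le_mul_left (c := c) ?_ hc0
        have h5 : n = t * (c * (a / c) + a % c) := by rw [h4, hat, mul_comm]
        nlinarith

end Cfsg.Agent.S5958
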