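import Cfsg.Statements.S5959
import Cfsg.Agent.H8.Imprim

set_option autoImplicit false
open scoped MatrixGroups
open Cfsg

namespace Cfsg.Agent.S5959

open Polynomial Module Cfsg.Agent.H8

theorem sum_eq_sum_min_add (p : ℕ) (hp : 0 < p) (μ : Multiset ℕ) (hμ : ∀ b ∈ μ, b ≤ p) :
    μ.sum = (μ.map (fun a => min a (p - 1))).sum + μ.count p := by
  induction μ using Multiset.induction_on with
  | empty => simp
  | cons a s ih =>
    have h1 := hμ a (Multiset.mem_cons_self _ _)
    simp only [Multiset.sum_cons, Multiset.map_cons, Multiset.count_cons]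
    rw [ih fun b hb => hμ b (Multiset.mem_cons_of_mem hb)]
    split_ifs <;> omega

/-- Elements of order `p` of PSL_n(q) and imprimitive subgroups: a necessary condition. Here `T = PSL_n(F)` for a field `F` with `q = p^f` elements (`n ≥ 2`, `(n, q) ≠ (2, 2), (2, 3)`), `n = a·t` with `t ≥ 2`, and Ω is the set of direct-sum decompositions of `F^n` into `t` subspaces of dimension `a` (unordered; their number is the number of ordered ones divided by `t!`), whose stabilizers are the imprimitive subgroups of type GL_a(q) ≀ S_t (maximal except in some small cases; maximality is not assumed); an element of `T` of prime order `r` (a matrix `x` of determinant 1 with `x^r` scalar, `x` not scalar) fixes a point of Ω when it permutes the summands of some such decomposition. Suppose `p > 2` divides the number of such decompositions. If every element of `T` of order `p` stabilizes such a decomposition, then every partition of `n` into parts of size at most `p` in which the part `p` occurs fewer than `a` times contains (as a sub-multiset)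 a partition of `a`. -/
theorem result {F : Type*} [Field F] [Fintype F] {p : ℕ} [Fact p.Prime] [CharP F p] {q : ℕ} (hq : Fintype.card F = q)
    (n a t : ℕ) (hn : 2 ≤ n) (hT : (n, q) ≠ (2, 2) ∧ (n, q) ≠ (2, 3)) (hat : n = a * t) (ha : 1 ≤ a) (ht : 2 ≤ t)
    (hp : 2 < p) (hΩ : p ∣ Nat.card {D : Fin t → Submodule F (Fin n → F) // Cfsg.Geo.IsMDecomposition a D} / Nat.factorial t)
    (h : ∀ x : Matrix.SpecialLinearGroup (Fin n) F,
      (∃ z : F, ((x ^ p : Matrix.SpecialLinearGroup (Fin n) F) : Matrix (Fin n) (Fin n) F) = z • (1 : Matrix (Fin n) (Fin n) F)) →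
      (∀ z : F, (x : Matrix (Fin n) (Fin n) F) ≠ z • (1 : Matrix (Fin n) (Fin n) F)) →
      ∃ D : Fin t → Submodule F (Fin n → F), Cfsg.Geo.IsMDecomposition a D ∧
        ∃ σ : Equiv.Perm (Fin t), ∀ j, (D j).map (Matrix.toLin' (x : Matrix (Fin n) (Fin n) F)) = D (σ j)) :
    (∀ μ : Multiset ℕ, (∀ b ∈ μ, 0 < b ∧ b ≤ p) → μ.sum = n → μ.count p < a → ∃ ν : Multiset ℕ, ν ≤ μ ∧ ν.sum = a) := by
  have hV : finrank F (Fin n → F) = n := by simp
  rw [forall_SL_iff p (fun f => ∃ D : Fin t → Submodule F (Fin n → F),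
    Cfsg.Geo.IsMDecomposition a D ∧ ∃ σ : Equiv.Perm (Fin t), ∀ j, (D j).map f = D (σ j))] at h
  intro μ hμ hs hcount
  by_cases h1 : ∃ a ∈ μ, 1 < a
  · obtain ⟨x, hx1, hx2, hx3, hx4⟩ := exists_unipotent (F := F) (V := Fin n → F) μ
      (fun a ha => (hμ a ha).2) (by rw [hs, hV]) h1
    obtain ⟨D, hD, σ, hσ⟩ := h x 1 hx1 (by rw [hx2, one_smul]) hx3
    have hinj : Function.Injective x := by
      rw [← LinearMap.ker_eq_bot]
      by_contra hcon
      rw [← Ne, ← LinearMap.det_eq_zero_iff_ker_ne_bot, hx1] at hcon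
      exact one_ne_zero hcon
    have hne : ∀ k, D k ≠ ⊥ := fun k hk => by
      have := hD.finrank_eq k
      rw [hk, finrank_bot] at this
      omega
    have hσp : σ ^ p = 1 := perm_pow_eq_one hD.indep hne hσ (z := 1) (by rw [hx2, one_smul])
      one_ne_zero
    have hfix : ∀ k, σ k = k := by
      intro k
      by_contra hk
      have h2 := mul_sub_le_finrank_range hinj hD.indep hσ Fact.out hσp hk
        (P := (X - C 1) ^ (p - 1)) (pow_ne_zero _ (X_sub_C_ne_zero 1))
      have h3 := LinearMap.finrank_range_add_finrank_ker (aeval x ((X - C (1 : F)) ^ (p - 1)))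
      rw [hx4.finrank_ker, hV] at h3
      rw [natDegree_pow, natDegree_X_sub_C, hD.finrank_eq, mul_one,
        show p - (p - 1) = 1 by omega, mul_one] at h2
      have h4 := sum_eq_sum_min_add p (by omega) μ fun b hb => (hμ b hb).2
      omega
    have hinv : ∀ k, ∀ v ∈ D k, x v ∈ D k := fun k v hv => by
      have := hσ k
      rw [hfix] at this
      rw [← this]
      exact ⟨v, hv, rfl⟩
    let k₀ : Fin t := ⟨0, by omega⟩
    have hc : IsCompl (D k₀) (⨆ j, ⨆ (_ : j ≠ k₀), D j) := by
      refine ⟨hD.indep k₀, ?_⟩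
      rw [codisjoint_iff, eq_top_iff, ← hD.iSup_eq_top]
      refine iSup_le fun j => ?_
      by_cases hj : j = k₀
      · rw [hj]; exact le_sup_left
      · exact le_sup_of_le_right (le_iSup₂_of_le j hj le_rfl)
    rw [← hD.finrank_eq k₀]
    refine hx4.exists_le_of_isCompl (fun a ha => (hμ a ha).1) hc (hinv k₀) ?_
    have : (⨆ j, ⨆ (_ : j ≠ k₀), D j).map x ≤ ⨆ j, ⨆ (_ : j ≠ k₀), D j := by
      simp only [Submodule.map_iSup]
      refine iSup₂_mono fun j _ => ?_
      rintro _ ⟨v, hv, rfl⟩
      exact hinv j v hv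
    exact fun v hv => this ⟨v, hv, rfl⟩
  · push Not at h1
    exact exists_le_sum_eq_of_forall_eq_one (fun a ha => le_antisymm (h1 a ha) (hμ a ha).1)
      (by nlinarith)

end Cfsg.Agent.S5959
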