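import Cfsg.Statements.S5964
import Cfsg.Agent.H1.ElSub

set_option autoImplicit false
open scoped MatrixGroups
open Cfsg

namespace Cfsg.Agent.S5964

open Module Polynomial Cfsg.Agent.H8 Cfsg.Agent.H1.El

/-- Involutions of PSL_n(q) and subfield subgroups. Here `T = PSL_n(F)` for a field `F` with `q = p^f` elements (`n ≥ 2`, `(n, q) ≠ (2, 2), (2, 3)`), `F₀` is the subfield with `q₀` elements where `q = q₀^k` for a prime `k`, and `H` is the subgroup of matrices of determinant 1 lying in the subfield group of `F₀` (invertible matrices over `F₀` times scalars) — a maximal subgroup of type GL_n(q₀) (the case `n = 2`, `q₀ = 2` is excluded); Ω is the set of `T`-conjugates of `H` (cosets of `H`), so an element of `T` of prime order `r` (a matrix `x` of determinant 1 with `x^r` scalar, `x` not scalar) fixes a point of Ω when some conjugate of `x` by a matrix of determinant 1 lies in `H`. Suppose the index of `H` is even. Then every involution of `T` is conjugate in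 `T` into `H` if and only if either `q` is even, or `k = 2` and `(n)_2 ≤ (q − 1)_2`. (For `q` odd and `k` odd the index of `H` is odd, so that case does not arise.) -/
theorem result {F : Type*} [Field F] [Fintype F] {p : ℕ} [Fact p.Prime] [CharP F p] {q : ℕ} (hq : Fintype.card F = q)
    (n : ℕ) (hn : 2 ≤ n) (hT : (n, q) ≠ (2, 2) ∧ (n, q) ≠ (2, 3))
    (F₀ : Subfield F) (k q₀ : ℕ) (hk : k.Prime) (hF₀ : Nat.card ↥F₀ = q₀) (hqk : q = q₀ ^ k) (hC5 : ¬ (n = 2 ∧ q₀ = 2)) (hΩ : 2 ∣ ((Cfsg.Geo.subfieldSubgroup F₀ 1).comap (Matrix.SpecialLinearGroup.toGL : Matrix.SpecialLinearGroup (Fin n) F →* GL (Fin n) F)).index) :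
    (∀ x : Matrix.SpecialLinearGroup (Fin n) F,
      (∃ z : F, ((x ^ 2 : Matrix.SpecialLinearGroup (Fin n) F) : Matrix (Fin n) (Fin n) F) = z • (1 : Matrix (Fin n) (Fin n) F)) →
      (∀ z : F, (x : Matrix (Fin n) (Fin n) F) ≠ z • (1 : Matrix (Fin n) (Fin n) F)) →
      ∃ P : Matrix.SpecialLinearGroup (Fin n) F, P⁻¹ * x * P ∈ ((Cfsg.Geo.subfieldSubgroup F₀ 1).comap (Matrix.SpecialLinearGroup.toGL : Matrix.SpecialLinearGroup (Fin n) F →* GL (Fin n) F))) ↔
    (Odd q → (k = 2 ∧ padicValNat 2 n ≤ padicValNat 2 (q - 1))) := by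
  classical
  subst hq hF₀
  have : Fact (Nat.Prime 2) := ⟨Nat.prime_two⟩
  have : Nonempty (Fin n) := ⟨⟨0, by omega⟩⟩
  rw [elus_iff_one]
  rw [index_comap_eq] at hΩ
  by_cases hp : p = 2
  · subst hp
    refine iff_of_true (elus_of_in' (hasScal_sub F₀) (Or.inr rfl) (fun y w hy _ _ => ?_)
      fun f z _ _ h => ?_) fun h => absurd rfl (ne_two_of_odd_card (p := 2) h)
    · obtain ⟨μ, -, -, h⟩ := exists_sub_of_pow_char (n := Fin n) F₀ hy (by simp)
      exact h
    · obtain ⟨w, hw⟩ := exists_pow_char_eq (p := 2) z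
      exact absurd hw (h w)
  have hodd := odd_card_of_ne_two (F := F) (Ne.symm hp)
  obtain ⟨j, -, -, hj⟩ := dvd_of_dvd_index_sub F₀ (by omega) hqk (Ne.symm hp) hΩ
  obtain rfl : 2 = k := by
    by_contra h
    obtain ⟨h1, h2⟩ := pow_eq_one_of_dvd_geom hk h hj
    rw [zmod_two_eq_ite ((Nat.card F₀ ^ j : ℕ) : ZMod 2)] at h1 h2
    split_ifs at h1 h2
    · rw [zero_pow hk.ne_zero] at h1
      exact zero_ne_one h1
    · exact h2 rfl
  have h4 : Fintype.card F % 4 = 1 := by
    obtain ⟨t, ht⟩ : Odd (Nat.card F₀) := (Nat.odd_pow_iff two_ne_zero).mp (hqk ▸ hodd)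
    rw [hqk, ht, show (2 * t + 1) ^ 2 = 4 * (t * (t + 1)) + 1 by ring]
    omega
  by_cases hv : padicValNat 2 n ≤ padicValNat 2 (Fintype.card F - 1)
  · refine iff_of_true (elus_of_in' (hasScal_sub F₀) (Or.inl (Ne.symm hp)) (fun y w hy _ _ => ?_)
      fun f z h1 h2 h => ?_) fun _ => ⟨rfl, hv⟩
    · have hζ : IsPrimitiveRoot (-1 : F) 2 := isPrimitiveRoot_of_pow_eq_one (by simp) fun e =>
        natCast_ne_zero_of_ne (F := F) (Ne.symm hp) (by push_cast; linear_combination -e)
      obtain ⟨a, ha⟩ := exists_diag_zp hζ hy rfl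
      refine in_sub_of_perm F₀ (Ne.symm hp) hζ ha (Equiv.refl _) (fun i => ?_) (by simp)
      rw [((Nat.odd_pow_iff two_ne_zero).mp (hqk ▸ hodd)).natCast_zmod_two, one_mul]
      rfl
    · obtain ⟨w, hw⟩ := exists_pow_eq_of_det_eq_one h1 h2 (by simpa using hv) fun _ _ => h4
      exact absurd hw (h w)
  · obtain ⟨x, z, h1, h2, h3⟩ := exists_det_eq_one_not_pow (F := F) (V := Fin n → F) (r := 2)
      (Ne.symm hp) (by omega) (fun h => hv (by simpa using h.1))
    refine iff_of_false (not_elus x z h1 h2 (ne_smul_of_not_pow h2 h3) fun h => ?_)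
      fun h => hv (h hodd).2
    obtain ⟨c, -, hc, -, h5⟩ := in_sub_pow F₀ h2 h
    obtain ⟨s, hs⟩ := isSquare_of_mem_sub F₀ hqk h5
    exact h3 (s / c) (by field_simp; linear_combination -hs)

end Cfsg.Agent.S5964
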