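import Cfsg.Statements.S5965
import Cfsg.Agent.H1.ElSub

set_option autoImplicit false
open scoped MatrixGroups
open Cfsg

namespace Cfsg.Agent.S5965

open Module Polynomial Cfsg.Agent.H8 Cfsg.Agent.H1.El

theorem coeff_mem {F : Type*} [Field F] [Fintype F] {p : ℕ} [Fact p.Prime] [CharP F p] {r : ℕ}
    [Fact r.Prime] (F₀ : Subfield F) (hrp : r ≠ p) {g : F[X]} (hg : Irreducible g) (hm : g.Monic)
    (hd : g ∣ cyclotomic r F) (hdeg : g.natDegree = orderOf (Nat.card F₀ : ZMod r)) (k : ℕ) :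
    g.coeff k ∈ F₀ := by
  classical
  let _ := Fintype.ofFinite F₀
  have h1 := cyclotomic.monic r F₀
  rw [← map_cyclotomic r F₀.subtype, ← h1.normalize_eq_self,
    ← UniqueFactorizationMonoid.prod_normalizedFactors_eq h1.ne_zero,
    Polynomial.map_multiset_prod] at hd
  obtain ⟨g₀, h2, h3⟩ := hg.prime.exists_mem_multiset_map_dvd hd
  obtain ⟨h4, h5, h6⟩ := (Polynomial.mem_normalizedFactors_iff h1.ne_zero).mp h2
  rw [← eq_of_monic_of_dvd_of_natDegree_le hm (h5.map _) h3 (by
    rw [natDegree_map, natDegree_eq_orderOf hrp h4 h6, hdeg, Nat.card_eq_fintype_card]),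
    coeff_map]
  exact Subtype.mem _

theorem aux_exA {r m : ℕ} [Fact r.Prime] (hm : 1 ≤ m) {t b : ZMod r} (h0 : t ≠ 0) (h1 : t ≠ 1)
    (h2 : t ≠ -1) (h : ∀ x, cnt (exA r m) x ≤ cnt (exA r m) (t * x + b)) : False := by
  have e0 := h 0
  have e1 := h 1
  simp only [cnt_exA, one_ne_zero, zero_ne_one, if_true, if_false, mul_zero, zero_add,
    mul_one] at e0 e1
  have k0 : 1 = b ∨ 0 = b := by
    by_contra! e
    rw [if_neg e.1, if_neg e.2] at e0
    omega
  have k1 : 1 = t + b ∨ 0 = t + b := by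
    by_contra! e
    rw [if_neg e.1, if_neg e.2] at e1
    omega
  rcases k0 with rfl | rfl <;> rcases k1 with e | e
  exacts [h0 (by linear_combination -e), h2 (by linear_combination -e),
    h1 (by linear_combination -e), h0 (by linear_combination -e)]

theorem aux_exC {r m : ℕ} [Fact r.Prime] (hr : r ≠ 2) (hm : 2 ≤ m) {t b : ZMod r} (h0 : t ≠ 0)
    (h1 : t ≠ 1) (h2 : t ≠ -1) (h : ∀ x, cnt (exC r m) x ≤ cnt (exC r m) (t * x + b)) : False := by
  have e0 := h 0
  have e1 := h 1
  have e2 := zmod_two_ne hr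
  simp only [cnt_exC, one_ne_zero, zero_ne_one, if_true, if_false, mul_zero, zero_add,
    mul_one, neg_eq_zero] at e0 e1
  obtain rfl : 0 = b := by
    by_contra e
    rw [if_neg e] at e0
    split_ifs at e0 with e3 e4
    · exact e2 (by linear_combination e3 - e4)
    all_goals omega
  rw [add_zero t, if_neg h1.symm, if_neg h2.symm, if_neg h0.symm] at e1
  omega

/-- Elements of odd prime order r ≠ p of PSL_n(q) and subfield subgroups. Here `T = PSL_n(F)` for a field `F` with `q = p^f` elements (`n ≥ 2`, `(n, q) ≠ (2, 2), (2, 3)`), `F₀` is the subfield with `q₀` elements where `q = q₀^k` for a prime `k`, and `H` is the subgroup of matrices of determinant 1 lying in the subfield group of `F₀` (invertible matrices over `F₀` times scalars) — a maximal subgroup of type GL_n(q₀) (the case `n = 2`, `q₀ = 2` is excluded); Ω is the set of `T`-conjugates of `H` (cosets of `H`), so an element of `T` of prime order `r` (a matrix `x` of determinant 1 with `x^r` scalar, `x`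 not scalar) fixes a point of Ω when some conjugate of `x` by a matrix of determinant 1 lies in `H`. Let `r ≠ p` be an odd prime dividing the index of `H`, with `(n, r) ≠ (6, 3)` and, when `r = k` divides `q₀ − 1`, with `(n)_r ≤ (q − 1)_r`. Then every element of `T` of order `r` is conjugate in `T` into `H` if and only if `r = k`, or `k = 2`, `r = n ∈ {3, 5}` and `(q₀ + 1)_r = r`. The two excluded cases, `(n, r) = (6, 3)` and `r = k ∣ q₀ − 1` with `(n)_r > (q − 1)_r`, are ones where this criterion can fail, so they are left out. -/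
theorem result {F : Type*} [Field F] [Fintype F] {p : ℕ} [Fact p.Prime] [CharP F p] {q : ℕ} (hq : Fintype.card F = q)
    (n : ℕ) (hn : 2 ≤ n) (hT : (n, q) ≠ (2, 2) ∧ (n, q) ≠ (2, 3))
    (F₀ : Subfield F) (k q₀ : ℕ) (hk : k.Prime) (hF₀ : Nat.card ↥F₀ = q₀) (hqk : q = q₀ ^ k) (hC5 : ¬ (n = 2 ∧ q₀ = 2)) (r : ℕ) [Fact r.Prime] (hr2 : r ≠ 2) (hrp : r ≠ p) (hgap : ¬ (n = 6 ∧ r = 3)) (hgapk : r = k → r ∣ q₀ - 1 → padicValNat r n ≤ padicValNat r (q - 1)) (hΩ : r ∣ ((Cfsg.Geo.subfieldSubgroup F₀ 1).comap (Matrix.SpecialLinearGroup.toGL : Matrix.SpecialLinearGroup (Fin n) F →* GL (Fin n) F)).index) :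
    (∀ x : Matrix.SpecialLinearGroup (Fin n) F,
      (∃ z : F, ((x ^ r : Matrix.SpecialLinearGroup (Fin n) F) : Matrix (Fin n) (Fin n) F) = z • (1 : Matrix (Fin n) (Fin n) F)) →
      (∀ z : F, (x : Matrix (Fin n) (Fin n) F) ≠ z • (1 : Matrix (Fin n) (Fin n) F)) →
      ∃ P : Matrix.SpecialLinearGroup (Fin n) F, P⁻¹ * x * P ∈ ((Cfsg.Geo.subfieldSubgroup F₀ 1).comap (Matrix.SpecialLinearGroup.toGL : Matrix.SpecialLinearGroup (Fin n) F →* GL (Fin n) F))) ↔
    (r = k ∨ (k = 2 ∧ r = n ∧ (n = 3 ∨ n = 5) ∧ padicValNat r (q₀ + 1) = 1)) := by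
  classical
  subst hq hF₀
  have hr : r.Prime := Fact.out
  have : Nonempty (Fin n) := ⟨⟨0, by omega⟩⟩
  let _ := Fintype.ofFinite F₀
  rw [elus_iff_one]
  rw [index_comap_eq] at hΩ
  obtain ⟨t, ht⟩ : ∃ t : ZMod r, t = Nat.card F₀ := ⟨_, rfl⟩
  have hc : (Fintype.card F : ZMod r) = t ^ k := by rw [hqk, ht, Nat.cast_pow]
  by_cases hrk : r = k
  · subst hrk
    rw [ZMod.pow_card] at hc
    refine iff_of_true (elus_of_in' (hasScal_sub F₀) (Or.inl hrp) (fun y w hy h4 _ => ?_)
      fun f z h1 h2 h => ?_) (Or.inl rfl)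
    · obtain ⟨N, g, h1, h2, h3, h5⟩ := exists_hasType_of_pow_eq_one hrp hy
      obtain ⟨x, hx⟩ := exists_sub_of_hasType (n := Fin n) F₀ h2 (fun j k => by
        rcases h3 j with e | e
        · rw [e, show (X - 1 : F[X]) = (X - 1 : F₀[X]).map F₀.subtype by simp, coeff_map]
          exact Subtype.mem _
        · exact coeff_mem F₀ hrp (h1 j) (h2 j) e.1 (by rw [e.2, hc, ht]) k) h5 (by simp)
      exact in_sub_of_sim F₀ (right_ne_zero_of_mul (h4 ▸ one_ne_zero)) hx
    · have h3 : r ∣ Fintype.card F - 1 := by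
        by_contra h3
        obtain ⟨w, hw⟩ := exists_pow_eq_of_not_dvd h3 z
        exact h w hw
      rw [← orderOf_eq_one_iff_dvd Fintype.card_pos, hc, ht,
        orderOf_eq_one_iff_dvd Nat.card_pos] at h3
      obtain ⟨w, hw⟩ := exists_pow_eq_of_det_eq_one h1 h2 (by simpa using hgapk rfl h3)
        fun e => absurd e hr2
      exact absurd hw (h w)
  obtain ⟨j, hj2, hjn, hj⟩ := dvd_of_dvd_index_sub F₀ (by omega) hqk hrp hΩ
  obtain ⟨hj3, hj4⟩ := pow_eq_one_of_dvd_geom hk hrk hj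
  rw [Nat.cast_pow, ← ht] at hj3 hj4
  have hj5 : orderOf (Fintype.card F : ZMod r) ∣ j := by
    rw [orderOf_dvd_iff_pow_eq_one, hc, ← pow_mul, mul_comm, pow_mul, hj3]
  by_cases h1 : orderOf (Fintype.card F : ZMod r) ≠ 1
  · obtain ⟨y, h2, h3, h4, -, g, h5, h6, h7, h8⟩ := exists_irr_block (V := Fin n → F) hrp h1 1
      one_pos (by simpa using (Nat.le_of_dvd (by omega) hj5).trans hjn)
    refine iff_of_false (not_elus y 1 h2 (by rw [h3, one_smul]) h4 fun h => ?_) fun h => ?_
    · obtain ⟨c, x, h9, h10, h11⟩ := in_sub_pow F₀ (z := 1) (k := r) (by rw [h3, one_smul]) h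
      rw [mul_one, ← H7.subFrob_iff, map_pow] at h11
      have h12 : c ∈ F₀ := by
        rw [← H7.subFrob_iff, ← div_eq_one_iff_eq h9]
        exact eq_one_of_pow_eq_one (r := r)
          (fun e => h1 ((orderOf_eq_one_iff_dvd Fintype.card_pos).mpr e))
          (by rw [div_pow, h11, div_self (pow_ne_zero _ h9)])
      have h13 : Sim y (Matrix.toLin' (((⟨c, h12⟩ : F₀)⁻¹ • x).map F₀.subtype)) := by
        have e := h10.smul c⁻¹
        rw [smul_smul, inv_mul_cancel₀ h9, one_smul, ← map_smul] at e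
        exact e
      have h14 := (map_frob_eq_iff F₀ (LinearMap.charpoly y)).mpr fun k => by
        rw [charpoly_of_sim_sub F₀ h13, coeff_map]; exact Subtype.mem _
      rw [h8, Polynomial.map_mul, pow_one, Polynomial.map_pow, Polynomial.map_sub, map_X,
        Polynomial.map_one, ← C_1, mul_left_inj' (pow_ne_zero _ (X_sub_C_ne_zero (1 : F)))] at h14
      obtain ⟨g₀, rfl, h15, h16⟩ := exists_lift_monic F₀ h6 ((map_frob_eq_iff F₀ g).mp h14)
      rw [natDegree_eq_orderOf hrp h5 h7, natDegree_eq_orderOf hrp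
        (h16.irreducible_of_irreducible_map _ _ h5)
        ((map_dvd_map' F₀.subtype).mp (by rwa [map_cyclotomic])), ← Nat.card_eq_fintype_card,
        ← ht] at h15
      exact hj4 (orderOf_dvd_iff_pow_eq_one.mp (h15 ▸ hj5))
    · obtain ⟨rfl, -, -, h2⟩ := h.resolve_left hrk
      have h3 : r ∣ Nat.card F₀ + 1 := dvd_of_one_le_padicValNat h2.ge
      rw [← ZMod.natCast_eq_zero_iff, Nat.cast_add, ← ht, Nat.cast_one] at h3
      rw [Ne, orderOf_eq_one_iff, hc] at h1
      exact h1 (by linear_combination (t - 1) * h3)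
  rw [not_ne_iff] at h1
  have hd := (orderOf_eq_one_iff_dvd Fintype.card_pos).mp h1
  obtain ⟨ζ, hζ⟩ := exists_isPrimitiveRoot (F := F) hd
  rw [orderOf_eq_one_iff, hc] at h1
  have ht1 : t ≠ 1 := fun e => hj4 (by rw [e, one_pow])
  by_cases hk2 : k = 2
  · subst hk2
    have ht2 : t = -1 := (sq_eq_one_iff.mp h1).resolve_left ht1
    have hn3 : 3 ≤ n := by
      by_contra h
      obtain rfl : j = 2 := by omega
      exact hj4 h1
    have hv : padicValNat r (Fintype.card F - 1) = padicValNat r (Nat.card F₀ + 1) := by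
      have h2 : 1 < Nat.card F₀ := Finite.one_lt_card
      rw [hqk, show Nat.card F₀ ^ 2 - 1 = _ from Nat.sq_sub_sq _ 1, padicValNat.mul (by omega) (by omega),
        padicValNat.eq_zero_of_not_dvd (n := Nat.card F₀ - 1) fun e => ht1 (by
          rwa [← orderOf_eq_one_iff_dvd Nat.card_pos, orderOf_eq_one_iff, ← ht] at e), add_zero]
    by_cases hex : (r = 3 ∨ r = 5) ∧ n = r ∧ padicValNat r (Fintype.card F - 1) = 1
    · obtain ⟨h2, h3, h4⟩ := hex
      refine iff_of_true (elus_of_in' (hasScal_sub F₀) (Or.inl hrp) (fun y w hy h5 _ => ?_)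
        fun f z h5 h6 h => ?_) (Or.inr ⟨rfl, h3.symm, by omega, hv ▸ h4⟩)
      · obtain ⟨a, ha⟩ := exists_diag_zp hζ hy (n := n) (by simp)
        have h6 := eq_one_of_pow_mul (r := r) (n := n) (w := w) (x := LinearMap.det y) (by omega)
          (by rw [h4, h3, padicValNat_self]) (by rw [← map_pow, hy, map_one]) (by simpa using h5)
        rw [ha.det, zp_sum hζ, zp_eq_one hζ] at h6
        obtain ⟨l, e, he⟩ := exists_pairing h3.symm (by omega) a h6
        refine In.of_smul (hasScal_sub F₀) (zp_ne_zero hζ (-a (e (.inr ())))) (in_sub_of_perm F₀ hrp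
          hζ (a := fun i => a (e i) - a (e (.inr ()))) (((ha.smul _).reindex e.symm fun i => by
            rw [← zp_add hζ, Equiv.apply_symm_apply, neg_add_eq_sub]))
          ((Equiv.sumComm _ _).sumCongr (Equiv.refl _)) ?_ (by simp))
        rintro ((i | i) | i)
        · simp only [← ht, ht2, Equiv.sumCongr_apply, Sum.map_inl, Equiv.sumComm_apply, Sum.swap_inl]
          linear_combination he i
        · simp only [← ht, ht2, Equiv.sumCongr_apply, Sum.map_inl, Equiv.sumComm_apply, Sum.swap_inr]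
          linear_combination he i
        · simp
      · obtain ⟨N, h7, h8⟩ := det_of_X_pow_sub_C hr.ne_zero
          (X_pow_sub_C_irreducible_of_prime hr h) h6
        obtain rfl : N = 1 := Nat.eq_of_mul_eq_mul_right hr.pos (by simpa [h3] using h7.symm)
        rw [h5, pow_one, ((hr.odd_of_ne_two hr2).add_one).neg_one_pow, one_mul] at h8
        exact absurd (by rw [one_pow, h8]) (h 1)
    · refine iff_of_false (not_elus_symm (hasScal_sub F₀) hn3 hr2 hζ hgap hex
        fun y a _ ha h => ?_) fun h => hex ?_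
      · obtain ⟨b, hb⟩ := in_sub_diag F₀ hζ ha h
        exact ⟨b, fun x => by simpa only [← ht, ht2, neg_add_eq_sub, neg_one_mul] using hb x⟩
      · obtain ⟨-, h2, h3, h4⟩ := h.resolve_left hrk
        exact ⟨by omega, h2.symm, hv ▸ h4⟩
  have ht0 : t ≠ 0 := fun e => by
    rw [e, zero_pow hk.ne_zero] at h1
    exact zero_ne_one h1
  have ht2 : t ≠ -1 := fun e => by
    rw [e, (hk.odd_of_ne_two hk2).neg_one_pow] at h1
    exact zmod_two_ne hr2 (by linear_combination -h1)
  refine iff_of_false ?_ fun h => hk2 (h.resolve_left hrk).1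
  by_cases hn3 : n ≤ 3
  · have := Fact.mk hk
    have h2 : k ∣ r - 1 := by
      rw [← orderOf_eq_prime h1 ht1]
      exact orderOf_dvd_of_pow_eq_one (ZMod.pow_card_sub_one_eq_one ht0)
    have h3 := Nat.le_of_dvd (by have := hr.two_le; omega) h2
    have h4 := hk.two_le
    obtain ⟨m, rfl⟩ : ∃ m, n = 1 + m := ⟨n - 1, by omega⟩
    refine not_elus_exA (hasScal_sub F₀) (by omega) hζ ?_ fun y _ hy h => ?_
    · rw [padicValNat.eq_zero_of_not_dvd fun e => by have := Nat.le_of_dvd (by omega) e; omega]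
      exact (padicValNat_pos_iff card_sub_one_ne_zero).mpr hd
    · obtain ⟨b, hb⟩ := in_sub_diag F₀ hζ hy h
      exact aux_exA (by omega) ht0 ht1 ht2 (ht ▸ hb)
  · obtain ⟨m, rfl⟩ : ∃ m, n = 1 + 1 + m := ⟨n - 2, by omega⟩
    refine not_elus_exC (hasScal_sub F₀) (by omega) hζ fun y _ hy h => ?_
    obtain ⟨b, hb⟩ := in_sub_diag F₀ hζ hy h
    exact aux_exC hr2 (by omega) ht0 ht1 ht2 (ht ▸ hb)

end Cfsg.Agent.S5965
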