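import Cfsg.Statements.S5966
import Cfsg.Agent.H1.ElSub

set_option autoImplicit false
open scoped MatrixGroups
open Cfsg

namespace Cfsg.Agent.S5966

open Module Polynomial Cfsg.Agent.H8 Cfsg.Agent.H1.El

/-- Elements of order 3 of PSL_n(q) in characteristic 3 and subfield subgroups. Here `T = PSL_n(F)` for a field `F` with `q` elements, `q` a power of 3 (`n ≥ 2`, `(n, q) ≠ (2, 2), (2, 3)`), `F₀` is the subfield with `q₀` elements where `q = q₀^k` for a prime `k`, and `H` is the subgroup of matrices of determinant 1 lying in the subfield group of `F₀` (invertible matrices over `F₀` times scalars) — a maximal subgroup of type GL_n(q₀) (the case `n = 2`, `q₀ = 2` is excluded); Ω is the set of `T`-conjugates of `H` (cosets of `H`), so an element of `T` of prime order `r` (a matrix `x` of determinant 1 with `x^r` scalar, `x` not scalar) fixes a point of Ω when some conjugate of `x` by a matrix of determinant 1 lies in `H`. Suppose 3 divides the index of `H`. Then every element of `T`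 of order 3 is conjugate in `T` into `H` if and only if `n` is odd, or `n` is even and `k > 2`. -/
theorem result {F : Type*} [Field F] [Fintype F] [CharP F 3] {q : ℕ} (hq : Fintype.card F = q)
    (n : ℕ) (hn : 2 ≤ n) (hT : (n, q) ≠ (2, 3))
    (F₀ : Subfield F) (k q₀ : ℕ) (hk : k.Prime) (hF₀ : Nat.card ↥F₀ = q₀) (hqk : q = q₀ ^ k) (hC5 : ¬ (n = 2 ∧ q₀ = 2)) (hΩ : 3 ∣ ((Cfsg.Geo.subfieldSubgroup F₀ 1).comap (Matrix.SpecialLinearGroup.toGL : Matrix.SpecialLinearGroup (Fin n) F →* GL (Fin n) F)).index) :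
    (∀ x : Matrix.SpecialLinearGroup (Fin n) F,
      (∃ z : F, ((x ^ 3 : Matrix.SpecialLinearGroup (Fin n) F) : Matrix (Fin n) (Fin n) F) = z • (1 : Matrix (Fin n) (Fin n) F)) →
      (∀ z : F, (x : Matrix (Fin n) (Fin n) F) ≠ z • (1 : Matrix (Fin n) (Fin n) F)) →
      ∃ P : Matrix.SpecialLinearGroup (Fin n) F, P⁻¹ * x * P ∈ ((Cfsg.Geo.subfieldSubgroup F₀ 1).comap (Matrix.SpecialLinearGroup.toGL : Matrix.SpecialLinearGroup (Fin n) F →* GL (Fin n) F))) ↔
    (Odd n ∨ (Even n ∧ 2 < k)) := by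
  classical
  subst hq hF₀
  have : Fact (Nat.Prime 3) := ⟨Nat.prime_three⟩
  have : Nonempty (Fin n) := ⟨⟨0, by omega⟩⟩
  rw [elus_iff_one]
  by_cases h : Odd n ∨ (Even n ∧ 2 < k)
  · refine iff_of_true (elus_of' fun f z h1 h2 _ => ?_) h
    obtain ⟨w, rfl⟩ := exists_pow_char_eq (p := 3) z
    have hz0 := ne_zero_of_pow_eq_smul (by rw [h1]; exact one_ne_zero) h2
    have hw0 : w ≠ 0 := fun e => hz0 (by rw [e]; simp)
    obtain ⟨μ, h3, h4, h5⟩ := exists_sub_of_pow_char (n := Fin n) (p := 3) F₀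
      (inv_smul_pow_eq_one h2 rfl hz0) (by simp)
    refine ⟨In.of_smul (hasScal_sub F₀) (inv_ne_zero hw0) h5, fun d hd => ?_⟩
    have key : ∀ a ∈ μ, ∀ t : F, ∃ c : Module.End F (Fin n → F), c * f = f * c ∧
        LinearMap.det c = t ^ a := fun a ha t => by
      obtain ⟨c, h6, h7⟩ := h4.exists_comm_det ha t
      refine ⟨c, ?_, h7⟩
      rw [mul_smul_comm, smul_mul_assoc] at h6
      exact smul_right_injective _ (inv_ne_zero hw0) h6
    have h6 : μ.sum = n := by simpa using h4.finrank_eq.symm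
    by_cases h7 : ∀ a ∈ μ, a = 2
    · have h8 : 2 < k := by
        refine (h.resolve_left fun h9 => ?_).2
        rw [Multiset.eq_replicate_card.mpr h7, Multiset.sum_replicate, smul_eq_mul] at h6
        rw [← h6] at h9
        exact (Nat.not_odd_iff_even.mpr (even_two.mul_left _)) h9
      obtain ⟨t, u, h9, h10, rfl⟩ := exists_sq_mul_sub F₀ (hk.odd_of_ne_two (by omega)) hqk d
      obtain ⟨a, ha⟩ := Multiset.exists_mem_of_ne_zero (s := μ) fun e => by
        rw [e] at h6
        simp at h6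
        omega
      obtain ⟨c, h11, h12⟩ := key a ha t
      obtain ⟨g, h13, h14⟩ := exists_det_sub (n := Fin n) F₀ h9 h10
      exact ⟨c, h11, g, h13, by rw [h12, h14, h7 a ha]⟩
    · push Not at h7
      obtain ⟨a, ha, h8⟩ := h7
      obtain ⟨t, rfl⟩ : ∃ t : F, t ^ a = d := by
        obtain rfl | rfl : a = 1 ∨ a = 3 := by have := h3 a ha; omega
        exacts [⟨d, pow_one d⟩, exists_pow_char_eq d]
      obtain ⟨c, h11, h12⟩ := key a ha t
      exact ⟨c, h11, 1, one_mem _, by simp [h12]⟩
  · rw [not_or, Nat.not_odd_iff_even] at h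
    obtain ⟨m, hm⟩ := h.1
    obtain rfl : k = 2 := by
      have := hk.two_le
      by_contra h1
      exact h.2 ⟨h.1, by omega⟩
    exact iff_of_false (not_elus_sub_unip F₀ (by norm_num) (m := m) (by omega)
      (by simp; omega) hqk) (by rw [not_or, Nat.not_odd_iff_even]; exact h)

end Cfsg.Agent.S5966
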