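import Cfsg.Statements.S5967
import Cfsg.Agent.H1.ElForm

set_option autoImplicit false
open scoped MatrixGroups
open Cfsg

namespace Cfsg.Agent.S5967

open Module Polynomial Cfsg.Agent.H8 Cfsg.Agent.H1 Cfsg.Agent.H1.El Cfsg.Agent.H7
  Cfsg.Agent.H7.Polar
open Cfsg.Agent.H4.El hiding scal exists_diag

/-- Involutions of PSL_n(q) and the symplectic-type subgroups. Here `T = PSL_n(F)` for a field `F` with `q` elements, `n ≥ 4` even, `f` is a nondegenerate alternating form on `F^n`, and `H` is the subgroup of matrices of determinant 1 preserving `f` up to a scalar — a maximal subgroup of type Sp_n(q); Ω is the set of `T`-conjugates of `H` (cosets of `H`), so an element of `T` of prime order `r` (a matrix `x` of determinant 1 with `x^r` scalar, `x` not scalar) fixes a point of Ω when some conjugate of `x` by a matrix of determinant 1 preserves `f` up to a scalar. Suppose the index of `H` is even. Then every involution of `T` is conjugate in `T` into `H` if and only if `(q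 − 1)_2 ≤ (n)_2`. -/
theorem result {F : Type*} [Field F] [Fintype F] {p : ℕ} [Fact p.Prime] [CharP F p] {q : ℕ} (hq : Fintype.card F = q)
    (n : ℕ) (hn : 4 ≤ n) (he : Even n) (f : (Fin n → F) → (Fin n → F) → F) (hf : Cfsg.Geo.IsSymplecticForm f)
    (hΩ : 2 ∣ ((Cfsg.Geo.similarityGroup f).comap (Matrix.SpecialLinearGroup.toGL : Matrix.SpecialLinearGroup (Fin n) F →* GL (Fin n) F)).index) :
    (∀ x : Matrix.SpecialLinearGroup (Fin n) F,
      (∃ z : F, ((x ^ 2 : Matrix.SpecialLinearGroup (Fin n) F) : Matrix (Fin n) (Fin n) F) = z • (1 : Matrix (Fin n) (Fin n) F)) →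
      (∀ z : F, (x : Matrix (Fin n) (Fin n) F) ≠ z • (1 : Matrix (Fin n) (Fin n) F)) →
      ∃ P : Matrix.SpecialLinearGroup (Fin n) F, P⁻¹ * x * P ∈ ((Cfsg.Geo.similarityGroup f).comap (Matrix.SpecialLinearGroup.toGL : Matrix.SpecialLinearGroup (Fin n) F →* GL (Fin n) F))) ↔
    padicValNat 2 (q - 1) ≤ padicValNat 2 n := by
  classical
  subst hq
  obtain ⟨m, rfl⟩ := he
  have : Nonempty (Fin (m + m)) := ⟨⟨0, by omega⟩⟩
  have := Fact.mk Nat.prime_two
  rw [elus_iff_one]
  have hH := isSml_sp hf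
  obtain ⟨b, hb⟩ := exists_frame (P := spPolar hf) (k := m) (l := 0) (d := 1)
    (Or.inr (spPolar_wild hf)) (by omega) (Or.inl rfl) (by simp [two_mul])
  by_cases hp : 2 = p
  · subst hp
    refine iff_of_true (elus_of_in' hH.hasScal (Or.inr rfl) (fun y w hy _ _ =>
      hH.in_invol_two (Or.inr rfl) (by omega) b hb hy) fun f z _ _ h => ?_) ?_
    · obtain ⟨w, hw⟩ := exists_pow_char_eq (p := 2) z
      exact absurd hw (h w)
    · rw [padicValNat.eq_zero_of_not_dvd
        (by simpa using not_dvd_pow_sub_one_char (F := F) (p := 2) one_pos)]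
      omega
  have h2 : (2 : F) ≠ 0 := by exact_mod_cast natCast_ne_zero_of_ne (F := F) hp
  by_cases hv : padicValNat 2 (Fintype.card F - 1) ≤ padicValNat 2 (m + m)
  · refine iff_of_true (elus_of_in' hH.hasScal (Or.inl hp) (fun y w hy h4 _ => ?_)
      fun g z _ h3 h4 => ?_) hv
    · obtain ⟨j, hj⟩ := even_of_det_eq_one h2 hy (eq_one_of_pow_mul (r := 2) (n := m + m)
        (by omega) hv (by rw [← map_pow, hy, map_one]) (by simpa using h4))
      obtain ⟨U, -, h5, h6⟩ := (lam_sp (spPolar_val hf)).sub ⊤ nd_top (2 * j)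
        (by rw [finrank_top]; omega) (dvd_mul_right _ _)
      exact hH.in_invol h2 hy h5 (by rw [h6, hj]; simp)
    · let s := (Equiv.sumComm (Fin m) (Fin m)).sumCongr (Equiv.refl (Fin 0))
      let d : (Fin m ⊕ Fin m) ⊕ Fin 0 → F := Sum.elim (Sum.elim 1 fun _ => z) 1
      obtain ⟨N, hN⟩ : ∃ N : Module.End F (Fin (m + m) → F), ∀ i, N (b i) = d i • b (s i) :=
        ⟨b.constr F _, b.constr_basis F _⟩
      refine (hH.in_of (y := N) (μ := -z) (sml_of_basis b ?_)
        (neg_ne_zero.mpr fun e => h4 0 (by simp [e]))).of_sim (sim_of_pow_irr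
          (X_pow_sub_C_irreducible_of_prime Nat.prime_two h4) two_ne_zero h3 (b.ext ?_) rfl)
      · rintro ((i | i) | ⟨_, ⟨⟩⟩) ((j | j) | ⟨_, ⟨⟩⟩) <;>
          simp [hN, d, s, hb.ee, hb.ff, hb.ef, hb.fe, spPolar_σ, spPolar_ε]
      · rintro ((i | i) | ⟨_, ⟨⟩⟩) <;> simp [sq, hN, d, s]
  · obtain ⟨ζ, hζ⟩ := exists_isPrimitiveRoot (F := F) (d := 2) ((padicValNat_pos_iff
      card_sub_one_ne_zero).mp (by omega))
    obtain ⟨k, hk⟩ : ∃ k, m + m = 1 + k := ⟨m + m - 1, by omega⟩
    clear b hb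
    generalize m + m = n at *
    subst hk
    refine iff_of_false (not_elus_exA hH.hasScal (by omega) hζ (by omega) fun y _ hy h4 => ?_) hv
    obtain ⟨π, h5, h6⟩ := hH.symm_of_in hζ rfl hy h4
    have h7 : ∀ j : Fin (1 + k), j ≠ Fin.castAdd k 0 → exA 2 k j = 0 := by
      refine Fin.addCases (fun j hj => absurd (by rw [Subsingleton.elim j 0]) hj) fun j _ => ?_
      simp [exA]
    have h8 := h6 hf.alternating
    obtain ⟨j, h9, h10⟩ : ∃ j, j ≠ Fin.castAdd k 0 ∧ j ≠ π.symm (Fin.castAdd k 0) := by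
      obtain ⟨j, -, hj⟩ := Finset.exists_mem_notMem_of_card_lt_card (t := Finset.univ)
        (s := {Fin.castAdd k (0 : Fin 1), π.symm (Fin.castAdd k 0)})
        (Finset.card_le_two.trans_lt (by simp; omega))
      exact ⟨j, by simpa using hj⟩
    have h11 := h5 (Fin.castAdd k 0) j
    rw [h7 _ (h8 _), h7 _ h9, h7 _ fun e => h10 (π.eq_symm_apply.mpr e)] at h11
    simp [exA] at h11

end Cfsg.Agent.S5967
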