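import Cfsg.Statements.S5968
import Cfsg.Agent.H1.ElForm2

set_option autoImplicit false
open scoped MatrixGroups
open Cfsg

namespace Cfsg.Agent.S5968

open Module Polynomial Cfsg.Agent.H8 Cfsg.Agent.H1 Cfsg.Agent.H1.El Cfsg.Agent.H7
  Cfsg.Agent.H7.Polar
open Cfsg.Agent.H4.El hiding scal exists_diag

/-- Derangements of odd prime order of PSL_n(q) on the cosets of a symplectic-type subgroup. Here `T = PSL_n(F)` for a field `F` with `q` elements, `n ≥ 4` even, `f` is a nondegenerate alternating form on `F^n`, and `H` is the subgroup of matrices of determinant 1 preserving `f` up to a scalar — a maximal subgroup of type Sp_n(q); Ω is the set of `T`-conjugates of `H` (cosets of `H`), so an element of `T` of prime order `r` (a matrix `x` of determinant 1 with `x^r` scalar, `x` not scalar) fixes a point of Ω when some conjugate of `x` by a matrix of determinant 1 preserves `f` up to a scalar. For every odd prime `r` dividing the index of `H`, with `(n, r) ≠ (6, 3)`, there is an element of `T` of order `r` with no conjugate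 in `H`. (For `n = 6`, `r = 3` this can fail: when `(q − 1)_3 = 3` every element of order 3 is conjugate into `H`.) -/
theorem result {F : Type*} [Field F] [Fintype F] {p : ℕ} [Fact p.Prime] [CharP F p] {q : ℕ} (hq : Fintype.card F = q)
    (n : ℕ) (hn : 4 ≤ n) (he : Even n) (f : (Fin n → F) → (Fin n → F) → F) (hf : Cfsg.Geo.IsSymplecticForm f)
    (r : ℕ) [Fact r.Prime] (hr2 : r ≠ 2) (hgap : ¬ (n = 6 ∧ r = 3)) (hΩ : r ∣ ((Cfsg.Geo.similarityGroup f).comap (Matrix.SpecialLinearGroup.toGL : Matrix.SpecialLinearGroup (Fin n) F →* GL (Fin n) F)).index) :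
    ∃ x : Matrix.SpecialLinearGroup (Fin n) F,
      (∃ z : F, ((x ^ r : Matrix.SpecialLinearGroup (Fin n) F) : Matrix (Fin n) (Fin n) F) = z • (1 : Matrix (Fin n) (Fin n) F)) ∧
      (∀ z : F, (x : Matrix (Fin n) (Fin n) F) ≠ z • (1 : Matrix (Fin n) (Fin n) F)) ∧
      ∀ P : Matrix.SpecialLinearGroup (Fin n) F, P⁻¹ * x * P ∉ ((Cfsg.Geo.similarityGroup f).comap (Matrix.SpecialLinearGroup.toGL : Matrix.SpecialLinearGroup (Fin n) F →* GL (Fin n) F)) := by
  classical
  subst hq
  obtain ⟨m, hm⟩ := he
  have : Nonempty (Fin n) := ⟨⟨0, by omega⟩⟩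
  have hr : r.Prime := Fact.out
  have hH := isSml_sp hf
  suffices h : ¬ Elus (Geo.similarityGroup f) r by
    rw [← elus_iff_one] at h
    push Not at h
    exact h
  rw [index_comap_eq] at hΩ
  by_cases hp : r = p
  · subst hp
    refine hH.not_elus_unip (k := 2) (by omega) (by have := hr.two_le; omega) (by omega)
      fun y h1 h2 v => ?_
    have h3 := LinearMap.congr_fun h2 v
    rw [pow_succ', Module.End.mul_apply, LinearMap.sub_apply, Module.End.one_apply,
      LinearMap.zero_apply, sub_eq_zero] at h3
    have h4 := h1 (((y - 1) ^ 2 : Module.End F (Fin n → F)) v) v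
    have h5 := h1 (y v) v
    have h6 := hf.skew (y v) v
    have h7 := hf.alternating (y v)
    rw [h3, one_mul] at h4
    rw [← h4]
    simp only [sq, Module.End.mul_apply, LinearMap.sub_apply, Module.End.one_apply, map_sub,
      spPolar_B] at h5 ⊢
    linear_combination h5 + h6 - 2 * h7
  have hc := odd_orderOf_of_dvd (F := F) hp (N := ∑ i ∈ Finset.range n, i) (m := m)
    (hΩ.trans (relIndex_dvd_of_GL ((Ord.sp_dvd (spPolar_val hf) m nd_top
      (by simp [hm, two_mul])).trans (by rw [Ord.fixIso_top_eq]; exact hH.card_dvd)) (by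
        rw [card_GL_eq, show n = 2 * m by omega, qfact_two_mul]; ring)))
  by_cases h1 : orderOf (Fintype.card F : ZMod r) = 1
  · obtain ⟨ζ, hζ⟩ := exists_isPrimitiveRoot (F := F)
      ((orderOf_eq_one_iff_dvd Fintype.card_pos).mp h1)
    exact not_elus_symm hH.hasScal (by omega) hr2 hζ hgap (by omega)
      fun y a _ hy h => hH.symm_of_in' hζ rfl hy h
  · exact hH.not_elus_block hp h1 (by simpa using orderOf_le_of_dvd_index hp hΩ)
      (nsp_of_id hp hr2 (fun _ => rfl) (Nat.not_even_iff_odd.mpr hc))

end Cfsg.Agent.S5968
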