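import Cfsg.Statements.S5969
import Cfsg.Agent.H1.ElStd
import Cfsg.Agent.H1.ElField

set_option autoImplicit false
open scoped MatrixGroups
open Cfsg

namespace Cfsg.Agent.S5969

open Module Polynomial Cfsg.Agent.H8 Cfsg.Agent.H1.El

/-- Involutions of PSL_n(q) and extension-field subgroups of degree 2. Here `T = PSL_n(F)` for a field `F` with `q = p^f` elements (`n ≥ 2`, `(n, q) ≠ (2, 2), (2, 3)`), `k` is a prime dividing `n`, `K` is a subalgebra of the `n × n` matrices that is a field of degree `k` over `F` (an extension-field structure F_{q^k} on `F^n`), and `H` is the subgroup of matrices of determinant 1 normalizing `K` — a subgroup of type GL_{n/k}(q^k) (maximal except in some small cases; maximality is not assumed); Ω is the set of cosets of `H` in `T`, so an element of `T` of prime order `r` (a matrix `x` of determinant 1 with `x^r` scalar, `x` not scalar) fixes a point of Ω when some conjugate of `x` by a matrix of determinant 1 normalizes `K`. Take `k = 2` and suppose the index of `H` is even.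 Then every involution of `T` is conjugate in `T` into `H` if and only if `n = 2`, or `q` is odd and `(q − 1)_2 ≤ (n)_2`. -/
theorem result {F : Type*} [Field F] [Fintype F] {p : ℕ} [Fact p.Prime] [CharP F p] {q : ℕ} (hq : Fintype.card F = q)
    (n : ℕ) (hn : 2 ≤ n) (hT : (n, q) ≠ (2, 2) ∧ (n, q) ≠ (2, 3))
    (k : ℕ) (hk : k.Prime) (hkn : k ∣ n) (K : Subalgebra F (Matrix (Fin n) (Fin n) F)) (hK : Cfsg.Geo.IsFieldSubalgebra k K) (hk2 : k = 2) (hΩ : 2 ∣ ((Cfsg.Geo.subalgebraNormalizer K).comap (Matrix.SpecialLinearGroup.toGL : Matrix.SpecialLinearGroup (Fin n) F →* GL (Fin n) F)).index) :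
    (∀ x : Matrix.SpecialLinearGroup (Fin n) F,
      (∃ z : F, ((x ^ 2 : Matrix.SpecialLinearGroup (Fin n) F) : Matrix (Fin n) (Fin n) F) = z • (1 : Matrix (Fin n) (Fin n) F)) →
      (∀ z : F, (x : Matrix (Fin n) (Fin n) F) ≠ z • (1 : Matrix (Fin n) (Fin n) F)) →
      ∃ P : Matrix.SpecialLinearGroup (Fin n) F, P⁻¹ * x * P ∈ ((Cfsg.Geo.subalgebraNormalizer K).comap (Matrix.SpecialLinearGroup.toGL : Matrix.SpecialLinearGroup (Fin n) F →* GL (Fin n) F))) ↔
    (n = 2 ∨ (Odd q ∧ padicValNat 2 (q - 1) ≤ padicValNat 2 n)) := by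
  classical
  subst hq hk2
  have := Fact.mk hk
  have : Nonempty (Fin n) := ⟨⟨0, by omega⟩⟩
  rw [elus_iff_one]
  have key : ∀ f : Module.End F (Fin n → F), In (Geo.subalgebraNormalizer K) f → ∀ c : F, c ≠ 0 →
      finrank F (LinearMap.ker (f - c • 1)) + 1 = n → n = 2 := fun f hf c hc h1 => by
    rcases in_normalizer_ker hK hk hf hc with h | h
    · omega
    · have := h.1
      rw [Fintype.card_fin] at this
      omega
  have hr : 2 ≠ p ∨ p = 2 := by omega
  by_cases h2 : n = 2
  · subst h2
    refine iff_of_true (elus_of_in' hasScal_normalizer hr (fun y w hy _ h3 => ?_)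
      fun f z _ h2 h3 => in_normalizer_sq hK h2 h3) (Or.inl rfl)
    obtain ⟨g, h4, h5, -, h6, -⟩ := exists_frob hK (by simp)
    exact h4.of_sim (sim_of_sq_one_two (by simp) hy h5 h3 (h6 le_rfl))
  by_cases hp : 2 = p
  · subst hp
    obtain ⟨f, h1, h3, h4, h8⟩ := exists_transvection (F := F) (p := 2) (V := Fin n → F)
      (by simpa using hn)
    simp only [finrank_fintype_fun_eq_card, Fintype.card_fin] at h8
    exact iff_of_false (not_elus f 1 h1 (by rw [h3, one_smul]) h4 fun h9 =>
      h2 (key f h9 1 one_ne_zero (by rwa [one_smul])))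
      fun h => h.elim h2 fun h => ne_two_of_odd_card (p := 2) h.1 rfl
  have hodd := odd_card_of_ne_two (F := F) hp
  have h3 : (2 : F) ≠ 0 := by exact_mod_cast natCast_ne_zero_of_ne (F := F) hp
  have hζ : IsPrimitiveRoot (-1 : F) 2 :=
    isPrimitiveRoot_of_pow_eq_one (by simp) fun e => h3 (by linear_combination -e)
  by_cases hv : padicValNat 2 (Fintype.card F - 1) ≤ padicValNat 2 n
  · refine iff_of_true (elus_of_in' hasScal_normalizer hr (fun y w hy h4 _ => ?_)
      fun f z _ h2 h3 => in_normalizer_sq hK h2 h3) (Or.inr ⟨hodd, hv⟩)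
    refine in_normalizer_invol hK h3 hy ?_
    have h5 : LinearMap.det y = 1 := eq_one_of_pow_mul (r := 2) (n := n) (by omega) hv
      (by rw [← map_pow, hy, map_one]) (by simpa using h4)
    have := even_of_det_eq_one h3 hy h5
    simp only [finrank_fintype_fun_eq_card, Fintype.card_fin] at this
    grind
  · obtain ⟨m, rfl⟩ : ∃ m, n = 1 + m := ⟨n - 1, by omega⟩
    refine iff_of_false (not_elus_exA hasScal_normalizer (by omega) hζ (by omega)
      fun y _ hy h4 => ?_) fun h => h.elim h2 fun h => hv h.2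
    have h5 := hy.finrank_ker_zp hζ 0
    rw [cnt_exA, if_neg one_ne_zero, if_pos rfl] at h5
    exact h2 (key y h4 _ (zp_ne_zero hζ 0) (by omega))

end Cfsg.Agent.S5969
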