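import Cfsg.Statements.S5970
import Cfsg.Agent.H1.ElStd
import Cfsg.Agent.H1.ElField

set_option autoImplicit false
open scoped MatrixGroups
open Cfsg

namespace Cfsg.Agent.S5970

open Module Polynomial Cfsg.Agent.H8 Cfsg.Agent.H1.El

/-- Elements of order `n` of PSL_n(q), `n` prime, and the normalizer of a Singer cycle. Here `T = PSL_n(F)` for a field `F` with `q = p^f` elements (`n ≥ 2`, `(n, q) ≠ (2, 2), (2, 3)`), `k` is a prime dividing `n`, `K` is a subalgebra of the `n × n` matrices that is a field of degree `k` over `F` (an extension-field structure F_{q^k} on `F^n`), and `H` is the subgroup of matrices of determinant 1 normalizing `K` — a subgroup of type GL_{n/k}(q^k) (maximal except in some small cases; maximality is not assumed); Ω is the set of cosets of `H` in `T`, so an element of `T` of prime order `r` (a matrix `x` of determinant 1 with `x^r` scalar, `x` not scalar) fixes a point of Ω when some conjugate of `x` by a matrix of determinant 1 normalizes `K`. Take `k = n > 3` prime with `n ≠ p` (so `H` is the normalizer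 of a Singer cycle), and suppose `n` divides the index of `H`. Then every element of `T` of order `n` is conjugate in `T` into `H` if and only if the multiplicative order of `q` modulo `n` is `n − 1`. -/
theorem result {F : Type*} [Field F] [Fintype F] {p : ℕ} [Fact p.Prime] [CharP F p] {q : ℕ} (hq : Fintype.card F = q)
    (n : ℕ) (hn : 2 ≤ n) (hT : (n, q) ≠ (2, 2) ∧ (n, q) ≠ (2, 3))
    (k : ℕ) (hk : k.Prime) (hkn : k ∣ n) (K : Subalgebra F (Matrix (Fin n) (Fin n) F)) (hK : Cfsg.Geo.IsFieldSubalgebra k K) (hkn' : k = n) (hn3 : 3 < n) (hnp : n ≠ p) (hΩ : n ∣ ((Cfsg.Geo.subalgebraNormalizer K).comap (Matrix.SpecialLinearGroup.toGL : Matrix.SpecialLinearGroup (Fin n) F →* GL (Fin n) F)).index) :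
    (∀ x : Matrix.SpecialLinearGroup (Fin n) F,
      (∃ z : F, ((x ^ n : Matrix.SpecialLinearGroup (Fin n) F) : Matrix (Fin n) (Fin n) F) = z • (1 : Matrix (Fin n) (Fin n) F)) →
      (∀ z : F, (x : Matrix (Fin n) (Fin n) F) ≠ z • (1 : Matrix (Fin n) (Fin n) F)) →
      ∃ P : Matrix.SpecialLinearGroup (Fin n) F, P⁻¹ * x * P ∈ ((Cfsg.Geo.subalgebraNormalizer K).comap (Matrix.SpecialLinearGroup.toGL : Matrix.SpecialLinearGroup (Fin n) F →* GL (Fin n) F))) ↔
    orderOf (q : ZMod n) = n - 1 := by
  classical
  subst hq hkn'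
  have := Fact.mk hk
  have : Nonempty (Fin k) := ⟨⟨0, by omega⟩⟩
  rw [elus_iff_one]
  have hodd : k % 2 = 1 := hk.eq_two_or_odd.resolve_left (by omega)
  have key : ∀ f : Module.End F (Fin k → F), In (Geo.subalgebraNormalizer K) f → ∀ c : F, c ≠ 0 →
      2 ≤ finrank F (LinearMap.ker (f - c • 1)) → finrank F (LinearMap.ker (f - c • 1)) < k →
      False := fun f hf c hc h1 h2 => by
    rcases in_normalizer_ker hK hk hf hc with h | h
    · have := Nat.le_of_dvd (by omega) h
      omega
    · have := h.2 (by simp)
      omega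
  constructor
  · intro h
    by_contra hc
    by_cases h1 : orderOf (Fintype.card F : ZMod k) = 1
    · obtain ⟨ζ, hζ⟩ := exists_isPrimitiveRoot (F := F)
        ((orderOf_eq_one_iff_dvd Fintype.card_pos).mp h1)
      obtain ⟨m, rfl⟩ : ∃ m, k = 1 + 1 + m := ⟨k - 2, by omega⟩
      refine not_elus_exC hasScal_normalizer (by omega) hζ (fun y _ hy h2 => ?_) h
      have h3 := hy.finrank_ker_zp hζ 0
      rw [cnt_exC, if_neg one_ne_zero, if_neg (neg_ne_zero.mpr one_ne_zero), if_pos rfl] at h3
      exact key y h2 _ (zp_ne_zero hζ 0) (by omega) (by omega)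
    · have h2 := orderOf_card_dvd (F := F) hnp
      have h3 := orderOf_card_pos (F := F) hnp
      have h4 : 2 * orderOf (Fintype.card F : ZMod k) ≤ k - 1 := by
        obtain ⟨t, ht⟩ := h2
        rcases t with _ | _ | t
        · omega
        · omega
        · nlinarith
      obtain ⟨y, h5, h6, h7, h8, -⟩ := exists_irr_block (V := Fin k → F) hnp h1 1 one_pos
        (by simp; omega)
      simp only [finrank_fintype_fun_eq_card, Fintype.card_fin] at h8
      exact not_elus y 1 h5 (by rw [h6, one_smul]) h7
        (fun h9 => key y h9 1 one_ne_zero (by rw [one_smul]; omega) (by rw [one_smul]; omega)) h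
  · intro hc
    have h1 : orderOf (Fintype.card F : ZMod k) ≠ 1 := by omega
    have h2 : ¬ k ∣ Fintype.card F - 1 := fun e =>
      h1 ((orderOf_eq_one_iff_dvd Fintype.card_pos).mpr e)
    refine elus_of_in' hasScal_normalizer (Or.inl hnp) (fun y w hy _ h3 => ?_)
      fun f z _ _ h3 => absurd (exists_pow_eq_of_not_dvd h2 z) (by simpa using h3)
    obtain ⟨g, h4, h5, -, h6, -⟩ := exists_frob hK (by simp)
    exact h4.of_sim (sim_of_orderOf hnp hc (by omega) (by simp) hy h5
      (fun e => h3 1 (by rw [e, one_smul])) fun e => h6 (by omega) 1 (by rw [e, one_smul]))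

end Cfsg.Agent.S5970
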