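import Cfsg.Statements.S5971
import Cfsg.Agent.H1.ElStd
import Cfsg.Agent.H1.ElField

set_option autoImplicit false
open scoped MatrixGroups
open Cfsg

namespace Cfsg.Agent.S5971

open Module Polynomial Cfsg.Agent.H8 Cfsg.Agent.H1.El

/-- Elements of order 3 of PSL_3(q) and the normalizer of a Singer cycle. Here `T = PSL_n(F)` for a field `F` with `q = p^f` elements (`n ≥ 2`, `(n, q) ≠ (2, 2), (2, 3)`), `k` is a prime dividing `n`, `K` is a subalgebra of the `n × n` matrices that is a field of degree `k` over `F` (an extension-field structure F_{q^k} on `F^n`), and `H` is the subgroup of matrices of determinant 1 normalizing `K` — a subgroup of type GL_{n/k}(q^k) (maximal except in some small cases; maximality is not assumed); Ω is the set of cosets of `H` in `T`, so an element of `T` of prime order `r` (a matrix `x` of determinant 1 with `x^r` scalar, `x` not scalar) fixes a point of Ω when some conjugate of `x` by a matrix of determinant 1 normalizes `K`. Take `n = k = 3` and suppose 3 divides the index of `H`. Then every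 element of `T` of order 3 is conjugate in `T` into `H` if and only if `q ≡ 4, 7` or `8 (mod 9)`. -/
theorem result {F : Type*} [Field F] [Fintype F] {p : ℕ} [Fact p.Prime] [CharP F p] {q : ℕ} (hq : Fintype.card F = q)
    (n : ℕ) (hn : n = 3) (k : ℕ) (hk : k.Prime) (hkn : k ∣ n) (K : Subalgebra F (Matrix (Fin n) (Fin n) F)) (hK : Cfsg.Geo.IsFieldSubalgebra k K) (hk3 : k = 3) (hΩ : 3 ∣ ((Cfsg.Geo.subalgebraNormalizer K).comap (Matrix.SpecialLinearGroup.toGL : Matrix.SpecialLinearGroup (Fin n) F →* GL (Fin n) F)).index) :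
    (∀ x : Matrix.SpecialLinearGroup (Fin n) F,
      (∃ z : F, ((x ^ 3 : Matrix.SpecialLinearGroup (Fin n) F) : Matrix (Fin n) (Fin n) F) = z • (1 : Matrix (Fin n) (Fin n) F)) →
      (∀ z : F, (x : Matrix (Fin n) (Fin n) F) ≠ z • (1 : Matrix (Fin n) (Fin n) F)) →
      ∃ P : Matrix.SpecialLinearGroup (Fin n) F, P⁻¹ * x * P ∈ ((Cfsg.Geo.subalgebraNormalizer K).comap (Matrix.SpecialLinearGroup.toGL : Matrix.SpecialLinearGroup (Fin n) F →* GL (Fin n) F))) ↔
    (q % 9 = 4 ∨ q % 9 = 7 ∨ q % 9 = 8) := by
  classical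
  subst hq hn hk3
  have := Fact.mk hk
  rw [elus_iff_one]
  rw [index_comap_eq] at hΩ
  have key : ∀ f : Module.End F (Fin 3 → F), In (Geo.subalgebraNormalizer K) f → ∀ c : F, c ≠ 0 →
      finrank F (LinearMap.ker (f - c • 1)) = 2 → False := fun f hf c hc h1 => by
    rcases in_normalizer_ker hK hk hf hc with h | h
    · rw [h1] at h
      omega
    · have := h.2 (by simp)
      omega
  obtain ⟨g, h4, h5, h6, h7, g', hg', hg⟩ := exists_frob hK (by simp)
  have hdet : LinearMap.det g = 1 := by
    rw [LinearMap.det_eq_sign_charpoly_coeff, h6]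
    simp
    norm_num
  by_cases hp : 3 = p
  · subst hp
    obtain ⟨f, h1, h2, h3, h8⟩ := exists_transvection (F := F) (p := 3) (V := Fin 3 → F) (by simp)
    simp only [finrank_fintype_fun_eq_card, Fintype.card_fin] at h8
    refine iff_of_false (not_elus f 1 h1 (by rw [h2, one_smul]) h3 fun h9 =>
      key f h9 1 one_ne_zero (by rw [one_smul]; omega)) ?_
    obtain ⟨d, -, hd⟩ := FiniteField.card F 3
    have : 3 ∣ Fintype.card F := hd ▸ dvd_pow_self 3 d.ne_zero
    omega
  have hq := not_dvd_card_of_ne (F := F) hp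
  have hq1 := Fintype.one_lt_card (α := F)
  have hv : padicValNat 3 3 = 1 := padicValNat_self
  by_cases h1 : 3 ∣ Fintype.card F - 1
  · obtain ⟨ζ, hζ⟩ := exists_isPrimitiveRoot (F := F) h1
    by_cases h9 : 9 ∣ Fintype.card F - 1
    · refine iff_of_false (not_elus_exA (m := 2) hasScal_normalizer (by omega) hζ ?_
        fun y _ hy h2 => ?_) (by omega)
      · have := padicValNat_le_of_dvd' (r := 3) card_sub_one_ne_zero h9
        have h2 : padicValNat 3 9 = 2 := padicValNat.prime_pow 2
        change padicValNat 3 3 < _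
        omega
      · have h3 := hy.finrank_ker_zp hζ 0
        rw [cnt_exA, if_neg one_ne_zero, if_pos rfl] at h3
        exact key y h2 _ (zp_ne_zero hζ 0) h3
    · refine iff_of_true (elus_of_in' hasScal_normalizer (Or.inl hp) (fun y w hy h2 h3 => ?_)
        fun f z h2 h3 h8 => ?_) (by omega)
      · have hv' : padicValNat 3 (Fintype.card F - 1) ≤ 1 := by
          by_contra h8
          exact h9 ((padicValNat_dvd_iff_le (p := 3) (n := 2) card_sub_one_ne_zero).mpr (by omega))
        have h8 : LinearMap.det y = 1 := eq_one_of_pow_mul (r := 3) (n := 3) (by omega) (by omega)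
          (by rw [← map_pow, hy, map_one]) (by simpa using h2)
        have key2 : ∀ y : Module.End F (Fin 3 → F), y ^ 3 = 1 → LinearMap.det y = 1 →
            (∀ c : F, y ≠ c • 1) → Diag y fun t : ZMod 3 => zp ζ t := fun y hy h8 h3 => by
          obtain ⟨a, ha⟩ := exists_diag_zp hζ hy (n := 3) (by simp)
          rw [ha.det, zp_sum hζ, zp_eq_one hζ] at h8
          have h10 : ¬ ∀ i, a i = a 0 := fun e =>
            h3 _ ((ha.eq_smul_iff (zp ζ (a 0))).mpr fun i => by rw [e])
          exact ha.reindex (Equiv.ofBijective a (three_aux a h8 h10)) fun _ => rfl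
        exact h4.of_sim ((key2 y hy h8 h3).sim (key2 g h5 hdet (h7 (by omega))))
      · have := (padicValNat_pos_iff (r := 3) card_sub_one_ne_zero).mpr h1
        obtain ⟨w, hw⟩ := exists_pow_eq_of_det_eq_one h2 h3 (by simpa using Nat.succ_le_of_lt this) (by omega)
        exact absurd hw (h8 w)
  · have hc : orderOf (Fintype.card F : ZMod 3) = 3 - 1 := by
      have h2 := Nat.le_of_dvd (by omega) (orderOf_card_dvd (F := F) hp)
      have h3 := orderOf_card_pos (F := F) hp
      have h8 := mt (orderOf_eq_one_iff_dvd (r := 3) (Fintype.card_pos (α := F))).mp h1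
      omega
    refine iff_of_true (elus_of_in' hasScal_normalizer (Or.inl hp) (fun y w hy _ h3 => ?_)
      fun f z _ _ h3 => absurd (exists_pow_eq_of_not_dvd h1 z) (by simpa using h3)) ?_
    · exact h4.of_sim (sim_of_orderOf hp hc (by omega) (by simp) hy h5
        (fun e => h3 1 (by rw [e, one_smul])) fun e => h7 (by omega) 1 (by rw [e, one_smul]))
    · by_contra h9
      have h2 : g' ∈ Geo.subalgebraNormalizer K ⊓ Geo.specialLinear (Fin 3) F :=
        ⟨hg', mem_SL.mpr (by rw [← LinearMap.det_toLin', hg, hdet])⟩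
      have h3 : orderOf g' = 3 := orderOf_eq_prime
        (Units.ext (by simpa using (toLin'_pow_GL (x := g') (r := 3) (z := (1 : F))).mpr (by rw [hg, h5, one_smul])))
        fun e => h7 (by omega) 1 (by rw [← hg, e]; simp [Module.End.one_eq_id])
      have h8 := Subgroup.orderOf_dvd_natCard _ h2
      rw [h3] at h8
      obtain ⟨q, hq'⟩ : ∃ q, q = Fintype.card F := ⟨_, rfl⟩
      obtain ⟨t, ht⟩ : 3 ∣ q + 1 := by omega
      have h10 := hΩ.trans (relIndex_dvd_of_SL (B := q ^ 3 * (t * (q - 1) * (q ^ 3 - 1))) h8 (by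
        rw [card_SL_eq 3 (by omega), ← hq']
        have : q ^ 2 - 1 = (q + 1) * (q - 1) := by simpa using Nat.sq_sub_sq q 1
        simp only [Finset.sum_range_succ, Finset.prod_range_succ, Finset.range_zero,
          Finset.sum_empty, Finset.prod_empty, Nat.add_one_sub_one, zero_add, this, ht]
        ring))
      rw [← hq'] at hq h1 h9 hq1
      have h11 : ¬ 3 ∣ q ^ 3 - 1 := fun e => by
        have h12 : q ^ 3 % 3 = 2 := by rw [Nat.pow_mod, show q % 3 = 2 by omega]
        have : 0 < q ^ 3 := by positivity
        omega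
      rcases (Nat.Prime.dvd_mul hk).mp h10 with e | e
      · exact hq (hk.dvd_of_dvd_pow e)
      rcases (Nat.Prime.dvd_mul hk).mp e with e | e
      · rcases (Nat.Prime.dvd_mul hk).mp e with e | e
        · omega
        · exact h1 e
      · exact h11 e

end Cfsg.Agent.S5971
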