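import Cfsg.Statements.S5974
import Cfsg.Agent.H4.ElO7

set_option autoImplicit false
open scoped MatrixGroups
open Cfsg

namespace Cfsg.Agent.S5974

open Module Cfsg.Agent.H7 Cfsg.Agent.H8 Cfsg.Agent.H4.El

/-- Elements of prime order of PΩ⁺_n(q), n = 2d ≥ 8, with no fixed nondegenerate hyperbolic `m`-space. Here `T = PΩ⁺_n(q)` is realised through `Ω⁺_n(q)`, the commutator subgroup of the isometry group of `Q = Σ xᵢyᵢ` over the field `F` with `q` elements; an element of `T` of prime order `r` is an element `x` of `Ω⁺_n(q)` with `x^r` scalar and `x` not scalar. A hyperbolic `m`-space is a subspace `W` of even dimension `m` on which the polar form of `Q` is nondegenerate and which contains a totally singular subspace of dimension `m/2`. Let `m` be even with `2 ≤ m < n/2`, and let `r` be a prime dividing the number of hyperbolic `m`-spaces, with `r = 2` or `r ≠ p`. For `r ≠ p` let `i` be the multiplicative order of `q` modulo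 `r`, `c = i` for `i` even and `c = 2i` for `i` odd, and write `k = n mod c`, `ℓ' = m mod c`. Then every element of `T` of order `r` fixes some hyperbolic `m`-space if and only if one of: (i) `r = 2` and (`n ≡ 2 (mod 4)`, or `m ≡ 0 (mod 4)`, or `q ≡ 1 (mod 4)`); (ii) `r ≠ p` odd, `i` odd, `c ≤ m` and `k ≥ ℓ'`; (iii) `r ≠ p` odd, `i` even, and either `k = 0` and (`n/i` odd, or `ℓ' = 0` and `m/i` even), or `i ≤ m` and (`k > ℓ' > 0`, or `k = ℓ' > 0` and `(n + m − 2k)/i` even, or `k > ℓ' = 0` and `m/i` even). -/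
theorem result {F : Type*} [Field F] [Fintype F] {p : ℕ} [Fact p.Prime] [CharP F p] {q : ℕ} (hq : Fintype.card F = q)
    (d m : ℕ) (hd : 4 ≤ d) (hm : 2 ≤ m) (hme : Even m) (hmd : m < d)
    (r : ℕ) [Fact r.Prime] (hr : r = 2 ∨ r ≠ p)
    (hrΩ : r ∣ Nat.card {W : Submodule F (Fin d ⊕ Fin d → F) // (Module.finrank F ↥W = m ∧ (∀ u ∈ W, u ≠ 0 → ∃ v ∈ W, QuadraticMap.polar (Cfsg.quadFormPlus d F) u v ≠ 0) ∧
          ∃ U : Submodule F (Fin d ⊕ Fin d → F), U ≤ W ∧ 2 * Module.finrank F ↥U = m ∧ ∀ u ∈ U, Cfsg.quadFormPlus d F u = 0)})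
    (i c : ℕ) (hi : i = orderOf (q : ZMod r)) (hc : c = if Even i then i else 2 * i) :
    (∀ x : GL (Fin d ⊕ Fin d) F, x ∈ Cfsg.Geo.omegaGL (Cfsg.quadFormPlus d F) →
      (∃ z : F, ((x ^ r : GL (Fin d ⊕ Fin d) F) : Matrix (Fin d ⊕ Fin d) (Fin d ⊕ Fin d) F) = z • (1 : Matrix (Fin d ⊕ Fin d) (Fin d ⊕ Fin d) F)) →
      (∀ z : F, (x : Matrix (Fin d ⊕ Fin d) (Fin d ⊕ Fin d) F) ≠ z • (1 : Matrix (Fin d ⊕ Fin d) (Fin d ⊕ Fin d) F)) →
      ∃ W : Submodule F (Fin d ⊕ Fin d → F), (Module.finrank F ↥W = m ∧ (∀ u ∈ W, u ≠ 0 → ∃ v ∈ W, QuadraticMap.polar (Cfsg.quadFormPlus d F) u v ≠ 0) ∧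
          ∃ U : Submodule F (Fin d ⊕ Fin d → F), U ≤ W ∧ 2 * Module.finrank F ↥U = m ∧ ∀ u ∈ U, Cfsg.quadFormPlus d F u = 0) ∧
        W.map (Matrix.toLin' (x : Matrix (Fin d ⊕ Fin d) (Fin d ⊕ Fin d) F)) ≤ W) ↔
    ((r = 2 ∧ ((2 * d) % 4 = 2 ∨ m % 4 = 0 ∨ q % 4 = 1)) ∨
     (r ≠ p ∧ 2 < r ∧ Odd i ∧ c ≤ m ∧ m % c ≤ (2 * d) % c) ∨
     (r ≠ p ∧ 2 < r ∧ Even i ∧
       (((2 * d) % c = 0 ∧ (Odd ((2 * d) / i) ∨ (m % c = 0 ∧ Even (m / i)))) ∨
        (i ≤ m ∧ ((m % c < (2 * d) % c ∧ 0 < m % c) ∨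
                  ((2 * d) % c = m % c ∧ 0 < m % c ∧ Even ((2 * d + m - 2 * ((2 * d) % c)) / i)) ∨
                  (0 < (2 * d) % c ∧ m % c = 0 ∧ Even (m / i))))))) := by
  subst hq
  have h₀ := ndq_plus F d
  have hn := finrank_sum_fun (F := F) d
  have ht : Plus (toQF h₀) ⊤ := plus_quadFormPlus d
  have hme' := Nat.even_iff.1 hme
  refine (elu_iff_omega h₀ (by omega) r _).trans ?_
  generalize_proofs at hrΩ ⊢
  set Ω := fun W : Submodule F (Fin d ⊕ Fin d → F) => finrank F ↥W = m ∧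
    (∀ u ∈ W, u ≠ 0 → ∃ v ∈ W, QuadraticMap.polar (Cfsg.quadFormPlus d F) u v ≠ 0) ∧
      ∃ U : Submodule F (Fin d ⊕ Fin d → F), U ≤ W ∧ 2 * finrank F ↥U = m ∧
        ∀ u ∈ U, Cfsg.quadFormPlus d F u = 0 with hΩ₀
  have hΩ : ∀ W, Ω W ↔ finrank F W = m ∧ Nd (qP (nd_toQF h₀)) W ∧ Plus (toQF h₀) W := fun W =>
    and_congr_right fun h => and_congr (nd_iff' (P := qP (nd_toQF h₀))).symm
      (exists_congr fun U => and_congr_right fun _ => by rw [and_comm, h]; rfl)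
  have hΩ' : ∀ W, Ω W ↔ finrank F W = m ∧ Nd (qP (nd_toQF h₀)) W ∧ (Ty (toQF h₀) 1 W ↔ True) :=
    fun W => (hΩ W).trans (and_congr_right fun h => by rw [ty_even (h ▸ hme), iff_true])
  by_cases hr2 : r = 2
  · subst hr2
    simp only [lt_irrefl, false_and, and_false, or_false, true_and]
    by_cases hp2 : p = 2
    · subst hp2
      have := mt (odd_card_iff (F := F) (p := 2)).1 (not_not.2 rfl)
      rw [two_hyp_iff (by omega) ht (by omega) (by omega) hme Ω hΩ, hn]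
      rw [Nat.odd_iff] at this
      omega
    · have := Nat.odd_iff.1 ((odd_card_iff (F := F)).2 hp2)
      rw [orth_nd_two' (by omega) hp2 one_ne_zero (by omega) (by omega) True Ω hΩ', hn]
      simp only [ht, iff_true, true_iff]
      omega
  have hrp := hr.resolve_left hr2
  have hr3 : 2 < r := lt_of_le_of_ne (Fact.out : r.Prime).two_le (Ne.symm hr2)
  obtain ⟨C, h1, h2, h3, -, h5⟩ := orth_nd_odd (by omega) hrp hr2 one_ne_zero (by omega) (by omega)
    (Or.inl hme) True Ω hΩ' hrΩ hi hc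
  have h6 := div_aux (n := 2 * d) (m := m) h3
  rw [h1, h5]
  rw [h5] at h2
  rw [ty_even ht.even, hn] at h2 ⊢
  simp only [hr2, hrp, hr3, ht, false_and, false_or, true_and, ne_eq, not_false_eq_true,
    iff_true, true_iff] at h2 ⊢
  rcases Nat.even_or_odd i with h | h
  · obtain rfl : c = i := by rw [hc, if_pos h]
    simp only [h, Nat.not_odd_iff_even.2 h, false_and, false_or, true_and] at h2 ⊢
    simp only [Nat.even_iff, Nat.odd_iff] at h2 ⊢
    omega
  · simp only [h, Nat.not_even_iff_odd.2 h, false_and, or_false, true_and, true_or, or_true,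
      and_true, true_implies] at h2 ⊢
    omega

end Cfsg.Agent.S5974
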