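import Cfsg.Statements.S5975
import Cfsg.Agent.H4.ElJ4

set_option autoImplicit false
open scoped MatrixGroups
open scoped Matrix
open Cfsg

namespace Cfsg.Agent.S5975

open Module Polynomial Cfsg.Agent.H7 Cfsg.Agent.H8 Cfsg.Agent.H4.El

/-- Elements of prime order of PSp_n(q) and the field-extension subgroups of type Sp_{n/k}(q^k). Here `T = PSp_{2d}(F)` for a field `F` with `q` elements (`d ≥ 2`, `(d, q) ≠ (2, 2)`), realised through the matrices preserving the standard alternating form `f`; `k` is a prime and `K` is a subalgebra of the `2d × 2d` matrices that is a field of degree `k` over `F` whose elements are self-adjoint for `f` and satisfy `f(a v, v) = 0` (so `F^{2d}` becomes a vector space over `K ≅ F_{q^k}` on which `f` is the trace of a `K`-bilinear alternating form); `H` is the subgroup of `T` normalizing `K` — the symplectic maps that are `K`-linear or `K`-semilinear, a subgroup of type Sp_{2d/k}(q^k) (maximality is not assumed).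 Ω is the set of cosets of `H` in `T`, so an element of `T` of prime order `r` (`x ∈ T` with `x^r` scalar, `x` not scalar) fixes a point of Ω exactly when some `T`-conjugate of `x` normalizes `K`. Let `r` be a prime dividing the index of `H`. Then every element of `T` of order `r` fixes a point of Ω if and only if `r = 2`, `d = 2`, `k = 2` and `q` is odd. -/
theorem result {F : Type*} [Field F] [Fintype F] {p : ℕ} [Fact p.Prime] [CharP F p] {q : ℕ} (hq : Fintype.card F = q)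
    (d : ℕ) (hd : 2 ≤ d) (hT : (d, q) ≠ (2, 2)) (k : ℕ) (hk : k.Prime)
    (K : Subalgebra F (Matrix (Fin d ⊕ Fin d) (Fin d ⊕ Fin d) F)) (hK : Cfsg.Geo.IsFieldSubalgebra k K)
    (hKf : Cfsg.Geo.IsSelfAdjointFor (Cfsg.sympForm d F) K) (hKalt : ∀ a ∈ K, ∀ v : Fin d ⊕ Fin d → F, Cfsg.sympForm d F (a *ᵥ v) v = 0)
    (r : ℕ) [Fact r.Prime]
    (hΩ : r ∣ (Cfsg.Geo.subalgebraNormalizer K).relIndex (Cfsg.spGL d F)) :
    (∀ x ∈ Cfsg.spGL d F, (∃ z : F, ((x ^ r : GL (Fin d ⊕ Fin d) F) : Matrix (Fin d ⊕ Fin d) (Fin d ⊕ Fin d) F) = z • (1 : Matrix (Fin d ⊕ Fin d) (Fin d ⊕ Fin d) F)) →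
      (∀ z : F, (x : Matrix (Fin d ⊕ Fin d) (Fin d ⊕ Fin d) F) ≠ z • (1 : Matrix (Fin d ⊕ Fin d) (Fin d ⊕ Fin d) F)) →
      ∃ g ∈ Cfsg.spGL d F, g⁻¹ * x * g ∈ Cfsg.Geo.subalgebraNormalizer K) ↔
    (r = 2 ∧ d = 2 ∧ k = 2 ∧ Odd q) := by
  subst hq
  have hG := mem_spGL_iff_Iso (F := F) d
  have : Nonempty (Fin d ⊕ Fin d) := ⟨.inl ⟨0, by omega⟩⟩
  have hn := finrank_sum_fun (F := F) d
  have key : ∀ m : F[X], Irreducible m → m.natDegree = k → ∃ J, KS (spStd d F) m J ⊤ ∧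
      ∀ g, g ∈ Geo.subalgebraNormalizer K ↔ NJ J (toLE g) := fun m hm hd => by
    obtain ⟨j, hj, h1, -, h3⟩ := exists_gen hK hm hd
    exact ⟨_, ⟨fun _ _ => trivial, fun v _ => LinearMap.congr_fun h1 v,
      fun u _ v _ => hKf j hj u v, fun v _ => hKalt j hj v⟩, h3⟩
  constructor
  · intro H
    obtain ⟨m, h1, h2, rfl⟩ := exists_irr_of_degree F p hk.ne_zero
    obtain ⟨J, h3, h4⟩ := key m h1 rfl
    obtain ⟨S, hS, h5, h6⟩ := exists_pgroup_nj hG h4 hΩ
    obtain ⟨h7, h8, h9, h10⟩ := sp_ks_only (p := p) (fun _ _ => trivial) (fun _ => rfl) rfl h1 h2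
      (by omega) hk h3 hS h5 (fun g hg => h6 g fun x hx => mul_mem (mul_mem (inv_mem hg) hx) hg)
      ((elu_iff_nj hG h4 r).1 H)
    exact ⟨h7, by omega, h9, odd_card_iff.2 h10⟩
  · rintro ⟨rfl, rfl, rfl, hodd⟩
    have hp2 : p ≠ 2 := odd_card_iff.1 hodd
    obtain ⟨ω, hω⟩ := exists_nonsquare_of_two (two_ne_zero_of_ne (F := F) hp2)
    obtain ⟨J, h3, h4⟩ := key _ (irr_sq hω) (by simp)
    exact (elu_iff_nj hG h4 2).2 (sp_ks_two (fun _ _ => trivial) (fun _ => rfl) rfl hp2 hn hω h3)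

end Cfsg.Agent.S5975
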