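import Cfsg.Statements.S5976
import Cfsg.Agent.H4.ElJ2

set_option autoImplicit false
open scoped MatrixGroups
open Cfsg

namespace Cfsg.Agent.S5976

open Module Polynomial Matrix Cfsg.Agent.H7 Cfsg.Agent.H8 Cfsg.Agent.H4.El

/-- Elements of prime order of PSp_n(q), q odd, and the subgroups of type GU_{n/2}(q). Here `T = PSp_{2d}(F)` for a field `F` with `q` elements, `q` odd, `d ≥ 2`, realised through the matrices preserving the standard alternating form `f`; `K` is a subalgebra of the `2d × 2d` matrices that is a field of degree 2 over `F`, closed under taking adjoints for `f` but not consisting of self-adjoint elements (so `F^{2d}` becomes a `d`-dimensional space over `K ≅ F_{q²}` on which `f` is the trace of a multiple of a non-degenerate hermitian form); `H` is the subgroup of `T` normalizing `K` — the symplectic maps that are `K`-linear or `K`-semilinear, a subgroup of type GU_d(q) (maximality is not assumed). Ω is the set of cosets of `H` in `T`, so an element of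 `T` of prime order `r` (`x ∈ T` with `x^r` scalar, `x` not scalar) fixes a point of Ω exactly when some `T`-conjugate of `x` normalizes `K`. Let `r` be a prime dividing the index of `H`. Then every element of `T` of order `r` fixes a point of Ω if and only if `r = 2`. -/
theorem result {F : Type*} [Field F] [Fintype F] {p : ℕ} [Fact p.Prime] [CharP F p] {q : ℕ} (hq : Fintype.card F = q)
    (hodd : Odd q) (d : ℕ) (hd : 2 ≤ d)
    (K : Subalgebra F (Matrix (Fin d ⊕ Fin d) (Fin d ⊕ Fin d) F)) (hK : Cfsg.Geo.IsFieldSubalgebra 2 K)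
    (hKf : Cfsg.Geo.IsAdjointClosedFor (Cfsg.sympForm d F) K) (hKns : ¬ Cfsg.Geo.IsSelfAdjointFor (Cfsg.sympForm d F) K)
    (r : ℕ) [Fact r.Prime]
    (hΩ : r ∣ (Cfsg.Geo.subalgebraNormalizer K).relIndex (Cfsg.spGL d F)) :
    (∀ x ∈ Cfsg.spGL d F, (∃ z : F, ((x ^ r : GL (Fin d ⊕ Fin d) F) : Matrix (Fin d ⊕ Fin d) (Fin d ⊕ Fin d) F) = z • (1 : Matrix (Fin d ⊕ Fin d) (Fin d ⊕ Fin d) F)) →
      (∀ z : F, (x : Matrix (Fin d ⊕ Fin d) (Fin d ⊕ Fin d) F) ≠ z • (1 : Matrix (Fin d ⊕ Fin d) (Fin d ⊕ Fin d) F)) →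
      ∃ g ∈ Cfsg.spGL d F, g⁻¹ * x * g ∈ Cfsg.Geo.subalgebraNormalizer K) ↔ r = 2 := by
  subst hq
  have hp2 : p ≠ 2 := odd_card_iff.1 hodd
  have htwo := two_ne_zero_of_ne (F := F) hp2
  have hG := mem_spGL_iff_Iso (F := F) d
  have : Nonempty (Fin d ⊕ Fin d) := ⟨.inl ⟨0, by omega⟩⟩
  obtain ⟨ω, hω⟩ := exists_nonsquare_of_two htwo
  obtain ⟨j, hj, h1, h2, h3⟩ := exists_gen hK (irr_sq hω) (by simp)
  have h4 : ∀ v, toLin' j (toLin' j v) = ω • v := fun v => by
    simpa [pow_two, sub_eq_zero] using LinearMap.congr_fun h1 v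
  obtain ⟨j', hj', h5⟩ := hKf j hj
  have h6 : ∀ u v, (spStd d F).B (toLin' j u) v = (spStd d F).B u (toLin' j' v) := h5
  obtain ⟨f, hf⟩ := (h2 j').1 hj'
  have h7 : ∀ v, toLin' j' (toLin' j' v) = ω • v := fun v => sub_eq_zero.1
    ((spStd d F).nondeg _ fun u => by
      rw [map_sub, ← h6, ← h6, h4]
      simp [spPolar_σ])
  have h8 : toLin' j' = -toLin' j := by
    by_contra h8
    refine hKns fun a ha u v => ?_
    obtain ⟨c, hc⟩ := (h2 a).1 ha
    obtain ⟨w, hw⟩ : ∃ w, aeval (toLin' j) (f + X) w ≠ 0 := by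
      by_contra! h9
      exact h8 (eq_neg_of_add_eq_zero_left (LinearMap.ext fun w => by simpa [hf] using h9 w))
    have h9 := eq_of_aeval_apply (irr_sq hω) h1 (f := f - X) hw (by
      rw [← aeval_mul_apply, show (f - X) * (f + X) = f * f - X * X by ring, map_sub,
        LinearMap.sub_apply, aeval_mul_apply, aeval_mul_apply, ← hf, aeval_X, h7, h4, sub_self])
    rw [map_sub, aeval_X, ← hf, sub_eq_zero] at h9
    change (spStd d F).B (toLin' a u) v = (spStd d F).B u (toLin' a v)
    rw [hc]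
    exact adj_aeval (fun _ => rfl) (fun u v => by rw [h6, h9]) c u v
  obtain ⟨S, hS, h9, h10⟩ := exists_pgroup_nj hG h3 hΩ
  rw [elu_iff_nj hG h3]
  exact sp_qs_iff (fun _ _ => trivial) (fun _ => rfl) rfl hp2 (by rw [finrank_sum_fun]; omega) hω
    ⟨fun _ _ => trivial, fun v _ => h4 v, fun u _ v _ => by rw [h6, h8]; simp⟩ hS h9
    fun g hg => h10 g fun x hx => mul_mem (mul_mem (inv_mem hg) hx) hg

end Cfsg.Agent.S5976
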