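import Cfsg.Statements.S5979
import Cfsg.Agent.H1.ElTensor

set_option autoImplicit false
open scoped MatrixGroups
open Cfsg

namespace Cfsg.Agent.S5979

open Module Polynomial Cfsg.Agent.H8 Cfsg.Agent.H1.El

/-- Elements of prime order of PSL_n(q) and the stabilizers of tensor decompositions with factors of different dimensions. Here `T = PSL_n(F)` for a field `F` with `q` elements and `n = a·b` with `2 ≤ a < b`; a tensor decomposition `F^n ≅ F^a ⊗ F^b` is given by a bijection `e` of index sets and a change of basis `P`, and `H` is the subgroup of matrices of determinant 1 in its stabilizer (the conjugate by `P` of the group of Kronecker products `g₁ ⊗ g₂`) — a subgroup of type GL_a(q) ⊗ GL_b(q) (maximality is not assumed); Ω is the set of cosets of `H` in `T`, so an element of `T` of prime order `r` (a matrix `x` of determinant 1 with `x^r` scalar, `x` not scalar) fixes a point of Ω exactly when some conjugate of `x` by a matrix of determinant 1 lies in `H`. Let `r` be a prime dividing the index of `H`. Then every element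 of `T` of order `r` fixes a point of Ω if and only if `r = 2`, `a = 2`, `q` is odd and `(q − 1)_2 ≤ (n)_2` (2-parts). -/
theorem result {F : Type*} [Field F] [Fintype F] {p : ℕ} [Fact p.Prime] [CharP F p] {q : ℕ} (hq : Fintype.card F = q)
    (n a b : ℕ) (hab : n = a * b) (ha : 2 ≤ a) (hlt : a < b) (e : Fin n ≃ Fin a × Fin b) (P : GL (Fin n) F)
    (r : ℕ) [Fact r.Prime]
    (hΩ : r ∣ (Cfsg.Geo.tensorProductSubgroup a b e P).relIndex (Cfsg.Geo.specialLinear (Fin n) F)) :
    (∀ x ∈ Cfsg.Geo.specialLinear (Fin n) F, (∃ z : F, ((x ^ r : GL (Fin n) F) : Matrix (Fin n) (Fin n) F) = z • (1 : Matrix (Fin n) (Fin n) F)) →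
      (∀ z : F, (x : Matrix (Fin n) (Fin n) F) ≠ z • (1 : Matrix (Fin n) (Fin n) F)) →
      ∃ g ∈ Cfsg.Geo.specialLinear (Fin n) F, g⁻¹ * x * g ∈ Cfsg.Geo.tensorProductSubgroup a b e P) ↔
    (r = 2 ∧ a = 2 ∧ Odd q ∧ padicValNat 2 (q - 1) ≤ padicValNat 2 n) := by
  classical
  subst hq
  have hr : r.Prime := Fact.out
  have hn : 6 ≤ n := by nlinarith
  have : Nonempty (Fin n) := ⟨⟨0, by omega⟩⟩
  rw [elus_iff_two]
  have key : ∀ (f : Module.End F (Fin n → F)) (c : F) (k : ℕ),
      finrank F (LinearMap.ker (f - c • 1)) + k = n →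
      finrank F (LinearMap.range (f - c • 1)) = k := fun f c k h => by
    have := LinearMap.finrank_range_add_finrank_ker (f - c • 1)
    simp only [finrank_fintype_fun_eq_card, Fintype.card_fin] at this
    omega
  have key1 : ∀ (f : Module.End F (Fin n → F)) (c : F), In (Geo.tensorProductSubgroup a b e P) f →
      finrank F (LinearMap.ker (f - c • 1)) + 1 = n → False := fun f c h1 h2 => by
    rcases in_tensor_rank e P h1 with h | h
    · have := h c
      rw [key f c 1 h2] at this
      omega
    · have := h c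
      rw [key f c 1 h2, Nat.dvd_one] at this
      omega
  by_cases hp : r = p
  · subst hp
    obtain ⟨f, h1, h3, h4, h8⟩ := exists_transvection (F := F) (p := r) (V := Fin n → F)
      (by simp; omega)
    simp only [finrank_fintype_fun_eq_card, Fintype.card_fin] at h8
    exact iff_of_false (not_elus f 1 h1 (by rw [h3, one_smul]) h4 fun h9 =>
      key1 f 1 h9 (by rwa [one_smul])) fun h => ne_two_of_odd_card (p := r) h.2.2.1 h.1
  by_cases hc : orderOf (Fintype.card F : ZMod r) = 1
  · obtain ⟨ζ, hζ⟩ := exists_isPrimitiveRoot (F := F)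
      ((orderOf_eq_one_iff_dvd Fintype.card_pos).mp hc)
    by_cases hv : padicValNat r n < padicValNat r (Fintype.card F - 1)
    · obtain ⟨m, rfl⟩ : ∃ m, n = 1 + m := ⟨n - 1, by omega⟩
      refine iff_of_false (not_elus_exA (hasScal_tensor e P) (by omega) hζ hv fun y _ hy h4 => ?_)
        fun h => ?_
      · have h5 := hy.finrank_ker_zp hζ 0
        rw [cnt_exA, if_neg one_ne_zero, if_pos rfl] at h5
        exact key1 y (zp ζ (0 : ZMod r)) h4 (by omega)
      · obtain ⟨rfl, -, -, h⟩ := h
        omega
    by_cases h2 : r = 2 ∧ a = 2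
    · obtain ⟨rfl, rfl⟩ := h2
      have h3 : (2 : F) ≠ 0 := by exact_mod_cast natCast_ne_zero_of_ne (F := F) hp
      refine iff_of_true (elus_of_in' (hasScal_tensor e P) (Or.inl hp) (fun y w hy h4 _ => ?_)
        fun f z _ h2 h3 => in_tensor_sq P e h2 h3) ⟨rfl, rfl, odd_card_of_ne_two hp, by omega⟩
      exact in_tensor_invol P e h3 hy (eq_one_of_pow_mul (r := 2) (n := n) (by omega) (by omega)
        (by rw [← map_pow, hy, map_one]) (by simpa using h4))
    · obtain ⟨m, rfl⟩ : ∃ m, n = 1 + 1 + m := ⟨n - 2, by omega⟩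
      refine iff_of_false (not_elus_exC (hasScal_tensor e P) (by omega) hζ fun y _ hy h4 => ?_)
        fun h => h2 ⟨h.1, h.2.1⟩
      have h5 := hy.finrank_ker_zp hζ 0
      rw [cnt_exC, if_neg one_ne_zero, if_neg (neg_ne_zero.mpr one_ne_zero), if_pos rfl] at h5
      have h6 := key y (zp ζ (0 : ZMod r)) 2 (by omega)
      rcases in_tensor_rank e P h4 with h | h
      · have := h (zp ζ (0 : ZMod r))
        omega
      · have h7 := h (zp ζ (0 : ZMod r))
        rw [h6] at h7
        replace h7 := Nat.le_of_dvd (by omega) h7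
        obtain rfl : a = 2 := by omega
        have h8 := hy.finrank_ker_zp hζ 1
        rw [cnt_exC, if_pos rfl, if_neg (fun e => zmod_two_ne (r := r) (fun e => h2 ⟨e, rfl⟩)
          (by linear_combination -e)), if_neg zero_ne_one] at h8
        have h9 := h (zp ζ (1 : ZMod r))
        rw [key y (zp ζ (1 : ZMod r)) (1 + m) (by omega)] at h9
        omega
  · obtain ⟨y, h5, h6, h7, h8, -⟩ := exists_irr_block (V := Fin n → F) hp hc 1 one_pos
      (by simpa using orderOf_le_of_dvd_index hp hΩ)
    simp only [finrank_fintype_fun_eq_card, Fintype.card_fin, one_mul] at h8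
    refine iff_of_false (not_elus y 1 h5 (by rw [h6, one_smul]) h7
      (not_in_tensor_block e P ha hlt hp hc h6 ?_)) fun h => hc ?_
    · have := key y 1 _ (by rw [one_smul]; exact h8)
      rwa [one_smul] at this
    · obtain ⟨rfl, -, h, -⟩ := h
      rw [orderOf_eq_one_iff_dvd Fintype.card_pos]
      obtain ⟨t, ht⟩ := h
      omega

end Cfsg.Agent.S5979
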