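import Cfsg.Statements.S5980
import Cfsg.Agent.H4.ElTens

set_option autoImplicit false
open scoped MatrixGroups
open Cfsg

namespace Cfsg.Agent.S5980

open Module Cfsg.Agent.H7 Cfsg.Agent.H8 Cfsg.Agent.H4.El Cfsg.Agent.Tens

/-- Elements of prime order of PSp_n(q), q odd, and the stabilizers of tensor decompositions Sp_a(q) ⊗ O_b(q). Here `T = PSp_{2d}(F)` for a field `F` with `q` elements, `q` odd, `d ≥ 2`, realised through the matrices preserving the standard alternating form `f`; `2d = a·b` with `a` even, `b ≥ 3`, and the bijection `e` and change of basis `P` exhibit `f` as a non-zero scalar multiple of the tensor product of a non-degenerate alternating form `f₁` on `F^a` and a non-degenerate symmetric bilinear form `f₂` on `F^b`; `H` is the subgroup of `T` stabilizing this tensor decomposition (the elements of `T` in the conjugate by `P` of the group of Kronecker products) — a subgroup of type Sp_a(q) ⊗ O^ε_b(q) (maximality is not assumed). Ω is the set of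 cosets of `H` in `T`, so an element of `T` of prime order `r` (`x ∈ T` with `x^r` scalar, `x` not scalar) fixes a point of Ω exactly when some `T`-conjugate of `x` lies in `H`. Let `r` be a prime dividing the index of `H`. Then every element of `T` of order `r` fixes a point of Ω if and only if `r = 2` and `a = 2`. -/
theorem result {F : Type*} [Field F] [Fintype F] {p : ℕ} [Fact p.Prime] [CharP F p] {q : ℕ} (hq : Fintype.card F = q)
    (hodd : Odd q) (d : ℕ) (hd : 2 ≤ d) (a b : ℕ) (hab : 2 * d = a * b) (ha : Even a) (ha2 : 2 ≤ a) (hb : 3 ≤ b)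
    (e : (Fin d ⊕ Fin d) ≃ Fin a × Fin b) (P : GL (Fin d ⊕ Fin d) F)
    (f₁ : (Fin a → F) → (Fin a → F) → F) (f₂ : (Fin b → F) → (Fin b → F) → F)
    (hf₁ : Cfsg.Geo.IsSymplecticForm f₁) (hf₂ : Cfsg.Geo.IsSymmetricForm f₂)
    (hS : Cfsg.Geo.IsTensorFormStructure id (Cfsg.sympForm d F) f₁ f₂ e P)
    (r : ℕ) [Fact r.Prime]
    (hΩ : r ∣ (Cfsg.Geo.tensorProductSubgroup a b e P).relIndex (Cfsg.spGL d F)) :
    (∀ x ∈ Cfsg.spGL d F, (∃ z : F, ((x ^ r : GL (Fin d ⊕ Fin d) F) : Matrix (Fin d ⊕ Fin d) (Fin d ⊕ Fin d) F) = z • (1 : Matrix (Fin d ⊕ Fin d) (Fin d ⊕ Fin d) F)) →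
      (∀ z : F, (x : Matrix (Fin d ⊕ Fin d) (Fin d ⊕ Fin d) F) ≠ z • (1 : Matrix (Fin d ⊕ Fin d) (Fin d ⊕ Fin d) F)) →
      ∃ g ∈ Cfsg.spGL d F, g⁻¹ * x * g ∈ Cfsg.Geo.tensorProductSubgroup a b e P) ↔ (r = 2 ∧ a = 2) := by
  subst hq
  have hp2 : p ≠ 2 := odd_card_iff.1 hodd
  have htwo := two_ne_zero_of_ne (F := F) hp2
  have hG := mem_spGL_iff_Iso (F := F) d
  obtain ⟨c, hc, hσ, h⟩ := exists_compat_std (spPolar hf₁) (symP hf₂ htwo) (spStd d F)
    (by omega) (by omega) rfl (fun _ => rfl) (mul_one _).symm e P hS fun _ _ _ => trivial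
  have h1 := sp_tens_iff (r := r) _ h ((isSp_spPolar hf₁).scale hc hσ) (isO_symP hf₂ htwo)
    (isSp_spPolar (isSymplecticForm_sympForm d F)) hp2 (by simpa using ha2) (by simpa using hb) (by
      obtain ⟨x, hx⟩ := exists_prime_orderOf_dvd_card' r
        (hΩ.trans (Subgroup.relIndex_dvd_card _ _))
      rw [← Subgroup.orderOf_coe, ← toLE.orderOf_eq] at hx
      refine ⟨_, (hG x).1 x.2, hx ▸ pow_orderOf_eq_one _, fun e => ?_⟩
      rw [e, orderOf_one] at hx
      exact (Fact.out : r.Prime).one_lt.ne hx)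
  rw [finrank_fin_fun] at h1
  rw [← h1]
  refine elu_iff_GL _ _ hG r _ _ fun x hx => ⟨?_, ?_⟩
  · rintro ⟨g, hg, h⟩
    exact ⟨_, (hG g).1 hg, by
      simpa only [map_mul, map_inv] using (mem_tensorProductSubgroup_iff e P _).1 h⟩
  · rintro ⟨g, hg, h⟩
    obtain ⟨g, rfl⟩ := toLE.surjective g
    exact ⟨g, (hG g).2 hg, (mem_tensorProductSubgroup_iff e P _).2 (by
      simpa only [map_mul, map_inv] using h)⟩

end Cfsg.Agent.S5980
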