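import Cfsg.Statements.S5981
import Cfsg.Agent.H1.ElForm2

set_option autoImplicit false
open scoped MatrixGroups
open Cfsg

namespace Cfsg.Agent.S5981

open Module Polynomial Cfsg.Agent.H8 Cfsg.Agent.H1 Cfsg.Agent.H1.El Cfsg.Agent.H7
  Cfsg.Agent.H7.Polar
open Cfsg.Agent.H4.El hiding scal exists_diag

/-- Elements of prime order of PSL_n(q), q odd, and the subgroups of orthogonal type. Here `T = PSL_n(F)` for a field `F` with `q` elements, `q` odd, `n ≥ 3`; `Q` is a non-degenerate quadratic form on `F^n` (of either type when `n` is even) and `H` is the subgroup of matrices of determinant 1 that preserve `Q` up to a scalar — a subgroup of type O^ε_n(q) (maximality is not assumed); Ω is the set of cosets of `H` in `T`, so an element of `T` of prime order `r` (a matrix `x` of determinant 1 with `x^r` scalar, `x` not scalar) fixes a point of Ω exactly when some conjugate of `x` by a matrix of determinant 1 preserves `Q` up to a scalar. Let `r` be a prime dividing the index of `H`, with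 `(n, r) ≠ (6, 3)`. Then every element of `T` of order `r` fixes a point of Ω if and only if `r = 2`, or `r ∈ {3, 5}`, `n = r` and `(q − 1)_r = r` (the `r`-part of `q − 1` is exactly `r`). The case `(n, r) = (6, 3)` is not covered by this statement. -/
theorem result {F : Type*} [Field F] [Fintype F] {p : ℕ} [Fact p.Prime] [CharP F p] {q : ℕ} (hq : Fintype.card F = q)
    (hodd : Odd q) (n : ℕ) (hn : 3 ≤ n) (Q : (Fin n → F) → F) (hQ : Cfsg.Geo.IsNondegenerateQuadraticForm Q)
    (r : ℕ) [Fact r.Prime] (hgap : ¬ (n = 6 ∧ r = 3))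
    (hΩ : r ∣ (Cfsg.Geo.quadSimilarityGroup Q).relIndex (Cfsg.Geo.specialLinear (Fin n) F)) :
    (∀ x ∈ Cfsg.Geo.specialLinear (Fin n) F, (∃ z : F, ((x ^ r : GL (Fin n) F) : Matrix (Fin n) (Fin n) F) = z • (1 : Matrix (Fin n) (Fin n) F)) →
      (∀ z : F, (x : Matrix (Fin n) (Fin n) F) ≠ z • (1 : Matrix (Fin n) (Fin n) F)) →
      ∃ g ∈ Cfsg.Geo.specialLinear (Fin n) F, g⁻¹ * x * g ∈ Cfsg.Geo.quadSimilarityGroup Q) ↔
    (r = 2 ∨ ((r = 3 ∨ r = 5) ∧ n = r ∧ padicValNat r (q - 1) = 1)) := by
  classical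
  subst hq
  have : Nonempty (Fin n) := ⟨⟨0, by omega⟩⟩
  have hr : r.Prime := Fact.out
  have hp2 := ne_two_of_odd_card (p := p) hodd
  have h2 : (2 : F) ≠ 0 := by
    have := Fact.mk Nat.prime_two
    exact_mod_cast natCast_ne_zero_of_ne (F := F) (r := 2) hp2.symm
  have hH := isSml_o hQ h2
  have hO := isO_oPolar' hQ
  have ha := fun W => Ord.exists_B_self_ne_of_o (W := W) hO h2
  rw [elus_iff_two]
  by_cases hr2 : r = 2
  · subst hr2
    exact iff_of_true (elus_of_in' hH.hasScal (Or.inl hp2.symm)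
      (fun y w hy _ _ => hH.in_invol_of_aniso h2 ha hy) fun f z _ => hH.in_sq_o hO h2) (.inl rfl)
  rw [or_iff_right hr2]
  have h0 : orderOf (Fintype.card F : ZMod r) ≠ 1 →
      ¬ ((r = 3 ∨ r = 5) ∧ n = r ∧ padicValNat r (Fintype.card F - 1) = 1) := fun h e =>
    h ((orderOf_eq_one_iff_dvd Fintype.card_pos).mpr
      ((padicValNat_pos_iff card_sub_one_ne_zero).mp (by omega)))
  by_cases hp : r = p
  · subst hp
    refine iff_of_false (hH.not_elus_unip (k := 1) le_rfl hr.two_le (by omega)
      fun y h1 h3 v => ?_) (h0 fun e => not_dvd_pow_sub_one_char (F := F) (p := r) one_pos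
        (by simpa using (orderOf_eq_one_iff_dvd Fintype.card_pos).mp e))
    replace h3 := LinearMap.congr_fun h3 v
    rw [pow_succ', Module.End.mul_apply, LinearMap.sub_apply, Module.End.one_apply,
      LinearMap.zero_apply, sub_eq_zero] at h3
    have h4 := h1 (((y - 1) ^ 1 : Module.End F (Fin n → F)) v) v
    have h5 := h1 v v
    have h6 := hO.comm (y v) v
    rw [h3, one_mul] at h4
    simp only [pow_one, LinearMap.sub_apply, Module.End.one_apply, map_sub] at h4 ⊢
    refine mul_left_cancel₀ h2 ?_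
    linear_combination -h4 + h5 + h6
  by_cases h1 : orderOf (Fintype.card F : ZMod r) = 1
  · obtain ⟨ζ, hζ⟩ := exists_isPrimitiveRoot (F := F)
      ((orderOf_eq_one_iff_dvd Fintype.card_pos).mp h1)
    refine ⟨fun h => by_contra fun h3 => not_elus_symm hH.hasScal hn hr2 hζ hgap h3
      (fun y a _ hy h => hH.symm_of_in' hζ rfl hy h) h, fun h => ?_⟩
    exact hH.elus_exc hp (oPolar_wild hQ) ha hζ rfl h.1 h.2.1 h.2.2
  refine iff_of_false ?_ (h0 h1)
  by_cases hc : Odd (orderOf (Fintype.card F : ZMod r))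
  · exact hH.not_elus_block hp h1 (by simpa using orderOf_le_of_dvd_index hp hΩ)
      (nsp_of_id hp hr2 (fun _ => rfl) (Nat.not_even_iff_odd.mpr hc))
  obtain ⟨k, hk | hk⟩ := Nat.even_or_odd' n
  · obtain ⟨k, rfl⟩ : ∃ j, k = j + 1 := ⟨k - 1, by omega⟩
    obtain ⟨ε, h3, h4, h5⟩ := Ord.o_even hO h2 k nd_top (by simp [hk])
    have h6 : ε * ε = 1 := by rcases h3 with rfl | rfl <;> rfl
    rw [Ord.fixIso_top_eq] at h5
    have h7 := dvd_of_dvd_relIndex (B := (Fintype.card F ^ (k + 1) + ε) *
      (Fintype.card F ^ (∑ i ∈ Finset.range n, i) *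
        ∏ i ∈ Finset.range (k + 1), (Fintype.card F ^ (2 * i + 1) - 1) : ℕ)) hH h5 (by
      rw [card_GL_eq, hk, qfact_two_mul, Finset.prod_range_succ, Nat.cast_mul, Nat.cast_mul,
        Nat.cast_mul, Nat.cast_sub (Nat.one_le_pow _ _ Fintype.card_pos), Nat.cast_mul]
      generalize (∏ i ∈ Finset.range k, _ : ℕ) = A
      generalize (∏ i ∈ Finset.range (k + 1), _ : ℕ) = B
      push_cast
      linear_combination (A * B * Fintype.card F ^ (∑ i ∈ Finset.range (2 * (k + 1)), i)) * h6) hΩ
    replace h7 := ((Nat.prime_iff_prime_int.mp hr).dvd_or_dvd h7).resolve_right fun e =>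
      hc (odd_orderOf_of_dvd hp (Int.natCast_dvd_natCast.mp e))
    rw [← ZMod.intCast_zmod_eq_zero_iff_dvd] at h7
    replace h6 := congrArg (Int.cast : ℤ → ZMod r) h6
    push_cast at h6 h7
    refine hH.not_elus_fpf hp h1 (orderOf_dvd_of_pow_eq_one ?_) fun e => ?_
    · rw [Fintype.card_fin, hk]
      linear_combination ((Fintype.card F : ZMod r) ^ (k + 1) - ε) * h7 + h6
    · rw [← Int.natCast_dvd_natCast, h4, ← ZMod.intCast_zmod_eq_zero_iff_dvd] at e
      push_cast at e
      rcases mul_eq_zero.mp e with e | e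
      · exact zmod_two_ne hr2 (by linear_combination (ε : ZMod r) * (h7 - e) - 2 * h6)
      · exact h1 (orderOf_eq_one_iff.mpr (by
          linear_combination (ε : ZMod r) * (Fintype.card F * e - h7) - (Fintype.card F - 1) * h6))
  · refine absurd (odd_orderOf_of_dvd (F := F) hp (N := ∑ i ∈ Finset.range n, i) (m := k + 1)
      (hΩ.trans (relIndex_dvd_of_GL ((Ord.o_odd hO h2 k nd_top (by simp [hk])).2.trans
        (by rw [Ord.fixIso_top_eq]; exact hH.card_dvd)) ?_))) hc
    rw [card_GL_eq, hk, qfact_succ, qfact_two_mul, Finset.prod_range_succ]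
    ring

end Cfsg.Agent.S5981
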