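import Cfsg.Statements.S5982
import Cfsg.Agent.H1.ElForm2

set_option autoImplicit false
open scoped MatrixGroups
open Cfsg

namespace Cfsg.Agent.S5982

open Module Polynomial Cfsg.Agent.H8 Cfsg.Agent.H1 Cfsg.Agent.H1.El Cfsg.Agent.H7
  Cfsg.Agent.H7.Polar
open Cfsg.Agent.H4.El hiding scal exists_diag

/-- Elements of prime order of PSL_n(q), q = q₀², and the subgroups of unitary type. Here `T = PSL_n(F)` for a field `F` with `q = q₀²` elements (`n ≥ 3`), `f` is a non-degenerate unitary form on `F^n` for the involutory automorphism `x ↦ x^{q₀}`, and `H` is the subgroup of matrices of determinant 1 that preserve `f` up to a scalar — a subgroup of type GU_n(q₀) (maximality is not assumed); Ω is the set of cosets of `H` in `T`, so an element of `T` of prime order `r` (a matrix `x` of determinant 1 with `x^r` scalar, `x` not scalar) fixes a point of Ω exactly when some conjugate of `x` by a matrix of determinant 1 preserves `f` up to a scalar. Let `r` be a prime dividing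 the index of `H`, with `r = 2` or `r` different from the characteristic `p`, and with `(n, r) ≠ (6, 3)`. Then every element of `T` of order `r` fixes a point of Ω if and only if either `r = 2` and (`p = 2` or `(n)_2 ≤ (q − 1)_2`), or `r ∈ {3, 5}`, `n = r` and `(q₀ − 1)_r = r`. (Odd `r = p` and the case `(n, r) = (6, 3)` are not covered by this statement.) -/
theorem result {F : Type*} [Field F] [Fintype F] {p : ℕ} [Fact p.Prime] [CharP F p] {q : ℕ} (hq : Fintype.card F = q)
    (q₀ : ℕ) (hq₀ : q = q₀ ^ 2) (n : ℕ) (hn : 3 ≤ n) (f : (Fin n → F) → (Fin n → F) → F) (hf : Cfsg.Geo.IsUnitaryFormPow q₀ f)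
    (r : ℕ) [Fact r.Prime] (hr : r = 2 ∨ r ≠ p) (hgap : ¬ (n = 6 ∧ r = 3))
    (hΩ : r ∣ (Cfsg.Geo.similarityGroup f).relIndex (Cfsg.Geo.specialLinear (Fin n) F)) :
    (∀ x ∈ Cfsg.Geo.specialLinear (Fin n) F, (∃ z : F, ((x ^ r : GL (Fin n) F) : Matrix (Fin n) (Fin n) F) = z • (1 : Matrix (Fin n) (Fin n) F)) →
      (∀ z : F, (x : Matrix (Fin n) (Fin n) F) ≠ z • (1 : Matrix (Fin n) (Fin n) F)) →
      ∃ g ∈ Cfsg.Geo.specialLinear (Fin n) F, g⁻¹ * x * g ∈ Cfsg.Geo.similarityGroup f) ↔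
    ((r = 2 ∧ (p = 2 ∨ padicValNat 2 n ≤ padicValNat 2 (q - 1))) ∨ ((r = 3 ∨ r = 5) ∧ n = r ∧ padicValNat r (q₀ - 1) = 1)) := by
  classical
  subst hq
  have : Nonempty (Fin n) := ⟨⟨0, by omega⟩⟩
  have hr' : r.Prime := Fact.out
  have hH := isSml_u hq₀ hf
  have hU : Uni (unitPowPolar hq₀ hf) q₀ := ⟨hq₀, fun _ => rfl, rfl⟩
  have ha := fun W => exists_B_self_ne_of_unitary (W := W) hU.ne hU.ε
  have hq1 := hU.one_lt
  rw [elus_iff_two]
  by_cases hr2 : r = 2
  · subst hr2
    by_cases hp : 2 = p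
    · subst hp
      obtain ⟨b, hb⟩ := exists_frame (k := n / 2) (l := n % 2) (Or.inr hU.wild) (by omega)
        (Or.inr ha) (by simp [Nat.div_add_mod])
      exact iff_of_true (hH.elus_two (by omega) (.inl rfl) (by omega) b hb) (.inl ⟨rfl, .inl rfl⟩)
    have h2 : (2 : F) ≠ 0 := by exact_mod_cast natCast_ne_zero_of_ne (F := F) hp
    obtain ⟨t, ht⟩ := hU.odd (p := p) (Ne.symm hp)
    have h3 : Fintype.card F = 4 * (t * t + t) + 1 := by rw [hq₀, ht]; ring
    by_cases hv : padicValNat 2 n ≤ padicValNat 2 (Fintype.card F - 1)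
    · refine iff_of_true (elus_of_in' hH.hasScal (Or.inl hp)
        (fun y w hy _ _ => hH.in_invol_of_aniso h2 ha hy) fun f z h4 h5 h6 => ?_)
        (.inl ⟨rfl, .inr hv⟩)
      obtain ⟨w, hw⟩ := exists_pow_eq_of_det_eq_one h4 h5 (by simpa using hv) (by omega)
      exact absurd hw (h6 w)
    · obtain ⟨x, z, h4, h5, h6⟩ := exists_det_eq_one_not_pow (F := F) (V := Fin n → F) hp (by omega)
        fun e => hv (by simpa using e.1)
      refine iff_of_false (not_elus x z h4 h5 (ne_smul_of_not_pow h5 h6) fun h7 => ?_) (by omega)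
      obtain ⟨y, μ, h8, h9, h10⟩ := hH.of_in h7
      have h11 := h9.pow_eq (((h10.pow 2).eq_smul_one_iff z).mp h5)
      have h12 := h9.σ_eq
      rw [hU.σ] at h11 h12
      obtain ⟨w, hw⟩ := (FiniteField.isSquare_iff (F := F) (a := z)
        (by rw [ringChar.eq F p]; exact Ne.symm hp) fun e => h6 0 (by simp [e])).mpr (by
          rw [show Fintype.card F / 2 = (q₀ + 1) * t by rw [h3, ht]; ring_nf; omega, pow_mul,
            pow_succ', ← h11, ← pow_mul]
          exact mul_right_cancel₀ h8 (by rw [← pow_succ, ← ht, h12, one_mul]))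
      exact h6 w (by rw [hw, sq])
  have hp := hr.resolve_left hr2
  rw [or_iff_right fun e => hr2 e.1]
  have hc : orderOf (q₀ : ZMod r) % 4 ≠ 2 := fun e => by
    have h3 := dvd_of_dvd_relIndex (B := Fintype.card F ^ (∑ i ∈ Finset.range n, i) *
      ∏ j ∈ Finset.range n, ((q₀ : ℤ) ^ (j + 1) + (-1) ^ (j + 1))) hH
      (Ord.fixIso_top_eq (P := unitPowPolar hq₀ hf) ▸ (Ord.u_aux hU n nd_top (by simp)).2) (by
        rw [card_GL_eq, mul_left_comm, ← Finset.prod_mul_distrib, qfact]
        push_cast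
        refine congrArg _ (Finset.prod_congr rfl fun j _ => ?_)
        rw [Nat.cast_sub (Nat.one_le_pow _ _ Fintype.card_pos), hq₀]
        push_cast
        linear_combination (Even.neg_one_pow (α := ℤ) (even_two_mul (j + 1)))) hΩ
    have h4 := Nat.prime_iff_prime_int.mp hr'
    rcases h4.dvd_or_dvd h3 with h3 | h3
    · exact not_dvd_card_of_ne hp (Int.natCast_dvd_natCast.mp (h4.dvd_of_dvd_pow h3))
    obtain ⟨j, -, h3⟩ := (h4.dvd_finsetProd_iff _).mp h3
    rw [← ZMod.intCast_zmod_eq_zero_iff_dvd] at h3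
    push_cast at h3
    obtain ⟨u, hu⟩ : ∃ u, orderOf (q₀ : ZMod r) = 2 * (2 * u + 1) :=
      ⟨orderOf (q₀ : ZMod r) / 4, by omega⟩
    have h5 := pow_half_eq_neg_one (by omega) hu
    replace h3 := congrArg (· ^ (2 * u + 1)) (eq_neg_of_add_eq_zero_left h3)
    rw [pow_right_comm, h5, (odd_two_mul_add_one u).neg_pow, pow_right_comm,
      (odd_two_mul_add_one u).neg_one_pow, eq_neg_iff_add_eq_zero, ← two_mul] at h3
    exact mul_ne_zero (zmod_two_ne hr2) (by simp) h3
  by_cases h1 : orderOf (Fintype.card F : ZMod r) = 1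
  · have h3 := (orderOf_eq_one_iff_dvd Fintype.card_pos).mp h1
    obtain ⟨ζ, hζ⟩ := exists_isPrimitiveRoot (F := F) h3
    have h4 : ¬ r ∣ q₀ + 1 := fun e => hc (by rw [(dvd_succ_iff hr2 q₀).mp e])
    rw [hU.card_sub] at h3
    obtain ⟨t, ht⟩ := (hr'.dvd_mul.mp h3).resolve_left h4
    have h5 : (unitPowPolar hq₀ hf).σ ζ = ζ := by
      rw [hU.σ, show q₀ = r * t + 1 by omega, pow_succ, pow_mul, hζ.pow_eq_one, one_pow, one_mul]
    have h6 := hU.val_card (r := r)
    rw [padicValNat.eq_zero_of_not_dvd h4, zero_add] at h6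
    rw [← h6]
    refine ⟨fun h => by_contra fun h3 => not_elus_symm hH.hasScal hn hr2 hζ hgap h3
      (fun y a _ hy h => hH.symm_of_in' hζ h5 hy h) h, fun h => ?_⟩
    exact hH.elus_exc hp (hU.wild.mono (by omega)) ha hζ h5 h.1 h.2.1 h.2.2
  · refine iff_of_false (hH.not_elus_block hp h1 (by simpa using orderOf_le_of_dvd_index hp hΩ)
      (hU.nsp hp hr2 hc)) fun e => h1 ((orderOf_eq_one_iff_dvd Fintype.card_pos).mpr ?_)
    rw [hU.card_sub]
    exact ((padicValNat_pos_iff (by omega)).mp (by omega)).mul_left _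

end Cfsg.Agent.S5982
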