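import Cfsg.Statements.S5983
import Cfsg.Agent.H4.ElO8

set_option autoImplicit false
open scoped MatrixGroups
open Cfsg

namespace Cfsg.Agent.S5983

open Module Cfsg.Agent.H7 Cfsg.Agent.H8 Cfsg.Agent.H4.El

/-- Elements of prime order of PSp_n(q), q even, and the subgroups of orthogonal type. Here `T = Sp_{2d}(F)` for a field `F` of characteristic 2 with `q` elements (`d ≥ 2`, `(d, q) ≠ (2, 2)`), realised as the invertible matrices preserving the standard alternating form; `Q` is a non-degenerate quadratic form on `F^{2d}` whose polar form is that alternating form, and `H` is the subgroup of `T` preserving `Q` up to a scalar (equivalently preserving `Q`) — a subgroup of type O^±_{2d}(q) (maximality is not assumed); `Q` is of plus type when `F^{2d}` contains a `d`-dimensional subspace on which `Q` vanishes, of minus type otherwise. Ω is the set of cosets of `H` in `T`, so an element of `T` of prime order `r` (`x ∈ T` with `x^r` scalar,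 `x` not scalar) fixes a point of Ω exactly when some `T`-conjugate of `x` preserves `Q`. Let `r` be a prime dividing the index of `H`. Then every element of `T` of order `r` fixes a point of Ω if and only if `r = 2` and either `Q` is of plus type or `d` is odd. -/
theorem result {F : Type*} [Field F] [Fintype F] {p : ℕ} [Fact p.Prime] [CharP F p] {q : ℕ} (hq : Fintype.card F = q)
    (hp : p = 2) (d : ℕ) (hd : 2 ≤ d) (hT : (d, q) ≠ (2, 2)) (Q : (Fin d ⊕ Fin d → F) → F) (hQ : Cfsg.Geo.IsNondegenerateQuadraticForm Q)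
    (hQf : ∀ u v, QuadraticMap.polar Q u v = Cfsg.sympForm d F u v)
    (r : ℕ) [Fact r.Prime]
    (hΩ : r ∣ (Cfsg.Geo.quadSimilarityGroup Q).relIndex (Cfsg.spGL d F)) :
    (∀ x ∈ Cfsg.spGL d F, (∃ z : F, ((x ^ r : GL (Fin d ⊕ Fin d) F) : Matrix (Fin d ⊕ Fin d) (Fin d ⊕ Fin d) F) = z • (1 : Matrix (Fin d ⊕ Fin d) (Fin d ⊕ Fin d) F)) →
      (∀ z : F, (x : Matrix (Fin d ⊕ Fin d) (Fin d ⊕ Fin d) F) ≠ z • (1 : Matrix (Fin d ⊕ Fin d) (Fin d ⊕ Fin d) F)) →
      ∃ g ∈ Cfsg.spGL d F, g⁻¹ * x * g ∈ Cfsg.Geo.quadSimilarityGroup Q) ↔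
    (r = 2 ∧ (Cfsg.Geo.IsPlusTypeOn Q ⊤ ∨ Odd d)) := by
  subst hp
  have hV : finrank F (Fin d ⊕ Fin d → F) = 2 * d := finrank_sum_fun d
  have : Nontrivial (Fin d ⊕ Fin d → F) := Module.finrank_pos_iff (R := F).mp (by omega)
  have hB : ∀ u v, (spStd d F).B u v = QuadraticMap.polar (toQF hQ) u v := fun u v => (hQf u v).symm
  have hG := mem_spGL_iff_Iso (F := F) d
  have key : ∀ g ∈ Cfsg.spGL d F, g ∈ Cfsg.Geo.quadSimilarityGroup Q ↔
      ∀ v, toQF hQ (toLE g v) = toQF hQ v := fun g hg => by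
    refine ⟨fun ⟨c, hc⟩ v => ?_, fun h => ⟨1, fun v => by simpa using h v⟩⟩
    obtain ⟨u, hu⟩ := exists_ne (0 : Fin d ⊕ Fin d → F)
    obtain ⟨w, hw⟩ := (spStd d F).exists_B_ne hu
    have h1 := polar_iso (fun _ _ => trivial) hB ((hG g).1 hg) u w
    have hc' : ∀ v, toQF hQ (toLE g v) = c * toQF hQ v := hc
    rw [QuadraticMap.polar, ← map_add, hc', hc', hc', ← mul_sub, ← mul_sub] at h1
    rw [hB] at hw
    rw [hc', mul_eq_right₀ hw |>.1 h1, one_mul]
  have hmem : ∀ {x g}, x ∈ Cfsg.spGL d F → g ∈ Cfsg.spGL d F → g⁻¹ * x * g ∈ Cfsg.spGL d F :=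
    fun hx hg => Subgroup.mul_mem _ (Subgroup.mul_mem _ (Subgroup.inv_mem _ hg) hx) hg
  obtain ⟨S, hS, h1, h2⟩ := exists_pgroup_of_dvd_relIndex hΩ
  have h3 := cq_iff (nd_toQF hQ) (P := spStd d F) (fun _ _ => trivial) hB (fun _ => rfl) (r := r)
    ⟨S, hS, fun s hs => by
      obtain ⟨x, hx, rfl⟩ := h1 s hs
      exact (hG x).1 hx, fun g hg => by
      obtain ⟨g, rfl⟩ := toLE.surjective g
      obtain ⟨x, h3, h4, h5⟩ := h2 g ((hG g).2 hg)
      refine ⟨_, h4, fun h6 => h5 ((key _ (hmem h3 ((hG g).2 hg))).2 ?_)⟩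
      simpa only [map_mul, map_inv] using h6⟩
  rw [hV, plus_toQF, show 2 * d % 4 ≠ 0 ↔ Odd d by rw [Nat.odd_iff]; omega] at h3
  rw [← h3]
  refine elu_iff_GL _ _ hG r _ _ fun x hx => ⟨?_, ?_⟩
  · rintro ⟨g, hg, h⟩
    exact ⟨_, (hG g).1 hg, by simpa only [map_mul, map_inv] using (key _ (hmem hx hg)).1 h⟩
  · rintro ⟨g, hg, h⟩
    obtain ⟨g, rfl⟩ := toLE.surjective g
    exact ⟨g, (hG g).2 hg, (key _ (hmem hx ((hG g).2 hg))).2 (by
      simpa only [map_mul, map_inv] using h)⟩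

end Cfsg.Agent.S5983
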