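import Cfsg.Statements.S5984
import Cfsg.Agent.H4.ElPair
import Cfsg.Agent.H7.TsPair

set_option autoImplicit false
open scoped MatrixGroups
open Cfsg

namespace Cfsg.Agent.S5984

open Module Cfsg.Agent.H7 Cfsg.Agent.H8 Cfsg.Agent.H4.El

/-- Elements of prime order of PSU_n(q) and the stabilizers of pairs of complementary totally singular subspaces. Here `T = PSU_n(q)` is realised through `SU_n(q)`, the matrices of determinant 1 over the field `F` with `q²` elements preserving the hermitian form `Σ uᵢ vᵢ^q`, with `n ≥ 4` even; `D` is a pair of complementary subspaces of dimension `n/2` on each of which the form vanishes identically, and `H` is the subgroup of `SU_n(q)` fixing or interchanging the two members — a subgroup of type GL_{n/2}(q²).2 (maximality is not assumed). Ω is the set of cosets of `H`, so an element of `T` of prime order `r` (`x ∈ SU_n(q)` with `x^r` scalar, `x` not scalar) fixes a point of Ω exactly when some `SU_n(q)`-conjugate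 of `x` lies in `H`. Let `r` be a prime dividing the index of `H`. Then every element of `T` of order `r` fixes a point of Ω if and only if `r = 2`, `q` is odd and `(q + 1)_2 ≤ (n)_2` (2-parts). -/
theorem result {F : Type*} [Field F] [Fintype F] {p : ℕ} [Fact p.Prime] [CharP F p] {q : ℕ} (hq : Fintype.card F = q ^ 2)
    (n : ℕ) (hn : 4 ≤ n) (he : Even n) (D : Fin 2 → Submodule F (Fin n → F)) (hD : Cfsg.Geo.IsMDecomposition (n / 2) D)
    (hDs : ∀ i, Cfsg.Geo.IsTotallySingularFor (Cfsg.hermForm n F q) (D i))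
    (r : ℕ) [Fact r.Prime]
    (hΩ : r ∣ (Cfsg.Geo.decompositionStabilizer D).relIndex (Cfsg.GU n F q ⊓ Cfsg.Geo.specialLinear (Fin n) F)) :
    (∀ x ∈ Cfsg.GU n F q ⊓ Cfsg.Geo.specialLinear (Fin n) F, (∃ z : F, ((x ^ r : GL (Fin n) F) : Matrix (Fin n) (Fin n) F) = z • (1 : Matrix (Fin n) (Fin n) F)) →
      (∀ z : F, (x : Matrix (Fin n) (Fin n) F) ≠ z • (1 : Matrix (Fin n) (Fin n) F)) →
      ∃ g ∈ Cfsg.GU n F q ⊓ Cfsg.Geo.specialLinear (Fin n) F, g⁻¹ * x * g ∈ Cfsg.Geo.decompositionStabilizer D) ↔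
    (r = 2 ∧ Odd q ∧ padicValNat 2 (q + 1) ≤ padicValNat 2 n) := by
  have hV : finrank F (Fin n → F) = n := by simp
  have : Nontrivial (Fin n → F) := Module.finrank_pos_iff (R := F).mp (by omega)
  have hU := uni_uStd hq n
  have h0 : TP (uStd hq n) (D 0) (D 1) ⊤ :=
    hU.lam.tp_iff.2 ⟨isCompl_of_two hD.indep hD.iSup_eq_top, hDs 0, hDs 1⟩
  have hG : ∀ g, g ∈ Cfsg.GU n F q ⊓ Cfsg.Geo.specialLinear (Fin n) F ↔
      toLE g ∈ (uStd hq n).Iso ⊓ SLV F (Fin n → F) := fun g =>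
    and_congr (mem_GU_iff hq n g) (mem_specialLinear_iff g)
  have key : ∀ x g : GL (Fin n) F, g⁻¹ * x * g ∈ Cfsg.Geo.decompositionStabilizer D ↔
      ((toLE x • toLE g • D 0 = toLE g • D 0 ∧ toLE x • toLE g • D 1 = toLE g • D 1) ∨
      (toLE x • toLE g • D 0 = toLE g • D 1 ∧ toLE x • toLE g • D 1 = toLE g • D 0)) := by
    intro x g
    rw [mem_decompositionStabilizer_iff, mem_decStab_two]
    simp only [← smul_sub_def, map_mul, map_inv, mul_smul, inv_smul_eq_iff]
  have hT : ∀ U U', TP (uStd hq n) U U' ⊤ → ∃ g ∈ Cfsg.GU n F q ⊓ Cfsg.Geo.specialLinear (Fin n) F,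
      toLE g • D 0 = U ∧ toLE g • D 1 = U' := fun U U' h => by
    obtain ⟨g, hg, h1⟩ := hU.exists_su h0 h
    obtain ⟨g, rfl⟩ := toLE.surjective g
    exact ⟨g, (hG g).2 hg, h1⟩
  obtain ⟨S, hS, h1, h2⟩ := exists_pgroup_of_dvd_relIndex hΩ
  have h3 := hU.fp_iff (r := r) p (by omega) (by rwa [hV]) ⟨S, hS, fun s hs => by
      obtain ⟨x, hx, rfl⟩ := h1 s hs
      exact ((hG x).1 hx).1, fun U U' h => by
      obtain ⟨g, hg, rfl, rfl⟩ := hT U U' h
      obtain ⟨x, -, h3, h4⟩ := h2 g hg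
      exact ⟨_, h3, fun h5 => h4 ((key x g).2 (Or.inl ⟨h5.1.map_eq, h5.2.map_eq⟩))⟩⟩
  rw [hV] at h3
  rw [← h3]
  refine elu_iff_GL _ _ hG r _ _ fun x _ => ⟨?_, ?_⟩
  · rintro ⟨g, hg, h⟩
    exact ⟨_, _, h0.map ((hG g).1 hg).1, (key x g).1 h⟩
  · rintro ⟨U, U', h, h'⟩
    obtain ⟨g, hg, rfl, rfl⟩ := hT U U' h
    exact ⟨g, hg, (key x g).2 h'⟩

end Cfsg.Agent.S5984
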