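import Cfsg.Statements.S5989
import Cfsg.Agent.H4.ElO7

set_option autoImplicit false
open scoped MatrixGroups
open Cfsg

namespace Cfsg.Agent.S5989

open Module Cfsg.Agent.H7 Cfsg.Agent.H8 Cfsg.Agent.H4.El

/-- Elements of prime order of PΩ⁺_n(q), q odd, with no fixed nondegenerate `m`-space of odd dimension. Here `T = PΩ⁺_n(F)`, `n = 2d ≥ 8`, realised through `Ω⁺_n(q)`, the commutator subgroup of the isometry group of `Q = Σ xᵢyᵢ` over the field `F` with `q` elements; an element of `T` of prime order `r` is an element `x` of `Ω⁺_n(q)` with `x^r` scalar and `x` not scalar; `q` and `m` are odd, `1 ≤ m < n/2`. The nondegenerate `m`-spaces (subspaces on which the polar form is nondegenerate) fall into two isometry classes, each an orbit of `T`, and the two actions are equivalent; fix one such space `W₀` and let Ω be the set of nondegenerate `m`-spaces isometric to `W₀` (some linear isomorphism preserves `Q`). Let `r` be a prime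 dividing the size of Ω; for `r ≠ p` let `i` be the multiplicative order of `q` modulo `r`, `c = i` for `i` even and `c = 2i` for `i` odd, and write `k = n mod c`, `ℓ = m mod i`, `ℓ' = m mod c`, `n' = ⌊n/i⌋`, `m' = ⌊m/i⌋`, `t = (r−1)/i`. Then every element of `T` of order `r` fixes a member of Ω if and only if one of: (i) `r = 2`, `n ≡ 2 (mod 4)` and `q ≢ 1 (mod 8)`; (ii) `r ≠ p` odd, `i` odd, `c ≤ m` and `k > ℓ' > 0`; (iii) `r ≠ p` odd, `i` even, and either `k = 0` and `n/i` odd, or `i ≤ m` and `k > ℓ' > 0`. (For `r = p` there is always an element of order `p` fixing no member of Ω.) -/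
theorem result {F : Type*} [Field F] [Fintype F] {p : ℕ} [Fact p.Prime] [CharP F p] {q : ℕ} (hq : Fintype.card F = q)
    (hodd : Odd q) (d m : ℕ) (hd : 4 ≤ d) (hm : Odd m) (hmd : m < d)
    (W₀ : Submodule F (Fin d ⊕ Fin d → F)) (hW₀ : Module.finrank F ↥W₀ = m ∧ Cfsg.Geo.IsNondegenerateOn (QuadraticMap.polar (Cfsg.quadFormPlus d F)) W₀)
    (r : ℕ) [Fact r.Prime]
    (hrΩ : r ∣ Nat.card {W : Submodule F (Fin d ⊕ Fin d → F) // Module.finrank F ↥W = m ∧ Cfsg.Geo.IsNondegenerateOn (QuadraticMap.polar (Cfsg.quadFormPlus d F)) W ∧ Cfsg.Geo.AreIsometricFor (Cfsg.quadFormPlus d F) W W₀})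
    (i c : ℕ) (hi : i = orderOf (q : ZMod r)) (hc : c = if Even i then i else 2 * i) :
    (∀ x : GL (Fin d ⊕ Fin d) F, x ∈ Cfsg.Geo.omegaGL (Cfsg.quadFormPlus d F) →
      (∃ z : F, ((x ^ r : GL (Fin d ⊕ Fin d) F) : Matrix (Fin d ⊕ Fin d) (Fin d ⊕ Fin d) F) = z • (1 : Matrix (Fin d ⊕ Fin d) (Fin d ⊕ Fin d) F)) →
      (∀ z : F, (x : Matrix (Fin d ⊕ Fin d) (Fin d ⊕ Fin d) F) ≠ z • (1 : Matrix (Fin d ⊕ Fin d) (Fin d ⊕ Fin d) F)) →
      ∃ W : Submodule F (Fin d ⊕ Fin d → F), (Module.finrank F ↥W = m ∧ Cfsg.Geo.IsNondegenerateOn (QuadraticMap.polar (Cfsg.quadFormPlus d F)) W ∧ Cfsg.Geo.AreIsometricFor (Cfsg.quadFormPlus d F) W W₀) ∧ W.map (Matrix.toLin' (x : Matrix (Fin d ⊕ Fin d) (Fin d ⊕ Fin d) F)) ≤ W) ↔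
    ((r = 2 ∧ Odd d ∧ q % 8 ≠ 1) ∨
     (r ≠ p ∧ 2 < r ∧ Odd i ∧ c ≤ m ∧ 0 < m % c ∧ m % c < (2 * d) % c) ∨
     (r ≠ p ∧ 2 < r ∧ Even i ∧ (((2 * d) % c = 0 ∧ Odd ((2 * d) / i)) ∨ (i ≤ m ∧ 0 < m % c ∧ m % c < (2 * d) % c)))) := by
  subst hq
  have hp2 : p ≠ 2 := odd_card_iff.1 hodd
  have h₀ := ndq_plus F d
  have hn := finrank_sum_fun (F := F) d
  have ht : Plus (toQF h₀) ⊤ := plus_quadFormPlus d
  have hm' := Nat.odd_iff.1 hm
  have hW := (nd_toQF_iff h₀).1 hW₀.2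
  refine (elu_iff_omega h₀ (by omega) r _).trans ?_
  set Ω := fun W : Submodule F (Fin d ⊕ Fin d → F) => finrank F ↥W = m ∧
    Cfsg.Geo.IsNondegenerateOn (QuadraticMap.polar (Cfsg.quadFormPlus d F)) W ∧
      Cfsg.Geo.AreIsometricFor (Cfsg.quadFormPlus d F) W W₀ with hΩ₀
  have hΩ' : ∀ W, Ω W ↔ finrank F W = m ∧ Nd (qP (nd_toQF h₀)) W ∧
      (Ty (toQF h₀) 1 W ↔ Ty (toQF h₀) 1 W₀) := fun W => and_congr_right fun h => by
    rw [nd_toQF_iff h₀]
    exact and_congr_right fun h' => isom_iff_ty h' hW (h.trans hW₀.1.symm)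
  by_cases hrp : r = p
  · subst hrp
    obtain ⟨y, h1, h2, h3, h4⟩ := exists_der_par (hQ := nd_toQF h₀) (by omega) hp2 (Or.inr ht) hm
    refine iff_of_false (not_elu_of_char (by omega) h1 (fun h => absurd h hp2) h2 h3 ?_)
      (by simp [hp2])
    rintro ⟨W, h5, h6⟩
    exact h4 W ((hΩ' W).1 h5).2.1 h6 h5.1
  by_cases hr2 : r = 2
  · subst hr2
    have := Nat.odd_iff.1 hodd
    rw [orth_nd_two' (by omega) hp2 one_ne_zero (by omega) (by omega) _ Ω hΩ', hn]
    simp only [ht, true_iff, lt_irrefl, false_and, and_false, or_false, true_and, hm', one_ne_zero,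
      imp_false, Nat.odd_iff]
    omega
  have hr3 : 2 < r := lt_of_le_of_ne (Fact.out : r.Prime).two_le (Ne.symm hr2)
  obtain ⟨C, h1, h2, h3, h4, h5⟩ := orth_nd_odd (by omega) hrp hr2 one_ne_zero (by omega) (by omega)
    (Or.inr (two_ne_zero_of_ne hp2)) _ Ω hΩ' hrΩ hi hc
  have h6 := Nat.mod_mod_of_dvd m h4.two_dvd
  have h7 := Nat.mod_mod_of_dvd (2 * d) h4.two_dvd
  have h8 : m % c ≠ 0 := by omega
  have h9 : m % c ≠ 2 * d % c := by omega
  rw [h1, h5]
  rw [h5] at h2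
  rw [ty_even ht.even, hn] at h2 ⊢
  simp only [hr2, hrp, hr3, ht, false_and, false_or, true_and, ne_eq, not_false_eq_true,
    iff_true, true_iff, h8, h9, or_false] at h2 ⊢
  rcases Nat.even_or_odd i with h | h
  · obtain rfl : c = i := by rw [hc, if_pos h]
    simp only [h, Nat.not_odd_iff_even.2 h, false_and, false_or, true_and] at h2 ⊢
    simp only [Nat.even_iff, Nat.odd_iff] at h2 ⊢
    omega
  · simp only [h, Nat.not_even_iff_odd.2 h, false_and, or_false, true_and, true_or, or_true,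
      true_implies] at h2 ⊢
    omega

end Cfsg.Agent.S5989
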