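import Cfsg.Statements.S5993
import Cfsg.Agent.H4.ElO7

set_option autoImplicit false
open scoped MatrixGroups
open Cfsg

namespace Cfsg.Agent.S5993

open Module Cfsg.Agent.H7 Cfsg.Agent.H8 Cfsg.Agent.H4.El

/-- Elements of prime order of Ω_n(q), nq odd, with no fixed elliptic `m`-space. Here `T = Ω_n(F)`, `n = 2d+1 ≥ 7`, `q` odd, realised as the commutator subgroup of the isometry group of `Q = x₀² + Σ xᵢyᵢ` over the field `F` with `q` elements (trivial centre, so its elements of prime order `r` are used directly); a nondegenerate `m`-space (even `m`) is a subspace on which the polar form of `Q` is nondegenerate; it is hyperbolic if it contains an `m/2`-dimensional subspace on which `Q` vanishes, elliptic otherwise. Let `m` be even with `2 ≤ m ≤ n − 1` (no restriction `m < n/2`) and let `r` be a prime dividing the number of elliptic `m`-spaces; for `r ≠ p` let `i` be the multiplicative order of `q` modulo `r`, `c = i` for `i` even and `c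 = 2i` for `i` odd, and write `k = n mod c`, `ℓ' = m mod c`. Then every element of `T` of order `r` fixes some elliptic `m`-space if and only if `r = 2`, or `r ≠ p` is odd and one of: (i) `i` odd, `c ≤ m` and `k > ℓ' > 0`; (ii) `i` even, `i ≤ m`, `k > ℓ'`, and `m/i` odd whenever `ℓ' = 0`. (For `r = p` there is always an element of order `p` fixing no elliptic `m`-space.) -/
theorem result {F : Type*} [Field F] [Fintype F] {p : ℕ} [Fact p.Prime] [CharP F p] {q : ℕ} (hq : Fintype.card F = q) (hqodd : Odd q)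
    (d m : ℕ) (hd : 3 ≤ d) (hm : 2 ≤ m) (hme : Even m) (hmn : m ≤ 2 * d)
    (r : ℕ) [Fact r.Prime]
    (hrΩ : r ∣ Nat.card {W : Submodule F (Unit ⊕ (Fin d ⊕ Fin d) → F) // Module.finrank F ↥W = m ∧ Cfsg.Geo.IsNondegenerateOn (QuadraticMap.polar (Cfsg.quadFormOdd d F)) W ∧ ¬ Cfsg.Geo.IsPlusTypeOn (Cfsg.quadFormOdd d F) W})
    (i c : ℕ) (hi : i = orderOf (q : ZMod r)) (hc : c = if Even i then i else 2 * i) :
    (∀ x : GL (Unit ⊕ (Fin d ⊕ Fin d)) F, x ∈ Cfsg.Geo.omegaGL (Cfsg.quadFormOdd d F) → orderOf x = r →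
      ∃ W : Submodule F (Unit ⊕ (Fin d ⊕ Fin d) → F), (Module.finrank F ↥W = m ∧ Cfsg.Geo.IsNondegenerateOn (QuadraticMap.polar (Cfsg.quadFormOdd d F)) W ∧ ¬ Cfsg.Geo.IsPlusTypeOn (Cfsg.quadFormOdd d F) W) ∧ W.map (Matrix.toLin' (x : Matrix (Unit ⊕ (Fin d ⊕ Fin d)) (Unit ⊕ (Fin d ⊕ Fin d)) F)) ≤ W) ↔
    (r = 2 ∨
     (r ≠ p ∧ 2 < r ∧ Odd i ∧ c ≤ m ∧ 0 < m % c ∧ m % c < (2 * d + 1) % c) ∨
     (r ≠ p ∧ 2 < r ∧ Even i ∧ i ≤ m ∧ m % c < (2 * d + 1) % c ∧ (0 < m % c ∨ Odd (m / i)))) := by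
  subst hq
  have hp2 : p ≠ 2 := odd_card_iff.1 hqodd
  have h₀ := isNondegenerateQuadraticForm_quadFormOdd d (two_ne_zero_of_odd_card hqodd)
  have hn := finrank_odd (F := F) d
  have ho : Odd (finrank F (Unit ⊕ (Fin d ⊕ Fin d) → F)) := hn ▸ odd_two_mul_add_one d
  have hme' := Nat.even_iff.1 hme
  refine (elu_iff_omega_odd h₀ (by omega) ho Fact.out _).trans ?_
  set Ω := fun W : Submodule F (Unit ⊕ (Fin d ⊕ Fin d) → F) => finrank F ↥W = m ∧
    Cfsg.Geo.IsNondegenerateOn (QuadraticMap.polar (Cfsg.quadFormOdd d F)) W ∧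
      ¬ Cfsg.Geo.IsPlusTypeOn (Cfsg.quadFormOdd d F) W with hΩ₀
  have hΩ' : ∀ W, Ω W ↔ finrank F W = m ∧ Nd (qP (nd_toQF h₀)) W ∧ (Ty (toQF h₀) 1 W ↔ False) :=
    fun W => and_congr_right fun h => and_congr (nd_toQF_iff h₀) (by
      rw [ty_even (h ▸ hme), iff_false]; rfl)
  by_cases hrp : r = p
  · subst hrp
    obtain ⟨y, h1, h2, h3, h4⟩ := exists_der_odd (hQ := nd_toQF h₀) (by omega) hp2 ho
    refine iff_of_false (not_elu_of_char (by omega) h1 (fun h => absurd h hp2) h2 h3 ?_)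
      (by simp [hp2])
    rintro ⟨W, h5, h6⟩
    exact h5.2.2 (h4 W ((hΩ' W).1 h5).2.1 h6 (h5.1 ▸ hme)).2
  by_cases hr2 : r = 2
  · subst hr2
    rw [orth_nd_two' (by omega) hp2 one_ne_zero (by omega) (by omega) _ Ω hΩ', hn]
    exact iff_of_true (fun h => absurd h.1 (by omega)) (Or.inl rfl)
  have hr3 : 2 < r := lt_of_le_of_ne (Fact.out : r.Prime).two_le (Ne.symm hr2)
  obtain ⟨C, h1, h2, h3, h4, h5⟩ := orth_nd_odd (by omega) hrp hr2 one_ne_zero (by omega) (by omega)
    (Or.inl hme) _ Ω hΩ' hrΩ hi hc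
  have h6 := Nat.mod_mod_of_dvd m h4.two_dvd
  have h7 := Nat.mod_mod_of_dvd (2 * d + 1) h4.two_dvd
  have h8 : 0 < (2 * d + 1) % c := by omega
  have h9 : m % c ≠ (2 * d + 1) % c := by omega
  rw [h1, h5]
  rw [h5] at h2
  rw [hn] at h2 ⊢
  simp only [hr2, hr3, hrp, false_and, false_or, true_and, iff_false, h8, h9, or_false, true_or,
    true_implies, ne_eq, not_false_eq_true] at h2 ⊢
  rcases Nat.even_or_odd i with h | h
  · obtain rfl : c = i := by rw [hc, if_pos h]
    simp only [h, Nat.not_odd_iff_even.2 h, false_and, false_or, true_and] at h2 ⊢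
    simp only [Nat.even_iff, Nat.odd_iff] at h2 ⊢
    omega
  · simp only [h, Nat.not_even_iff_odd.2 h, false_and, or_false, true_and, true_or,
      not_true, and_false] at h2 ⊢
    omega

end Cfsg.Agent.S5993
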