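import Cfsg.Statements.S5997
import Cfsg.Agent.H6.Exc

set_option autoImplicit false
open scoped MatrixGroups
open Cfsg

namespace Cfsg.Agent.S5997

open Cfsg.Agent.H6 Cfsg.Agent.H6.Pg Matrix

theorem companion {F : Type*} [Field F] [Finite F] (ho : Odd (Nat.card F))
    {A : Matrix (Fin 2) (Fin 2) F} (h1 : A.det = 1) (ht : A.trace ^ 2 ≠ 4) :
    ∃ P : Matrix (Fin 2) (Fin 2) F, P.det = 1 ∧ A * P = P * !![0, -1; 1, A.trace] := by
  have h2 := FF.two_ne_zero ho
  obtain ⟨P, hP, e⟩ : ∃ P : Matrix (Fin 2) (Fin 2) F, P.det ≠ 0 ∧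
      A * P = P * !![0, -1; 1, A.trace] := by
    rw [det_fin_two] at h1
    rw [trace_fin_two] at ht ⊢
    by_cases hc : A 1 0 = 0
    · by_cases hb : A 0 1 = 0
      · refine ⟨!![1, A 0 0; 1, A 1 1], by simp; grind, ?_⟩
        ext i j
        fin_cases i <;> fin_cases j <;> simp [mul_apply, Fin.sum_univ_two] <;> grind
      · refine ⟨!![0, A 0 1; 1, A 1 1], by simpa, ?_⟩
        ext i j
        fin_cases i <;> fin_cases j <;> simp [mul_apply, Fin.sum_univ_two] <;> grind
    · refine ⟨!![1, A 0 0; 0, A 1 0], by simpa, ?_⟩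
      ext i j
      fin_cases i <;> fin_cases j <;> simp [mul_apply, Fin.sum_univ_two] <;> grind
  have := Fintype.ofFinite F
  obtain ⟨u, v, huv⟩ := FiniteField.exists_root_sum_quadratic
    (f := Polynomial.X ^ 2 - Polynomial.C P.det⁻¹)
    (g := Polynomial.C (4 - A.trace ^ 2) * Polynomial.X ^ 2)
    (Polynomial.degree_X_pow_sub_C two_pos _)
    (Polynomial.degree_C_mul_X_pow 2 (sub_ne_zero.2 ht.symm))
    (by rwa [← Nat.card_eq_fintype_card, ← Nat.odd_iff])
  simp only [Polynomial.eval_sub, Polynomial.eval_pow, Polynomial.eval_X, Polynomial.eval_C,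
    Polynomial.eval_mul] at huv
  refine ⟨P * !![u - A.trace * v, -(2 * v); 2 * v, u + A.trace * v], ?_, ?_⟩
  · rw [det_mul, mul_eq_one_iff_inv_eq₀ hP, det_fin_two_of]
    linear_combination -huv
  · rw [← Matrix.mul_assoc, e, Matrix.mul_assoc, Matrix.mul_assoc]
    congr 1
    ext i j
    fin_cases i <;> fin_cases j <;> simp [mul_apply, Fin.sum_univ_two] <;> ring

theorem mem_SL {F : Type*} [Field F] {g : GL (Fin 2) F} :
    g ∈ Cfsg.Geo.specialLinear (Fin 2) F ↔ (g : Matrix (Fin 2) (Fin 2) F).det = 1 := by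
  rw [Cfsg.Geo.specialLinear, MonoidHom.mem_ker, Units.ext_iff]; rfl

theorem conj_SL {F : Type*} [Field F] [Finite F] (ho : Odd (Nat.card F)) {x y : GL (Fin 2) F}
    (hx : x.val.det = 1) (hy : y.val.det = 1) (e : x.val.trace = y.val.trace)
    (ht : x.val.trace ^ 2 ≠ 4) : ∃ g ∈ Cfsg.Geo.specialLinear (Fin 2) F, g⁻¹ * x * g = y := by
  obtain ⟨P, hP, e1⟩ := companion ho hx ht
  obtain ⟨Q, hQ, e2⟩ := companion ho hy (e ▸ ht)
  obtain ⟨P, rfl⟩ := exists_GL (A := P) (by simp [hP])
  obtain ⟨Q, rfl⟩ := exists_GL (A := Q) (by simp [hQ])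
  obtain ⟨C, hC⟩ := exists_GL (A := !![0, -1; 1, x.val.trace]) (by simp)
  rw [← e] at e2
  rw [← hC, ← Units.val_mul, ← Units.val_mul, ← Units.ext_iff] at e1 e2
  refine ⟨P * Q⁻¹, mul_mem (mem_SL.2 hP) (inv_mem (mem_SL.2 hQ)), ?_⟩
  rw [eq_mul_inv_of_mul_eq e1, eq_mul_inv_of_mul_eq e2]
  group

theorem quat {F : Type*} [Field F] {A B : Matrix (Fin 2) (Fin 2) F} (h1 : A ^ 2 = B ^ 2)
    (h2 : A ^ 2 * A ^ 2 = 1) (h3 : A * B = A ^ 2 * (B * A)) (h4 : A * B ≠ B * A) :
    A.trace = 0 ∧ B.trace = 0 ∧ A.det = 1 ∧ B.det = 1 ∧ A ^ 2 = -1 := by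
  have key : ∀ A B : Matrix (Fin 2) (Fin 2) F, A ^ 2 = B ^ 2 → A * B ≠ B * A → A.trace = 0 := by
    intro A B h1 h4
    by_contra hc
    apply h4
    apply smul_right_injective _ hc
    rw [sq_eq, sq_eq, ← eq_sub_iff_add_eq] at h1
    simp only [← smul_mul_assoc, ← mul_smul_comm _ B, h1]
    simp [sub_mul, mul_sub, add_mul, mul_add]
  have a := key A B h1 h4
  have b := key B A h1.symm h4.symm
  have c := sq_eq A
  rw [c, sq_eq B, a, b] at h1
  rw [a, zero_smul, zero_add] at c
  have d : A.det = B.det := by simpa using congrFun (congrFun h1 0) 0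
  have e : A.det * A.det = 1 := by simpa [c] using congrFun (congrFun h2 0) 0
  rcases mul_self_eq_one_iff.1 e with e | e
  · exact ⟨a, b, e, d ▸ e, by simp [c, e]⟩
  · exact absurd (by simpa [c, e] using h3) h4

theorem mem_norm {G : Type*} [Group G] (f : QuaternionGroup 2 →* G) {y : G}
    (h1 : y * f (.a 1) * y⁻¹ ∈ f.range) (h2 : y * f (.xa 0) * y⁻¹ ∈ f.range) :
    y ∈ Subgroup.normalizer (f.range : Set G) := by
  have : Finite (f.range : Set G) := Finite.of_surjective _ f.rangeRestrict_surjective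
  refine Subgroup.mem_normalizer_fintype ?_
  rintro _ ⟨g, rfl⟩
  have h3 : ∀ i, y * f (.a i) * y⁻¹ ∈ f.range := fun i => by
    rw [← ZMod.natCast_zmod_val i, ← QuaternionGroup.a_one_pow, map_pow, ← conj_pow]
    exact pow_mem h1 _
  cases g with
  | a i => exact h3 i
  | xa i =>
    rw [← zero_add i, ← QuaternionGroup.xa_mul_a, map_mul, ← conj_mul]
    exact mul_mem h2 (h3 i)

theorem quatC {F : Type*} [Field F] (h2 : (2 : F) ≠ 0) {A B : Matrix (Fin 2) (Fin 2) F}
    (tA : A.trace = 0) (tB : B.trace = 0) (dA : A.det = 1) (dB : B.det = 1)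
    (hAB : A * B = -(B * A)) :
    (1 + A + B + A * B).det = 4 ∧ (1 + A + B + A * B).trace = 2 ∧
      B * (1 + A + B + A * B) = (1 + A + B + A * B) * A ∧
      A * B * (1 + A + B + A * B) = (1 + A + B + A * B) * B ∧
      ∀ y : Matrix (Fin 2) (Fin 2) F, y * A = A * y → y * B = B * y → y = y 0 0 • 1 := by
  obtain ⟨a, b, c, a', rfl⟩ : ∃ a b c d, A = !![a, b; c, d] := ⟨_, _, _, _, eta_fin_two A⟩
  obtain ⟨d, e, g, d', rfl⟩ : ∃ a b c d, B = !![a, b; c, d] := ⟨_, _, _, _, eta_fin_two B⟩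
  rw [trace_fin_two_of] at tA tB
  obtain rfl := eq_neg_of_add_eq_zero_right tA
  obtain rfl := eq_neg_of_add_eq_zero_right tB
  rw [det_fin_two_of] at dA dB
  have h := congrFun (congrFun hAB 0) 0
  simp [mul_apply, Fin.sum_univ_two] at h
  refine ⟨?_, ?_, ?_, ?_, fun y k1 k2 => ?_⟩
  · simp [det_fin_two]; grind
  · simp [trace_fin_two]; grind
  · ext i j; fin_cases i <;> fin_cases j <;> simp [mul_apply, Fin.sum_univ_two] <;> grind
  · ext i j; fin_cases i <;> fin_cases j <;> simp [mul_apply, Fin.sum_univ_two] <;> grind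
  · obtain ⟨u, v, w, x, rfl⟩ : ∃ a b c d, y = !![a, b; c, d] := ⟨_, _, _, _, eta_fin_two y⟩
    simp only [mul_fin_two, ← Matrix.ext_iff, Fin.forall_fin_two, of_apply, cons_val',
      cons_val_zero, cons_val_one, cons_val_fin_one] at k1 k2
    have h4 : (4 : F) ≠ 0 := by rw [show (4 : F) = 2 * 2 by norm_num]; exact mul_ne_zero h2 h2
    have : v = 0 ∧ w = 0 ∧ x = u := by grind
    ext i j; fin_cases i <;> fin_cases j <;> simp [this]

theorem aut_eight {R : Type*} [Group R] (h8 : Nat.card R = 8) {r : ℕ} [hr : Fact r.Prime]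
    (h5 : 5 ≤ r) (φ : MulAut R) (hφ : φ ^ r = 1) {z : R} (hz : z ≠ 1) (hz' : φ z = z) (g : R) :
    φ g = g := by
  classical
  have : Finite R := Nat.finite_of_card_ne_zero (by omega)
  have := Fintype.ofFinite R
  let K : Subgroup R := φ.toMonoidHom.eqLocus (MonoidHom.id _)
  have h4 := Equiv.Perm.card_fixedPoints_modEq (p := r) (n := 1)
    (f := MulAction.toEndHom (M := MulAut R) (α := R) φ) (by rw [pow_one, ← map_pow, hφ, map_one])
  simp only [← Nat.card_eq_fintype_card, h8] at h4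
  change 8 ≡ Nat.card K [MOD r] at h4
  have h5 := h8 ▸ Subgroup.card_subgroup_dvd_card K
  have h6 : Nat.card K ≠ 1 := fun e => hz ((Subgroup.card_eq_one.1 e).le (show z ∈ K from hz'))
  refine (Subgroup.eq_top_of_card_eq K ?_).ge (Subgroup.mem_top g)
  have h9 := Nat.le_of_dvd (by norm_num) h5
  have h10 := Nat.le_of_dvd (n := 8 - Nat.card K) (m := r)
  have h11 := (Nat.modEq_iff_dvd' h9).1 h4.symm
  have h12 := hr.1
  rw [h8]
  generalize Nat.card K = k at *
  clear h4
  interval_cases k <;> first | omega | skip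
  all_goals
    have := h10 (by norm_num) h11
    interval_cases r <;> first | omega | norm_num at h12


/-- Elements of prime order of PSL_2(p) and the normalizer of a quaternion subgroup. Here `T = PSL_2(F)` for the field `F` with `p` elements, `p ≥ 5` prime; `R` is a subgroup of GL_2(F) isomorphic to the quaternion group of order 8 (an absolutely irreducible 2-group of symplectic type), and `H` is the subgroup of matrices of determinant 1 normalizing `R` — a subgroup of type 2^{1+2}.O₂⁻(2), isomorphic modulo scalars to A₄ or S₄ (maximality is not assumed). Ω is the set of cosets of `H` in `T`, so an element of `T` of prime order `r` (a matrix `x` of determinant 1 with `x^r` scalar, `x` not scalar) fixes a point of Ω exactly when some conjugate of `x` by a matrix of determinant 1 normalizes `R`. Let `r` be a prime dividing the index of `H`. Then every element of `T` of order `r` fixes a point of Ω if and only if `r = 2` or `r = 3`. -/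
theorem result {F : Type*} [Field F] [Fintype F] {p : ℕ} [Fact p.Prime] [CharP F p] (hF : Fintype.card F = p) (hp : 5 ≤ p)
    (R : Subgroup (GL (Fin 2) F)) (hR : Nonempty (↥R ≃* QuaternionGroup 2))
    (r : ℕ) [Fact r.Prime]
    (hΩ : r ∣ (Cfsg.Geo.subgroupNormalizer R).relIndex (Cfsg.Geo.specialLinear (Fin 2) F)) :
    (∀ x ∈ Cfsg.Geo.specialLinear (Fin 2) F, (∃ z : F, ((x ^ r : GL (Fin 2) F) : Matrix (Fin 2) (Fin 2) F) = z • (1 : Matrix (Fin 2) (Fin 2) F)) →
      (∀ z : F, (x : Matrix (Fin 2) (Fin 2) F) ≠ z • (1 : Matrix (Fin 2) (Fin 2) F)) →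
      ∃ g ∈ Cfsg.Geo.specialLinear (Fin 2) F, g⁻¹ * x * g ∈ Cfsg.Geo.subgroupNormalizer R) ↔ (r = 2 ∨ r = 3) := by
  have ho : Odd (Nat.card F) := (FF.odd_iff p).2 (by omega)
  have h2 := FF.two_ne_zero ho
  have h3 : (3 : F) ≠ 0 := fun e => by
    have := Nat.le_of_dvd (by norm_num) ((CharP.cast_eq_zero_iff F p 3).1 e)
    omega
  have h8 : Nat.card R = 8 := by
    rw [card_of_equiv hR, Nat.card_eq_fintype_card, QuaternionGroup.card]
  obtain ⟨f, hf, rfl⟩ := exists_hom hR
  obtain ⟨tA, tB, dA, dB, sA⟩ := quat (A := (f (.a 1)).val) (B := (f (.xa 0)).val)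
    (by simp only [← Units.val_pow_eq_pow_val, ← map_pow]; congr 2)
    (by simp only [← Units.val_pow_eq_pow_val, ← map_pow, ← Units.val_mul, ← map_mul]
        exact congrArg Units.val (map_one f))
    (by simp only [← Units.val_pow_eq_pow_val, ← map_pow, ← Units.val_mul, ← map_mul]; congr 2)
    (by simp only [← Units.val_mul, ← map_mul, Ne, ← Units.ext_iff, hf.eq_iff]; decide)
  have hAB : (f (.a 1)).val * (f (.xa 0)).val = -((f (.xa 0)).val * (f (.a 1)).val) := by
    rw [← neg_one_mul, ← sA]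
    simp only [← Units.val_pow_eq_pow_val, ← map_pow, ← Units.val_mul, ← map_mul]; congr 2
  have hAB' : (f (.xa 3)).val = (f (.a 1)).val * (f (.xa 0)).val := by
    simp only [← Units.val_mul, ← map_mul]; congr 2
  have sc : ∀ (x : GL (Fin 2) F) (z : F), x.val.det = 1 → x.val = z • 1 → x ^ 2 = 1 :=
    fun x z h e => Units.ext (by
      rw [e, det_smul, det_one, Fintype.card_fin, mul_one] at h
      rw [Units.val_pow_eq_pow_val, e, smul_pow, h]; simp)
  have lin : ∀ (x : GL (Fin 2) F) (u v z : F), (∀ z : F, x.val ≠ z • 1) →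
      u • x.val + v • 1 = z • 1 → u = 0 := fun x u v z h e => by
    by_contra hc
    refine h ((z - v) / u) (smul_right_injective _ hc ?_)
    simp only [smul_smul, mul_div_cancel₀ _ hc, sub_smul, ← e, add_sub_cancel_right]
  generalize hA : (f (.a 1)).val = A at *
  generalize hB : (f (.xa 0)).val = B at *
  obtain ⟨c1, c2, c3, c4, c5⟩ := quatC h2 tA tB dA dB hAB
  have h4' : (4 : F) ≠ 0 := by rw [show (4 : F) = 2 * 2 by norm_num]; exact mul_ne_zero h2 h2
  constructor
  · intro h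
    by_contra hr
    have hr5 : 5 ≤ r := (Fact.out : r.Prime).five_le_of_ne_two_of_ne_three
      (fun e => hr (Or.inl e)) fun e => hr (Or.inr e)
    obtain ⟨⟨x, hx⟩, hxr⟩ := exists_prime_orderOf_dvd_card' r
      (hΩ.trans (Subgroup.relIndex_dvd_card _ _))
    rw [Subgroup.orderOf_mk] at hxr
    obtain ⟨g, hg, hy⟩ := h x hx ⟨1, by rw [← hxr, pow_orderOf_eq_one]; simp⟩ fun z e =>
      pow_ne_one_of_lt_orderOf two_ne_zero (by omega) (sc x z (mem_SL.1 hx) e)
    have hyr : orderOf (g⁻¹ * x * g) = r := by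
      rw [← hxr]
      simpa using orderOf_injective (MulAut.conj g⁻¹).toMonoidHom (MulAut.conj g⁻¹).injective x
    have hy1 := mem_SL.1 (mul_mem (mul_mem (inv_mem hg) hx) hg)
    generalize g⁻¹ * x * g = y at hy hyr hy1
    let φ := f.range.normalizerMonoidHom ⟨y, hy⟩
    have hφ : φ ^ r = 1 := by
      rw [← map_pow, show (⟨y, hy⟩ : Subgroup.normalizer (f.range : Set (GL (Fin 2) F))) ^ r = 1 from
        Subtype.ext (hyr ▸ pow_orderOf_eq_one y), map_one]
    have key : ∀ g, y.val * (f g).val = (f g).val * y.val := fun g => by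
      have : y * f g * y⁻¹ = f g := congrArg Subtype.val (aut_eight h8 hr5 φ hφ
        (z := ⟨f (.a 1 ^ 2), _, rfl⟩) (fun e => absurd ((map_eq_one_iff f hf).1
          (congrArg Subtype.val e)) (by decide)) (Subtype.ext (Units.ext (by
            change (y * f (.a 1 ^ 2) * y⁻¹).val = (f (.a 1 ^ 2)).val
            rw [Units.val_mul, Units.val_mul, map_pow, Units.val_pow_eq_pow_val, hA, sA]
            simp))) ⟨f g, g, rfl⟩)
      rw [← Units.val_mul, ← Units.val_mul, mul_inv_eq_iff_eq_mul.1 this]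
    exact pow_ne_one_of_lt_orderOf two_ne_zero (by omega)
      (sc y (y.val 0 0) hy1 (c5 _ (hA ▸ key (.a 1)) (hB ▸ key (.xa 0))))
  · rintro (rfl | rfl) x hx ⟨z, hz⟩ hn
    · rw [Units.val_pow_eq_pow_val, sq_eq] at hz
      have ht := lin x _ _ _ hn hz
      obtain ⟨g, hg, e⟩ := conj_SL ho (mem_SL.1 hx) (hA ▸ dA : (f (.a 1)).val.det = 1)
        (by rw [ht, hA, tA]) (by rw [ht]; simpa using h4'.symm)
      exact ⟨g, hg, e ▸ Subgroup.le_normalizer ⟨_, rfl⟩⟩
    · rw [Units.val_pow_eq_pow_val, pow_succ_eq (sq_eq _)] at hz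
      have ht := lin x _ _ _ hn hz
      rw [mem_SL.1 hx] at ht
      have hd : ((x.val.trace / 2) • (1 + A + B + A * B)).det = 1 := by
        rw [det_smul, c1, Fintype.card_fin]
        field_simp
        linear_combination 4 * ht
      obtain ⟨C, hC⟩ := exists_GL (A := (x.val.trace / 2) • (1 + A + B + A * B))
        (by rw [hd]; exact one_ne_zero)
      obtain ⟨g, hg, e⟩ := conj_SL ho (mem_SL.1 hx) (hC ▸ hd : C.val.det = 1) (by
        rw [hC, trace_smul, c2, smul_eq_mul, div_mul_cancel₀ _ h2])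
        (fun e => h3 (by linear_combination ht - e))
      refine ⟨g, hg, e ▸ mem_norm f ⟨.xa 0, ?_⟩ ⟨.xa 3, ?_⟩⟩ <;>
      · rw [eq_mul_inv_iff_mul_eq, Units.ext_iff, Units.val_mul, Units.val_mul, hC]
        simp only [hA, hB, hAB', Matrix.mul_smul, Matrix.smul_mul, c3, c4]

end Cfsg.Agent.S5997
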