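import Cfsg.Statements.S5998
import Cfsg.Agent.H2.Heis

set_option autoImplicit false
open scoped MatrixGroups
open Cfsg

namespace Cfsg.Agent.S5998

open Cfsg.Agent.H2.SympType Cfsg.Agent.H2.Wall Cfsg.Agent.H2.Cls

/-- Elements of prime order of PSL_3(p), p ≡ 1 (mod 3), and the normalizer of an extraspecial subgroup of order 27. Here `T = PSL_3(F)` for the field `F` with `p` elements, `p` a prime with `p ≡ 1 (mod 3)`; `R` is a non-abelian subgroup of GL_3(F) of order 27 and exponent 3 (an extraspecial group 3^{1+2}, acting absolutely irreducibly), and `H` is the subgroup of matrices of determinant 1 normalizing `R` — a subgroup of type 3^{1+2}.Sp₂(3) (maximality is not assumed). Ω is the set of cosets of `H` in `T`, so an element of `T` of prime order `r` (a matrix `x` of determinant 1 with `x^r` scalar, `x` not scalar) fixes a point of Ω exactly when some conjugate of `x` by a matrix of determinant 1 normalizes `R`. Let `r` be a prime dividing the index of `H`. Then every element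 of `T` of order `r` fixes a point of Ω if and only if `r = 2`, or `r = 3` and `p ≡ 1 (mod 9)`. -/
theorem result {F : Type*} [Field F] [Fintype F] {p : ℕ} [Fact p.Prime] [CharP F p] (hF : Fintype.card F = p) (hp3 : p % 3 = 1)
    (R : Subgroup (GL (Fin 3) F)) (hR : Nat.card R = 27) (hRe : Monoid.exponent R = 3) (hRna : ¬ IsMulCommutative R)
    (r : ℕ) [Fact r.Prime]
    (hΩ : r ∣ (Cfsg.Geo.subgroupNormalizer R).relIndex (Cfsg.Geo.specialLinear (Fin 3) F)) :
    (∀ x ∈ Cfsg.Geo.specialLinear (Fin 3) F, (∃ z : F, ((x ^ r : GL (Fin 3) F) : Matrix (Fin 3) (Fin 3) F) = z • (1 : Matrix (Fin 3) (Fin 3) F)) →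
      (∀ z : F, (x : Matrix (Fin 3) (Fin 3) F) ≠ z • (1 : Matrix (Fin 3) (Fin 3) F)) →
      ∃ g ∈ Cfsg.Geo.specialLinear (Fin 3) F, g⁻¹ * x * g ∈ Cfsg.Geo.subgroupNormalizer R) ↔ (r = 2 ∨ (r = 3 ∧ p % 9 = 1)) := by
  have hp := (Fact.out : p.Prime)
  have h2 : (2 : F) ≠ 0 := two_ne_zero'' p (by omega)
  have h3 : (3 : F) ≠ 0 := three_ne_zero' p (by omega)
  have hn : Fintype.card (Fin 3) = 3 := Fintype.card_fin 3
  obtain ⟨w₀, hw₀⟩ := H8.exists_isPrimitiveRoot (F := F) (d := 3) (by rw [hF]; omega)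
  have h6 := hw₀.geom_sum_eq_zero (by norm_num)
  simp only [Finset.sum_range_succ, Finset.range_zero, Finset.sum_empty] at h6
  obtain ⟨w, hw', P, hw, rfl⟩ := exists_std h3 (w₀ := w₀) (by linear_combination h6) hR hRe hRna
  have hc : Nat.card (R0 w hw') = 27 := by
    rw [← hR, Subgroup.card_map_of_injective (MulAut.conj P).injective]
  rw [Geo.subgroupNormalizer] at hΩ ⊢
  rw [elus_iff]
  constructor
  · intro H
    by_cases hr2 : r = 2
    · exact Or.inl hr2
    right
    by_cases hr3 : r = 3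
    · subst hr3
      refine ⟨rfl, ?_⟩
      by_contra h4
      refine not_three_dvd (by rw [hF]; omega) le_rfl hR Subgroup.le_normalizer ?_ hΩ
      rintro _ ⟨g, hg, rfl⟩
      exact (SL_conj P g).mp (R0_le_SL hw' hg)
    · exfalso
      obtain ⟨x, hx, h1, h4⟩ := exists_order le_rfl (by
        rw [hn]; exact (Nat.coprime_primes Fact.out Nat.prime_three).mpr hr3) hΩ
      obtain ⟨g, -, hg⟩ := H x hx (h1 ▸ sc_one) h4
      rw [← Subgroup.map_equiv_normalizer_eq] at hg
      obtain ⟨y, hy, e⟩ := hg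
      have e' : y = P⁻¹ * (g⁻¹ * x * g) * P := by rw [← e]; simp [mul_assoc]
      have := not_elus_big h3 hw hw' hc hr2 hr3 hy (by rw [e', conj_pow', conj_pow', h1]; simp)
      rw [e', sc_conj_iff, sc_conj_iff] at this
      exact h4 this
  · intro h
    refine Elus.transport ?_ (SL_conj P)
    rcases h with rfl | ⟨rfl, h⟩
    · refine elus_of_order le_rfl (by rw [hn]; norm_num) fun x hx h1 h4 => ?_
      obtain ⟨Q, e⟩ := conj_two3 h2 h1 h4 (mem_SL.mp hx)
      obtain ⟨g, hg, e'⟩ := sl_conj (r := 2) (by exact_mod_cast h2) one_ne_zero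
        (by rw [one_smul]; exact congrArg Units.val h1) e
      exact ⟨g, hg, e' ▸ Y3_mem_normalizer hw hw'⟩
    · rintro x hx ⟨z, hz⟩ -
      have h5 := congrArg Matrix.det hz
      rw [Units.val_pow_eq_pow_val, Matrix.det_pow, mem_SL.mp hx, Matrix.det_smul, Matrix.det_one,
        hn, one_pow, mul_one] at h5
      obtain ⟨ε, hε⟩ := exists_cube_root (by rwa [hF]) h5.symm
      obtain ⟨e, h0, h7, Q, hQ⟩ := exists_dg (r := 3) (by exact_mod_cast h3) hz (roots_three hw hε)
      obtain ⟨g, hg, e'⟩ := sl_conj (r := 3) (by exact_mod_cast h3) (Sc.ne_zero hz) hz hQ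
      exact ⟨g, hg, e' ▸ dg_mem_normalizer hw hw' h0 h7⟩

end Cfsg.Agent.S5998
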