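import Cfsg.Statements.S5999
import Cfsg.Agent.H2.Heis

set_option autoImplicit false
open scoped MatrixGroups
open Cfsg

namespace Cfsg.Agent.S5999

open Cfsg.Agent.H2.SympType Cfsg.Agent.H2.Wall Cfsg.Agent.H2.Cls

/-- Elements of prime order of PSU_3(p), p ≡ 2 (mod 3), and the normalizer of an extraspecial subgroup of order 27. Here `T = PSU_3(p)` for a prime `p ≥ 5` with `p ≡ 2 (mod 3)`, realised through `SU_3(p)`, the matrices of determinant 1 over the field `F` with `p²` elements preserving the hermitian form `Σ uᵢvᵢ^p`; `R` is a non-abelian subgroup of order 27 and exponent 3 of the full unitary group of that form (an extraspecial group 3^{1+2}, acting absolutely irreducibly), and `H` is the subgroup of `SU_3(p)` normalizing `R` — a subgroup of type 3^{1+2}.Sp₂(3) (maximality is not assumed). Ω is the set of cosets of `H`, so an element of `T` of prime order `r` (`x ∈ SU_3(p)` with `x^r` scalar, `x` not scalar) fixes a point of Ω exactly when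 some `SU_3(p)`-conjugate of `x` normalizes `R`. Let `r` be a prime dividing the index of `H`. Then every element of `T` of order `r` fixes a point of Ω if and only if `r = 2`, or `r = 3` and `p ≡ 8 (mod 9)`. -/
theorem result {F : Type*} [Field F] [Fintype F] {p : ℕ} [Fact p.Prime] [CharP F p] (hF : Fintype.card F = p ^ 2) (hp : 5 ≤ p) (hp3 : p % 3 = 2)
    (R : Subgroup (GL (Fin 3) F)) (hRU : R ≤ Cfsg.GU 3 F p) (hR : Nat.card R = 27) (hRe : Monoid.exponent R = 3) (hRna : ¬ IsMulCommutative R)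
    (r : ℕ) [Fact r.Prime]
    (hΩ : r ∣ (Cfsg.Geo.subgroupNormalizer R).relIndex (Cfsg.GU 3 F p ⊓ Cfsg.Geo.specialLinear (Fin 3) F)) :
    (∀ x ∈ Cfsg.GU 3 F p ⊓ Cfsg.Geo.specialLinear (Fin 3) F, (∃ z : F, ((x ^ r : GL (Fin 3) F) : Matrix (Fin 3) (Fin 3) F) = z • (1 : Matrix (Fin 3) (Fin 3) F)) →
      (∀ z : F, (x : Matrix (Fin 3) (Fin 3) F) ≠ z • (1 : Matrix (Fin 3) (Fin 3) F)) →
      ∃ g ∈ Cfsg.GU 3 F p ⊓ Cfsg.Geo.specialLinear (Fin 3) F, g⁻¹ * x * g ∈ Cfsg.Geo.subgroupNormalizer R) ↔ (r = 2 ∨ (r = 3 ∧ p % 9 = 8)) := by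
  have hpp := (Fact.out : p.Prime)
  have h2 : (2 : F) ≠ 0 := two_ne_zero'' p (by omega)
  have h3 : (3 : F) ≠ 0 := three_ne_zero' p (by omega)
  have hn : Fintype.card (Fin 3) = 3 := Fintype.card_fin 3
  let σ := frobenius F p
  have hq : ∀ a, σ a = a ^ p := fun a => rfl
  have hσ : ∀ a, σ (σ a) = a := fun a => by
    rw [hq, hq, ← pow_mul, ← pow_two, ← hF, FiniteField.pow_card]
  have hG : ∀ g, g ∈ Cfsg.GU 3 F p ↔ g ∈ (uAdj (Fin 3) σ hσ).Iso := mem_GU_iff hq
  obtain ⟨w₀, hw₀⟩ := H8.exists_isPrimitiveRoot (F := F) (d := 3) (by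
    have : p ^ 2 % 3 = 1 := by rw [Nat.pow_mod, hp3]
    rw [hF]; omega)
  have h6 := hw₀.geom_sum_eq_zero (by norm_num)
  simp only [Finset.sum_range_succ, Finset.range_zero, Finset.sum_empty] at h6
  obtain ⟨w, hw', P, hw, rfl⟩ := exists_std h3 (w₀ := w₀) (by linear_combination h6) hR hRe hRna
  have hσw : σ w = w ^ 2 := by rw [hq, pow_eq_pow_mod _ hw', hp3]
  have hne : ∃ a, σ a ≠ a := ⟨w, by rw [hσw]; grind⟩
  have hc : Nat.card (R0 w hw') = 27 := by
    rw [← hR, Subgroup.card_map_of_injective (MulAut.conj P).injective]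
  rw [Geo.subgroupNormalizer] at hΩ ⊢
  rw [elus_iff]
  constructor
  · intro H
    by_cases hr2 : r = 2
    · exact Or.inl hr2
    right
    by_cases hr3 : r = 3
    · subst hr3
      refine ⟨rfl, ?_⟩
      by_contra h4
      refine not_three_dvd ?_ inf_le_right hR Subgroup.le_normalizer (le_inf hRU ?_) hΩ
      · have : p % 9 = 2 ∨ p % 9 = 5 := by omega
        rw [hF, Nat.pow_mod]
        rcases this with e | e <;> rw [e] <;> norm_num
      · rintro _ ⟨g, hg, rfl⟩
        exact (SL_conj P g).mp (R0_le_SL hw' hg)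
    · exfalso
      obtain ⟨x, hx, h1, h4⟩ := exists_order inf_le_right (by
        rw [hn]; exact (Nat.coprime_primes Fact.out Nat.prime_three).mpr hr3) hΩ
      obtain ⟨g, -, hg⟩ := H x hx (h1 ▸ sc_one) h4
      rw [← Subgroup.map_equiv_normalizer_eq] at hg
      obtain ⟨y, hy, e⟩ := hg
      have e' : y = P⁻¹ * (g⁻¹ * x * g) * P := by rw [← e]; simp [mul_assoc]
      have := not_elus_big h3 hw hw' hc hr2 hr3 hy (by rw [e', conj_pow', conj_pow', h1]; simp)
      rw [e', sc_conj_iff, sc_conj_iff] at this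
      exact h4 this
  · intro h
    refine Elus.transport ?_ fun g => by
      rw [Subgroup.mem_inf, Subgroup.mem_inf, ← SL_conj P, hG, hG, ← u_conj_std h3 hw hw'
        (by rw [hσw]; grind) fun g hg => (hG g).mp (hRU hg)]
    rcases h with rfl | ⟨rfl, h⟩
    · refine elus_of_order inf_le_right (by rw [hn]; norm_num) fun x hx h1 h4 => ?_
      obtain ⟨Q, e⟩ := conj_two3 h2 h1 h4 (mem_SL.mp hx.2)
      obtain ⟨g, hg, hd, e'⟩ := su_conj hne h2 ((hG x).mp hx.1) Y3_mem_u e (Or.inr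
        (nrm_two hne h2 Y3_mem_u (s := 1) (by simp) (by
          rw [pow_two, one_pow, one_smul]; exact (Y3 F).val_inv) fun ⟨c, hc⟩ => by
            have := congrFun (congrFun hc 1) 2
            simp [Y3_val] at this))
      exact ⟨g, ⟨(hG g).mpr hg, mem_SL.mpr hd⟩, e' ▸ Y3_mem_normalizer hw hw'⟩
    · rintro x hx ⟨z, hz⟩ -
      have h5 := congrArg Matrix.det hz
      rw [Units.val_pow_eq_pow_val, Matrix.det_pow, mem_SL.mp hx.2, Matrix.det_smul, Matrix.det_one,
        hn, one_pow, mul_one] at h5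
      obtain ⟨ε, hε⟩ := exists_cube_root (by rw [hF, Nat.pow_mod, h]) h5.symm
      obtain ⟨e, h0, h7, Q, hQ⟩ := exists_dg (r := 3) (by exact_mod_cast h3) hz (roots_three hw hε)
      obtain ⟨g, hg, hd, e'⟩ := su_conj hne h2 ((hG x).mp hx.1) (dg_mem_u fun i => by
        have h8 : e i ^ 9 = 1 := by rw [show 9 = 3 * 3 from rfl, pow_mul, h7, h5]
        rw [hq, pow_eq_pow_mod _ h8, h, ← pow_succ', h8]) hQ (Or.inr (nrm_dg e))
      exact ⟨g, ⟨(hG g).mpr hg, mem_SL.mpr hd⟩, e' ▸ dg_mem_normalizer hw hw' h0 h7⟩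

end Cfsg.Agent.S5999
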