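import Cfsg.Statements.S6000
import Cfsg.Agent.H2.ConjSp

set_option autoImplicit false
open scoped MatrixGroups
open Cfsg

namespace Cfsg.Agent.S6000

open Cfsg.Agent.H2.SympType Cfsg.Agent.H2.Wall Cfsg.Agent.H2.Cls

/-- Elements of prime order of PSL_4(p), p ≡ 1 (mod 4), and the normalizer of a 2-group of symplectic type of order 2⁶. Here `T = PSL_4(F)` for the field `F` with `p` elements, `p` a prime with `p ≡ 1 (mod 4)`; `R` is an absolutely irreducible subgroup of GL_4(F) of order 2⁶ that is a 2-group of symplectic type of exponent 4 with centre of order 4 (the central product of the scalars of order 4 with an extraspecial group 2^{1+4}), and `H` is the subgroup of matrices of determinant 1 normalizing `R` — a subgroup of type 2⁴.Sp₄(2) (maximality is not assumed). Ω is the set of cosets of `H` in `T`, so an element of `T` of prime order `r` (a matrix `x` of determinant 1 with `x^r` scalar, `x` not scalar) fixes a point of Ω exactly when some conjugate of `x` by a matrix of determinant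 1 normalizes `R`. Let `r` be a prime dividing the index of `H`. Then every element of `T` of order `r` fixes a point of Ω if and only if `r = 2`, or `r = 3` and `p ≡ 2 (mod 3)`, or `r = 5` and `p ≡ ±2 (mod 5)` (`p` has multiplicative order 4 modulo 5). -/
theorem result {F : Type*} [Field F] [Fintype F] {p : ℕ} [Fact p.Prime] [CharP F p] (hF : Fintype.card F = p) (hp4 : p % 4 = 1)
    (R : Subgroup (GL (Fin 4) F)) (hR : Cfsg.Geo.IsLinearSymplecticTypeData 2 R) (hR6 : Nat.card R = 2 ^ 6)
    (r : ℕ) [Fact r.Prime]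
    (hΩ : r ∣ (Cfsg.Geo.subgroupNormalizer R).relIndex (Cfsg.Geo.specialLinear (Fin 4) F)) :
    (∀ x ∈ Cfsg.Geo.specialLinear (Fin 4) F, (∃ z : F, ((x ^ r : GL (Fin 4) F) : Matrix (Fin 4) (Fin 4) F) = z • (1 : Matrix (Fin 4) (Fin 4) F)) →
      (∀ z : F, (x : Matrix (Fin 4) (Fin 4) F) ≠ z • (1 : Matrix (Fin 4) (Fin 4) F)) →
      ∃ g ∈ Cfsg.Geo.specialLinear (Fin 4) F, g⁻¹ * x * g ∈ Cfsg.Geo.subgroupNormalizer R) ↔ (r = 2 ∨ (r = 3 ∧ p % 3 = 2) ∨ (r = 5 ∧ orderOf (p : ZMod 5) = 4)) := by
  have h2 : (2 : F) ≠ 0 := two_ne_zero'' p (by omega)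
  have hn : Fintype.card (Fin 4) = 4 := Fintype.card_fin 4
  have hP := pauli_of hR.symplecticType hR.absIrred
  have hZ : Nat.card (Subgroup.center R) = 4 := by
    obtain ⟨p', e, -, -, h | h | h⟩ := hR.field
    · exact absurd h.1 (by decide)
    · exact h.2.2.1
    · exact absurd h.2.2.1 (by decide)
  have hp := (Fact.out : p.Prime)
  let f : Fin 2 ↪ Fin 4 := ⟨![0, 1], by decide⟩
  rw [Geo.subgroupNormalizer] at hΩ ⊢
  rw [elus_iff, orderOf_five]
  constructor
  · intro H
    by_cases hr2 : r = 2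
    · exact Or.inl hr2
    right
    obtain ⟨x, hx, h1, h3⟩ := exists_order le_rfl (by
      rw [hn]; exact (Nat.Coprime.pow_right 2 ((Nat.coprime_primes Fact.out Nat.prime_two).mpr hr2)))
      hΩ
    have hr : r = 3 ∨ r = 5 := by
      rcases H.cases hP h2 hn (k := 2) hZ hR6 hr2 hx (h1 ▸ sc_one) h3 with h | h
      exacts [h.1, Or.inl h.1]
    rcases hr with rfl | rfl
    · refine Or.inl ⟨rfl, ?_⟩
      by_contra h4
      have h5 : p % 3 ≠ 0 := fun e => by
        have := (Nat.prime_dvd_prime_iff_eq Nat.prime_three hp).mp (Nat.dvd_of_mod_eq_zero e)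
        omega
      obtain ⟨w, hw⟩ := H8.exists_isPrimitiveRoot (F := F) (d := 3) (by rw [hF]; omega)
      have h0 : w ≠ 0 := hw.ne_zero (by norm_num)
      have h6 := hw.pow_eq_one
      refine H.not_hyp hP h2 (by rw [hn]; norm_num) (by decide)
        (x := dg ![1, w, w, w] (by intro i; fin_cases i <;> simp [h0])) ?_
        (dg_pow (z := 1) (by intro i; fin_cases i <;> simp [h6]))
        (fun e => hw.ne_one (by norm_num) (sc_dg e 1 0))
        (hyp_dg 0 (l := w) (by intro i hi; fin_cases i <;> first | rfl | exact absurd rfl hi))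
      rw [mem_SL, dg_val, Matrix.det_diagonal, Fin.prod_univ_four]
      simp only [Matrix.cons_val]
      linear_combination h6
    · refine Or.inr ⟨rfl, ?_⟩
      by_contra h4
      by_cases h5 : p = 5
      · subst h5
        exact H.bad_char 5 hP h2 (by rw [hn]; norm_num) (by decide) (f := f)
          (a := 1) (b := 1) (c := 0) (d := 1) (h := by ring)
          (by rw [mem_SL, E2_det, GL2_val]; simp) (by ring) one_ne_zero
      · have h6 : p % 5 ≠ 0 := fun e =>
          h5 ((Nat.prime_dvd_prime_iff_eq Nat.prime_five hp).mp (Nat.dvd_of_mod_eq_zero e)).symm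
        obtain ⟨t, ht, -⟩ := exists_tau (F := F) p h2 (by omega)
        exact H.bad_five hP h2 hn (k := 2) hZ hR6 (five_ne_zero p h5) (f := f)
          (a := 0) (b := -1) (c := 1) (d := t) (h := by ring)
          (by rw [mem_SL, E2_det, GL2_val]; simp) (by rwa [zero_add])
  · rintro (rfl | ⟨rfl, h⟩ | ⟨rfl, h⟩)
    · intro x hx h1 h3
      obtain ⟨s, hs, -, y, my, P, e⟩ := elus_two h2 hn hP hZ hR6 (mem_SL.mp hx) h1 h3
      obtain ⟨z, hz⟩ := h1
      obtain ⟨g, hg, e'⟩ := sl_conj (r := 2) (by exact_mod_cast h2) (Sc.ne_zero hz) hz e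
      exact ⟨g, hg, e' ▸ Subgroup.mul_mem _ (sc_scU s hs).mem_normalizer my.1⟩
    · have h3 : (3 : F) ≠ 0 := three_ne_zero' p (by omega)
      refine elus_of_order le_rfl (by rw [hn]; norm_num) fun x _ h1 h4 => ?_
      have h5 := trace_pow_char p (by exact_mod_cast h3) h1
      rw [h, ← hF, FiniteField.pow_card] at h5
      obtain ⟨y, my, P, e⟩ := elus_three h2 h3 hn hP hZ hR6 h1 h4 h5
      obtain ⟨g, hg, e'⟩ := sl_conj (r := 3) (by exact_mod_cast h3) one_ne_zero
        (by rw [one_smul]; exact congrArg Units.val h1) e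
      exact ⟨g, hg, e' ▸ my.1⟩
    · refine elus_of_order le_rfl (by rw [hn]; norm_num) fun x _ h1 h4 => ?_
      obtain ⟨a, b, c, d, hq⟩ := hP.pairs hZ hR6
      obtain ⟨j, mj, sj, hj⟩ := hP.exists_i hZ
      obtain ⟨a, b, c, d, ha, hb, hc, hd, hq⟩ := hq.adj4 hP mj sj hj (Or.inl rfl) (Or.inr rfl)
      obtain ⟨y, my, h5, h6⟩ := hq.exists_five h2 hP ha hb hc hd
      obtain ⟨P, e⟩ := conj_five p h hn h1 h5 h4 h6 (Or.inl rfl) (charpoly_frob_prime p hF _)
        (charpoly_frob_prime p hF _)
      obtain ⟨g, hg, e'⟩ := sl_conj (r := 5) (by exact_mod_cast five_ne_zero p (by omega))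
        one_ne_zero (by rw [one_smul]; exact congrArg Units.val h1) e
      exact ⟨g, hg, e' ▸ my.1⟩

end Cfsg.Agent.S6000
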