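import Cfsg.Statements.S6001
import Cfsg.Agent.H2.ConjSp

set_option autoImplicit false
open scoped MatrixGroups
open Cfsg

namespace Cfsg.Agent.S6001

open Cfsg.Agent.H2.SympType Cfsg.Agent.H2.Wall Cfsg.Agent.H2.Cls

/-- Elements of prime order of PSU_4(p), p ≡ 3 (mod 4), and the normalizer of a 2-group of symplectic type of order 2⁶. Here `T = PSU_4(p)` for a prime `p ≡ 3 (mod 4)`, realised through `SU_4(p)`, the matrices of determinant 1 over the field `F` with `p²` elements preserving the hermitian form `f = Σ uᵢvᵢ^p`; `R` is an absolutely irreducible subgroup of the full unitary group of `f` of order 2⁶ that is a 2-group of symplectic type of exponent 4 with centre of order 4, and `H` is the subgroup of `SU_4(p)` normalizing `R` — a subgroup of type 2⁴.Sp₄(2) (maximality is not assumed). Ω is the set of cosets of `H`, so an element of `T` of prime order `r` (`x ∈ SU_4(p)` with `x^r` scalar, `x` not scalar) fixes a point of Ω exactly when some `SU_4(p)`-conjugate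 of `x` normalizes `R`. Let `r` be a prime dividing the index of `H`. Then every element of `T` of order `r` fixes a point of Ω if and only if `r = 2`, or `r = 3` and `p ≡ 1 (mod 3)`, or `r = 5` and `p ≡ ±2 (mod 5)` (`p` has multiplicative order 4 modulo 5). -/
theorem result {F : Type*} [Field F] [Fintype F] {p : ℕ} [Fact p.Prime] [CharP F p] (hF : Fintype.card F = p ^ 2) (hp4 : p % 4 = 3)
    (R : Subgroup (GL (Fin 4) F)) (hRs : Cfsg.Geo.IsSymplecticTypeGroup 2 R) (hRi : Cfsg.Geo.ActsAbsolutelyIrreducibly (Cfsg.Geo.matrixSet R))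
    (hRU : R ≤ Cfsg.GU 4 F p) (hR6 : Nat.card R = 2 ^ 6) (hRZ : Nat.card (Subgroup.center R) = 4)
    (r : ℕ) [Fact r.Prime]
    (hΩ : r ∣ (Cfsg.Geo.subgroupNormalizer R).relIndex (Cfsg.GU 4 F p ⊓ Cfsg.Geo.specialLinear (Fin 4) F)) :
    (∀ x ∈ Cfsg.GU 4 F p ⊓ Cfsg.Geo.specialLinear (Fin 4) F, (∃ z : F, ((x ^ r : GL (Fin 4) F) : Matrix (Fin 4) (Fin 4) F) = z • (1 : Matrix (Fin 4) (Fin 4) F)) →
      (∀ z : F, (x : Matrix (Fin 4) (Fin 4) F) ≠ z • (1 : Matrix (Fin 4) (Fin 4) F)) →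
      ∃ g ∈ Cfsg.GU 4 F p ⊓ Cfsg.Geo.specialLinear (Fin 4) F, g⁻¹ * x * g ∈ Cfsg.Geo.subgroupNormalizer R) ↔ (r = 2 ∨ (r = 3 ∧ p % 3 = 1) ∨ (r = 5 ∧ orderOf (p : ZMod 5) = 4)) := by
  have h2 : (2 : F) ≠ 0 := two_ne_zero'' p (by omega)
  have hn : Fintype.card (Fin 4) = 4 := Fintype.card_fin 4
  have hP := pauli_of hRs hRi
  have hp := (Fact.out : p.Prime)
  let f : Fin 2 ↪ Fin 4 := ⟨![0, 1], by decide⟩
  let σ := frobenius F p
  have hq : ∀ a, σ a = a ^ p := fun a => rfl
  have hσ : ∀ a, σ (σ a) = a := fun a => by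
    rw [hq, hq, ← pow_mul, ← pow_two, ← hF, FiniteField.pow_card]
  have hG : ∀ g, g ∈ Cfsg.GU 4 F p ↔ g ∈ (uAdj (Fin 4) σ hσ).Iso := mem_GU_iff hq
  obtain ⟨i, hi, σi⟩ : ∃ i : F, i ^ 2 = -1 ∧ σ i = -i := by
    obtain ⟨i, hi⟩ := H8.exists_isPrimitiveRoot (F := F) (d := 4) (by
      have : p ^ 2 % 4 = 1 := by rw [Nat.pow_mod, hp4]
      rw [hF]; omega)
    have h1 : i ^ 2 = -1 := (hi.pow (by norm_num) (show 4 = 2 * 2 from rfl)).eq_neg_one_of_two_right
    refine ⟨i, h1, ?_⟩
    rw [hq, pow_eq_pow_mod _ hi.pow_eq_one, hp4, pow_succ, h1, neg_one_mul]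
  have hne : ∃ a, σ a ≠ a := ⟨i, fun e => by grind⟩
  have hRI : R ≤ (uAdj (Fin 4) σ hσ).Iso := fun g hg => (hG g).mp (hRU hg)
  rw [Geo.subgroupNormalizer] at hΩ ⊢
  rw [elus_iff, orderOf_five]
  constructor
  · intro H
    by_cases hr2 : r = 2
    · exact Or.inl hr2
    right
    obtain ⟨x, hx, h1, h3⟩ := exists_order inf_le_right (by
      rw [hn]; exact (Nat.Coprime.pow_right 2 ((Nat.coprime_primes Fact.out Nat.prime_two).mpr hr2)))
      hΩ
    have hr : r = 3 ∨ r = 5 := by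
      rcases H.cases hP h2 hn (k := 2) hRZ hR6 hr2 hx (h1 ▸ sc_one) h3 with h | h
      exacts [h.1, Or.inl h.1]
    rcases hr with rfl | rfl
    · refine Or.inl ⟨rfl, ?_⟩
      by_contra h4
      by_cases h5 : p = 3
      · subst h5
        obtain ⟨b, hb⟩ := H7.exists_norm_eq σ hσ hne (t := -1) (by simp)
        have e : σ (1 + i) = 1 - i := by rw [map_add, map_one, σi, sub_eq_add_neg]
        have h : (1 + i) * σ (1 + i) - b * -σ b = 1 := by rw [e]; linear_combination hb - hi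
        exact H.bad_char 3 hP h2 (by rw [hn]; norm_num) (by decide) (f := f) (h := h)
          ⟨(hG _).mpr (E2_mem_u f (GL2_mem_u _ _ h)), mem_SL.mpr (by
            rw [E2_det, GL2_val, Matrix.det_fin_two_of, h])⟩
          (by rw [e]; ring) (fun e => by simp [e] at hb)
      have h6 : p % 3 ≠ 0 := fun e =>
        h5 ((Nat.prime_dvd_prime_iff_eq Nat.prime_three hp).mp (Nat.dvd_of_mod_eq_zero e)).symm
      have h7 : p % 3 = 2 := by omega
      obtain ⟨w, hw⟩ := H8.exists_isPrimitiveRoot (F := F) (d := 3) (by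
        have : p ^ 2 % 3 = 1 := by rw [Nat.pow_mod, h7]
        rw [hF]; omega)
      have h0 : w ≠ 0 := hw.ne_zero (by norm_num)
      have h6 := hw.pow_eq_one
      have h8 : w * σ w = 1 := by rw [hq, pow_eq_pow_mod _ h6, h7, ← pow_succ', h6]
      refine H.not_hyp hP h2 (by rw [hn]; norm_num) (by decide)
        (x := dg ![1, w, w, w] (by intro i; fin_cases i <;> simp [h0]))
        ⟨(hG _).mpr (dg_mem_u (by intro i; fin_cases i <;> simp [h8])), mem_SL.mpr ?_⟩
        (dg_pow (z := 1) (by intro i; fin_cases i <;> simp [h6]))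
        (fun e => hw.ne_one (by norm_num) (sc_dg e 1 0))
        (hyp_dg 0 (l := w) (by intro i hi; fin_cases i <;> first | rfl | exact absurd rfl hi))
      rw [dg_val, Matrix.det_diagonal, Fin.prod_univ_four]
      simp only [Matrix.cons_val]
      linear_combination h6
    · refine Or.inr ⟨rfl, ?_⟩
      by_contra h4
      have h5 : p ≠ 5 := by omega
      have h6 : p % 5 ≠ 0 := fun e =>
        h5 ((Nat.prime_dvd_prime_iff_eq Nat.prime_five hp).mp (Nat.dvd_of_mod_eq_zero e)).symm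
      obtain ⟨t, ht, ht'⟩ := exists_tau (F := F) p h2 (by omega)
      have e : σ (t / 2) = t / 2 := by rw [map_div₀, hq, ht', map_ofNat]
      obtain ⟨b, hb⟩ := H7.exists_norm_eq σ hσ hne (t := 1 - t / 2 * (t / 2)) (by
        rw [map_sub, map_one, map_mul, e])
      have h : t / 2 * σ (t / 2) - b * -σ b = 1 := by rw [e]; linear_combination hb
      exact H.bad_five hP h2 hn (k := 2) hRZ hR6 (five_ne_zero p h5) (f := f) (h := h)
        ⟨(hG _).mpr (E2_mem_u f (GL2_mem_u _ _ h)), mem_SL.mpr (by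
          rw [E2_det, GL2_val, Matrix.det_fin_two_of, h])⟩
        (by rwa [e, show t / 2 + t / 2 = t by field_simp; ring])
  · rintro (rfl | ⟨rfl, h⟩ | ⟨rfl, h⟩)
    · intro x hx h1 h3
      have hx' := (hG x).mp hx.1
      obtain ⟨s, hs, h4, y, my, P, e⟩ := elus_two h2 hn hP hRZ hR6 (mem_SL.mp hx.2) h1 h3
      have h5 : s * σ s = 1 ∧ Nrm σ hσ (x : Matrix (Fin 4) (Fin 4) F) := by
        rcases h4 with ⟨rfl, h4 | h4⟩ | ⟨h4, h5⟩
        · exact ⟨by simp, nrm_two hne h2 hx' (s := 1) (by simp) (by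
            rw [pow_two, one_pow, one_smul]; exact congrArg Units.val h4) h3⟩
        · exact ⟨by simp, nrm_two hne h2 hx' (s := i) (by rw [σi]; linear_combination -hi) (by
            rw [pow_two, hi, neg_smul, one_smul]; exact congrArg Units.val h4) h3⟩
        · have h6 : s * σ s = 1 := by
            have h7 := uAdj_trace (σ := σ) (hσ := hσ) (x : Matrix (Fin 4) (Fin 4) F)
            rw [Adj.st_eq_inv _ hx', Units.inv_eq_of_mul_eq_one_right
              (a := (s ^ 2)⁻¹ • (x : Matrix (Fin 4) (Fin 4) F)) (by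
                rw [mul_smul_comm, ← pow_two, h5, smul_smul, inv_mul_cancel₀ (pow_ne_zero _ hs),
                  one_smul]), Matrix.trace_smul, h4, map_mul, map_ofNat, smul_eq_mul] at h7
            field_simp at h7
            linear_combination -h7
          exact ⟨h6, nrm_two hne h2 hx' h6 h5 h3⟩
      obtain ⟨g, hg, hd, e'⟩ := su_conj hne h2 hx' (Subgroup.mul_mem _ (by
        rw [Adj.mem_Iso, scU_val, uAdj_smul, Adj.st_one, smul_mul_smul_comm, mul_comm (σ s), h5.1]
        simp) ((mem_NI.mp my).2 _ hRI)) e (Or.inl h5.2)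
      exact ⟨g, ⟨(hG g).mpr hg, mem_SL.mpr hd⟩,
        e' ▸ Subgroup.mul_mem _ (sc_scU s hs).mem_normalizer my.1⟩
    · have h3 : (3 : F) ≠ 0 := three_ne_zero' p (by omega)
      refine elus_of_order inf_le_right (by rw [hn]; norm_num) fun x hx h1 h4 => ?_
      have hx' := (hG x).mp hx.1
      have h5 := trace_pow_char p (by exact_mod_cast h3) h1
      rw [h, pow_one, ← hq, ← uAdj_trace (hσ := hσ), st_pow hx' h1] at h5
      obtain ⟨y, my, P, e⟩ := elus_three h2 h3 hn hP hRZ hR6 h1 h4 h5.symm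
      obtain ⟨w, hw⟩ := H8.exists_isPrimitiveRoot (F := F) (d := 3) (by
        have : p ^ 2 % 3 = 1 := by rw [Nat.pow_mod, h]
        rw [hF]; omega)
      have h6 := hw.geom_sum_eq_zero (by norm_num)
      simp only [Finset.sum_range_succ, Finset.range_zero, Finset.sum_empty] at h6
      obtain ⟨g, hg, hd, e'⟩ := su_conj hne h2 hx' ((mem_NI.mp my).2 _ hRI) e (Or.inl
        (nrm_three hne h3 hx' (w := w) (by linear_combination h6)
          (by rw [hq, pow_eq_pow_mod _ hw.pow_eq_one, h, pow_one]) h1 h4))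
      exact ⟨g, ⟨(hG g).mpr hg, mem_SL.mpr hd⟩, e' ▸ my.1⟩
    · refine elus_of_order inf_le_right (by rw [hn]; norm_num) fun x hx h1 h4 => ?_
      have hx' := (hG x).mp hx.1
      obtain ⟨a, b, c, d, hq⟩ := hP.pairs hRZ hR6
      obtain ⟨j, mj, sj, hj⟩ := hP.exists_i hRZ
      obtain ⟨a, b, c, d, ha, hb, hc, hd, hq⟩ := hq.adj4 hP mj sj hj (Or.inl rfl) (Or.inr rfl)
      obtain ⟨y, my, h5, h6⟩ := hq.exists_five h2 hP ha hb hc hd
      have hy' := (mem_NI.mp my).2 _ hRI
      obtain ⟨P, e⟩ := conj_five p h hn h1 h5 h4 h6 (Or.inr rfl) (charpoly_unitary hx' h1)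
        (charpoly_unitary hy' h5)
      obtain ⟨g, hg, hd, e'⟩ := su_conj hne h2 hx' hy' e (Or.inl
        (nrm_comm hx' (by exact_mod_cast five_ne_zero p (by omega)) h1
          (class_five p h hn (congrArg Units.val h1) (fun e => h4 (Units.ext e)) (Or.inr rfl)
            (charpoly_unitary hx' h1)).2))
      exact ⟨g, ⟨(hG g).mpr hg, mem_SL.mpr hd⟩, e' ▸ my.1⟩

end Cfsg.Agent.S6001
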