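import Cfsg.Statements.S6002
import Cfsg.Agent.H2.ConjSp

set_option autoImplicit false
open scoped MatrixGroups
open Cfsg

namespace Cfsg.Agent.S6002

open Cfsg.Agent.H2.SympType Cfsg.Agent.H2.Wall Cfsg.Agent.H2.Cls

/-- Elements of prime order of PSp_4(p), p odd, and the normalizer of an extraspecial 2-group of order 2⁵ of minus type. Here `T = PSp_4(F)` for the field `F` with `p` elements, `p` an odd prime, realised through the matrices preserving the standard alternating form `f`; `R` is an absolutely irreducible subgroup of `T` (it preserves `f`) that is a 2-group of symplectic type of exponent 4, order 2⁵ and centre of order 2, of minus type (no elementary abelian subgroup of order 2³), and `H` is the subgroup of `T` normalizing `R` — a subgroup of type 2^{1+4}.O₄⁻(2) (maximality is not assumed). Ω is the set of cosets of `H` in `T`, so an element of `T` of prime order `r` (`x ∈ T` with `x^r` scalar, `x` not scalar) fixes a point of Ω exactly when some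 `T`-conjugate of `x` normalizes `R`. Let `r` be a prime dividing the index of `H`. Then every element of `T` of order `r` fixes a point of Ω if and only if `r = 2`, or `r = 5` and `p` has multiplicative order 4 modulo 5. -/
theorem result {F : Type*} [Field F] [Fintype F] {p : ℕ} [Fact p.Prime] [CharP F p] (hF : Fintype.card F = p) (hodd : Odd p)
    (R : Subgroup (GL (Fin 2 ⊕ Fin 2) F)) (hRs : Cfsg.Geo.IsSymplecticTypeGroup 2 R) (hRi : Cfsg.Geo.ActsAbsolutelyIrreducibly (Cfsg.Geo.matrixSet R))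
    (hRf : R ≤ Cfsg.spGL 2 F) (hR5 : Nat.card R = 2 ^ 5) (hRZ : Nat.card (Subgroup.center R) = 2) (hRm : Cfsg.Geo.IsOfMinusType 2 R)
    (r : ℕ) [Fact r.Prime]
    (hΩ : r ∣ (Cfsg.Geo.subgroupNormalizer R).relIndex (Cfsg.spGL 2 F)) :
    (∀ x ∈ Cfsg.spGL 2 F, (∃ z : F, ((x ^ r : GL (Fin 2 ⊕ Fin 2) F) : Matrix (Fin 2 ⊕ Fin 2) (Fin 2 ⊕ Fin 2) F) = z • (1 : Matrix (Fin 2 ⊕ Fin 2) (Fin 2 ⊕ Fin 2) F)) →
      (∀ z : F, (x : Matrix (Fin 2 ⊕ Fin 2) (Fin 2 ⊕ Fin 2) F) ≠ z • (1 : Matrix (Fin 2 ⊕ Fin 2) (Fin 2 ⊕ Fin 2) F)) →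
      ∃ g ∈ Cfsg.spGL 2 F, g⁻¹ * x * g ∈ Cfsg.Geo.subgroupNormalizer R) ↔ (r = 2 ∨ (r = 5 ∧ orderOf (p : ZMod 5) = 4)) := by
  have hp := (Fact.out : p.Prime)
  have h2 : (2 : F) ≠ 0 := two_ne_zero'' p (by rintro rfl; exact absurd hodd (by decide))
  have hn : Fintype.card (Fin 2 ⊕ Fin 2) = 4 := by simp
  have hP := pauli_of hRs hRi
  obtain ⟨a, b, c, d, hq⟩ := hP.pairs hRZ hR5
  have hRI : R ≤ (sAdj 2 F).Iso := fun g hg => (mem_sp_iff g).mp (hRf hg)
  have hsc : ∀ a ∈ Cfsg.spGL 2 F, Sc a → a * a = 1 := by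
    rintro a ha ⟨z, hz⟩
    have := (mem_sp_iff a).mp ha
    rw [Adj.mem_Iso, hz, sAdj_smul, Adj.st_one, ← hz] at this
    exact Units.ext this
  rw [Geo.subgroupNormalizer] at hΩ ⊢
  rw [elus_iff, orderOf_five]
  constructor
  · intro H
    by_cases hr2 : r = 2
    · exact Or.inl hr2
    right
    obtain ⟨x, hx, h1, h3⟩ := exists_order (sp_le_SL 2) (by
      rw [hn]; exact (Nat.Coprime.pow_right 2 ((Nat.coprime_primes Fact.out Nat.prime_two).mpr hr2)))
      hΩ
    have hr : r = 3 ∨ r = 5 := by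
      rcases H.cases hP h2 hn (k := 1) hRZ hR5 hr2 hx (h1 ▸ sc_one) h3 with h | h
      exacts [h.1, Or.inl h.1]
    have hc : r ≠ p := by
      rintro rfl
      exact H.bad_char r hP h2 (by rw [hn]; norm_num) hodd
        (E2_mem_sp 1 1 0 1 (by ring)) (by ring) one_ne_zero
    rcases hr with rfl | rfl
    · exfalso
      have h : (0 : F) * -1 - -1 * 1 = 1 := by ring
      have := H.cases hP h2 hn (k := 1) hRZ hR5 hr2 (E2_mem_sp 0 (-1) 1 (-1) h)
        (by rw [← map_pow, GL2_three _ _ _ _ h (by ring), map_one]; exact sc_one) (fun e => by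
          obtain ⟨z, hz⟩ := E2_sc e
          have e2 := congrFun (congrFun hz 0) 1
          simp [GL2_val] at e2)
      rcases this with ⟨-, -, y, hy, h4, h5⟩ | ⟨-, e⟩
      · obtain ⟨u, mu, hu, nu⟩ := hq.exists_two h2 hP (Or.inl rfl)
        exact hP.exists_fixed h2 hRm (fun a ha => hsc a (hRf ha)) mu hu nu hy h4 h5
      · rw [← map_inv, E2_trace, E2_trace, GL2_val, GL2_inv, Matrix.trace_fin_two_of,
          Matrix.trace_fin_two_of, hn] at e
        exact three_ne_zero' (F := F) p hc.symm (by push_cast at e; linear_combination -e)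
    · refine ⟨rfl, ?_⟩
      by_contra h4
      have h6 : p % 5 ≠ 0 := fun e =>
        hc ((Nat.prime_dvd_prime_iff_eq Nat.prime_five hp).mp (Nat.dvd_of_mod_eq_zero e))
      obtain ⟨t, ht, -⟩ := exists_tau (F := F) p h2 (by omega)
      exact H.bad_five hP h2 hn (k := 1) hRZ hR5 (five_ne_zero p hc.symm)
        (E2_mem_sp 0 (-1) 1 t (by ring)) (by rwa [zero_add])
  · rintro (rfl | ⟨rfl, h⟩)
    · intro x hx h1 h3
      rcases two_cases h2 hn (mem_SL.mp (sp_le_SL 2 hx)) h1 h3 with ⟨h4, h5⟩ | ⟨s, h4, -, h5⟩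
      · obtain ⟨y, my, h6, h7⟩ := hq.exists_two h2 hP h4
        rcases h4 with h4 | h4
        · obtain ⟨g, hg, e⟩ := sp_inv h2 hx (hRf my) h4 (h6.trans h4) h3 h7
          exact ⟨g, hg, e ▸ Subgroup.le_normalizer my⟩
        · obtain ⟨z, hz⟩ := h1
          obtain ⟨P, e⟩ := conj_two h2 hn hz (y := y) (by
            rw [← hz, pow_two, pow_two, ← h6]; rfl) h3 h7 (by rw [h5, hP.trace_zero h2 my h7])
          obtain ⟨g, hg, e'⟩ := sp_neg h2 hx (hRf my) e h4
          exact ⟨g, hg, e' ▸ Subgroup.le_normalizer my⟩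
      · exfalso
        have h6 := congrArg Units.val (hsc _ (Subgroup.pow_mem _ hx 2) h1)
        rw [Units.val_mul, Units.val_pow_eq_pow_val, h5, smul_mul_smul_comm, one_mul] at h6
        have h7 := congrFun (congrFun h6 (Sum.inl 0)) (Sum.inl 0)
        simp only [Matrix.smul_apply, Units.val_one, Matrix.one_apply_eq, smul_eq_mul] at h7
        exact h2 (by linear_combination h4 - h7)
    · refine elus_of_order (sp_le_SL 2) (by rw [hn]; norm_num) fun x hx h1 h4 => ?_
      obtain ⟨a, b, c, d, ha, hb, hc, hd, hq⟩ := hq.minus h2 hP hRm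
      obtain ⟨y, my, h5, h6⟩ := hq.exists_five h2 hP ha hb hc hd
      obtain ⟨P, e⟩ := conj_five p h hn h1 h5 h4 h6 (Or.inl rfl) (charpoly_frob_prime p hF _)
        (charpoly_frob_prime p hF _)
      obtain ⟨g, hg, e'⟩ := sp_five h2 (five_ne_zero p (by omega)) hx
        ((mem_sp_iff y).mpr ((mem_NI.mp my).2 _ hRI)) e h1
        (class_five p h hn (congrArg Units.val h1) (fun e => h4 (Units.ext e)) (Or.inl rfl)
          (charpoly_frob_prime p hF _)).1
      exact ⟨g, hg, e' ▸ my.1⟩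

end Cfsg.Agent.S6002
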